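/-
S5815, piece LF: lifts to the spin group.
-/
import Cfsg.Agent.H26.O7J
import Cfsg.Agent.H12.OF11

set_option autoImplicit false

open Module QuadraticMap H12 Cfsg Subgroup H26.O7
namespace H11.O7
universe u v

section
variable {K : Type u} [Field K]

theorem Nm_one : Nm K (H8.oneZ K) = 1 := by simp [Nm_apply, H8.oneZ]

theorem comm_scalar (h2 : (2 : K) ≠ 0) (f : S K →ₗ[K] S K) (h : ∀ x s, f (L x s) = L x (f s)) :
    ∃ c : K, ∀ s, f s = c • s := by
  have r : ∀ i j k : Fin 3, (i, j, k) = (0, 1, 2) ∨ (i, j, k) = (1, 2, 0) ∨ (i, j, k) = (2, 0, 1) →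
      L (Pi.single (.inr (.inl i)) 1 : V K) (L (Pi.single (.inr (.inl j)) 1 : V K) (f (H8.oneZ K))) =
      L (Pi.single (.inr (.inr k)) 1 : V K) (f (H8.oneZ K)) := by
    intro i j k e
    rw [← h, ← h, ← h]
    congr 1
    rcases e with e | e | e <;> cases e <;> refine H8.fin8_ext ?_ ?_ ?_ ?_ ?_ ?_ ?_ ?_ <;>
      simp [H26.O7.L_apply, zm0, zm1, zm2, zm3, zm4, zm5, zm6, zm7, H8.oneZ]
  have a := congrFun (r 0 1 2 (by simp))
  have b := congrFun (r 1 2 0 (by simp))
  have c := congrFun (r 2 0 1 (by simp))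
  have e : f (H8.oneZ K) = f (H8.oneZ K) 0 • H8.oneZ K := by
    generalize f (H8.oneZ K) = t at a b c
    have a0 := a 0; have a1 := a 1; have a2 := a 2; have a6 := a 6; have b0 := b 0; have b2 := b 2; have c0 := c 0
    simp [H26.O7.L_apply, zm0, zm1, zm2, zm4, zm5, zm6, zm7, eq_comm (a := (0 : K))] at a0 a1 a2 a6 b0 b2 c0
    refine H8.fin8_ext ?_ ?_ ?_ ?_ ?_ ?_ ?_ ?_ <;> simp [H8.oneZ, *]
  refine ⟨f (H8.oneZ K) 0, fun s => ?_⟩
  have d : s = ((s 0 + s 7) / 2) • H8.oneZ K + L (Sum.elim (fun _ => (s 0 - s 7) / 2)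
      (Sum.elim ![s 1, s 2, s 3] ![s 4, s 5, s 6]) : V K) (H8.oneZ K) := by
    rw [L_one]
    refine H8.fin8_ext ?_ ?_ ?_ ?_ ?_ ?_ ?_ ?_ <;> simp [emb, H8.oneZ] <;> field_simp <;> ring
  generalize f (H8.oneZ K) 0 = t at e
  rw [d, map_add, map_smul, h, e, map_smul, smul_add, smul_comm]

theorem lift_uniq (h2 : (2 : K) ≠ 0) {g : Au K (V K)} {b b' : Au K (S K)} (h : Lift g b) (h' : Lift g b') :
    b' = b ∨ b' = LinearEquiv.neg K * b := by
  have k := h'.mul h.inv
  rw [mul_inv_cancel] at k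
  obtain ⟨c, hc⟩ := comm_scalar h2 (b' * b⁻¹ : Au K (S K)) k.1
  have e := k.2 (H8.oneZ K)
  rw [show (b' * b⁻¹) (H8.oneZ K) = c • H8.oneZ K from hc _, Q_smul, Nm_one, mul_one, mul_self_eq_one_iff] at e
  have a : ∀ s, b' s = c • b s := fun s => by
    rw [← hc (b s)]; exact congrArg b' (b.symm_apply_apply s).symm
  rcases e with rfl | rfl
  · exact .inl (LinearEquiv.ext fun s => by simp [a])
  · exact .inr (LinearEquiv.ext fun s => by simp [a])

/-- similarities over an isometry -/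
def Sim (g : Au K (V K)) (b : Au K (S K)) (μ : Kˣ) : Prop :=
  (∀ x s, b (L x s) = L ((LinearEquiv.det g : K) • g x) (b s)) ∧ ∀ s, Nm K (b s) = μ * Nm K s

theorem Sim.mul {g g' : Au K (V K)} {b b' : Au K (S K)} {μ μ' : Kˣ} (h : Sim g b μ) (h' : Sim g' b' μ') :
    Sim (g * g') (b * b') (μ * μ') :=
  ⟨fun x s => by
    change b (b' _) = L (_ • g (g' x)) (b (b' s))
    rw [h'.1, h.1, map_mul, map_smul g, smul_smul, Units.val_mul],
   fun s => by change Nm K (b (b' s)) = _; rw [h.2, h'.2, Units.val_mul, mul_assoc]⟩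

theorem Sim.inv {g : Au K (V K)} {b : Au K (S K)} {μ : Kˣ} (h : Sim g b μ) : Sim g⁻¹ b⁻¹ μ⁻¹ :=
  ⟨fun x s => b.injective (by
    rw [h.1, map_smul g, smul_smul, map_inv, Units.mul_inv, one_smul, show g (g⁻¹ x) = x from g.apply_symm_apply x,
      show b (b⁻¹ s) = s from b.apply_symm_apply s]
    exact b.apply_symm_apply _), fun s => by
    rw [Units.eq_inv_mul_iff_mul_eq, ← h.2]; exact congrArg _ (b.apply_symm_apply s)⟩

theorem Sim.lift {g : Au K (V K)} {b : Au K (S K)} (h : Sim g b 1) (d : LinearEquiv.det g = 1) : Lift g b :=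
  ⟨fun x s => by rw [h.1, d, Units.val_one, one_smul], fun s => by rw [h.2, Units.val_one, one_mul]⟩

theorem L_inj {u : V K} (hu : Q K u ≠ 0) : Function.Injective (L u) := fun s t e => by
  have := congrArg (L u) e
  rwa [L_L, L_L, smul_right_inj hu] at this

/-- Clifford multiplication by a nonsingular vector -/
noncomputable def Le {u : V K} (hu : Q K u ≠ 0) : Au K (S K) := LinearEquiv.ofInjectiveEndo (L u) (L_inj hu)

theorem L_refl {u : V K} (hu : Q K u ≠ 0) (x : V K) (s : S K) : L u (L x s) = L (-(refl (Q K) u).1 x) (L u s) := by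
  rw [refl_apply, neg_sub, map_sub, map_smul, LinearMap.sub_apply, LinearMap.smul_apply, L_L, smul_smul,
    eq_sub_iff_add_eq, L_anti]
  congr 1; field_simp

theorem ex_sim (h2 : (2 : K) ≠ 0) (g : orth (Q K)) : ∃ b μ, Sim g.1 b μ := by
  have hg : g ∈ Subgroup.closure (reflSet (Q K)) := by
    rw [closure_reflSet (Q_nd h2) (notExc_of_two_ne_zero h2)]; trivial
  induction hg using Subgroup.closure_induction with
  | mem g hg =>
    obtain ⟨u, hu, rfl⟩ := hg
    refine ⟨Le hu, Units.mk0 _ (neg_ne_zero.2 hu), fun x s => ?_, fun s => Nm_L u s⟩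
    rw [LinearEquiv.coe_det, det_refl hu, neg_one_smul]
    exact L_refl hu x s
  | one => exact ⟨1, 1, fun x s => by simp, fun s => by simp⟩
  | mul g g' _ _ a b =>
    obtain ⟨_, _, a⟩ := a
    obtain ⟨_, _, b⟩ := b
    exact ⟨_, _, a.mul b⟩
  | inv g _ a =>
    obtain ⟨_, _, a⟩ := a
    exact ⟨_, _, a.inv⟩

theorem lift_om (h2 : (2 : K) ≠ 0) {g : Au K (V K)} (hg : g ∈ OmegaV (Q K)) : ∃ b, Lift g b := by
  obtain ⟨g, hg, rfl⟩ := hg
  rw [commutator_eq_closure] at hg
  induction hg using Subgroup.closure_induction with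
  | mem g hg =>
    obtain ⟨x, y, rfl⟩ := hg
    obtain ⟨_, μ, a⟩ := ex_sim h2 x
    obtain ⟨_, ν, b⟩ := ex_sim h2 y
    have := ((a.mul b).mul a.inv).mul b.inv
    rw [mul_inv_cancel_comm, mul_inv_cancel] at this
    exact ⟨_, this.lift (by rw [map_mul, map_mul, map_mul, map_inv, map_inv, mul_inv_cancel_comm, mul_inv_cancel])⟩
  | one => exact ⟨1, lift_one⟩
  | mul g g' _ _ a b =>
    obtain ⟨_, a⟩ := a
    obtain ⟨_, b⟩ := b
    exact ⟨_, a.mul b⟩
  | inv g _ a =>
    obtain ⟨_, a⟩ := a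
    exact ⟨_, a.inv⟩

theorem lift_so [IsAlgClosed K] (h2 : (2 : K) ≠ 0) {g : Au K (V K)} (hg : g ∈ orth (Q K))
    (d : LinearMap.det (g : V K →ₗ[K] V K) = 1) : ∃ b, Lift g b := by
  obtain ⟨b, μ, h⟩ := ex_sim h2 ⟨g, hg⟩
  obtain ⟨c, hc⟩ := IsAlgClosed.exists_eq_mul_self (μ : K)
  have c0 : c ≠ 0 := fun e => μ.ne_zero (by rw [hc, e, mul_zero])
  refine ⟨LinearEquiv.smulOfNeZero K _ _ (inv_ne_zero c0) * b, fun x s => ?_, fun s => ?_⟩
  · change c⁻¹ • b _ = L (g x) (c⁻¹ • b s)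
    rw [h.1, LinearEquiv.coe_det, d, one_smul, map_smul]
  · change Nm K (c⁻¹ • b s) = _
    rw [Q_smul, h.2, hc]; field_simp

theorem neg_ne (h2 : (2 : K) ≠ 0) : LinearEquiv.neg K ≠ (1 : Au K (S K)) := fun e => by
  have := congrFun (LinearEquiv.congr_fun e (H8.oneZ K)) 0
  simp only [H8.oneZ, LinearEquiv.neg_apply, Pi.neg_apply, LinearEquiv.coe_one, id] at this
  exact h2 (by simp at this; linear_combination -this)

theorem neg_mul_pow {M : Type u} [AddCommGroup M] [Module K M] (b : Au K M) {n : ℕ} (hn : Odd n) :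
    (LinearEquiv.neg K * b) ^ n = LinearEquiv.neg K * b ^ n := by
  have c : Commute (LinearEquiv.neg K) b := LinearEquiv.ext fun s => (map_neg b s).symm
  have e : (LinearEquiv.neg K : Au K M) ^ 2 = 1 := LinearEquiv.ext fun s => neg_neg s
  obtain ⟨m, rfl⟩ := hn
  rw [c.mul_pow, pow_succ, pow_mul, e, one_pow, one_mul]

theorem lift_odd (h2 : (2 : K) ≠ 0) {g : Au K (V K)} {b : Au K (S K)} (h : Lift g b) {n : ℕ} (hn : Odd n)
    (e : g ^ n = 1) : ∃! b, Lift g b ∧ b ^ n = 1 := by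
  have u : ∀ b b', Lift g b ∧ b ^ n = 1 → Lift g b' ∧ b' ^ n = 1 → b = b' := fun b b' a a' =>
    (lift_uniq h2 a'.1 a.1).resolve_right fun e => neg_ne h2 (by
      have := a.2
      rwa [e, neg_mul_pow _ hn, a'.2, mul_one] at this)
  have k := h.pow n
  rw [e] at k
  rcases lift_uniq h2 lift_one k with a | a
  · exact ⟨b, ⟨h, a⟩, fun _ x => u _ _ x ⟨h, a⟩⟩
  · have : (LinearEquiv.neg K * b) ^ n = 1 := by
      rw [neg_mul_pow _ hn, a]; exact LinearEquiv.ext fun s => neg_neg s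
    exact ⟨_, ⟨h.neg, this⟩, fun _ x => u _ _ x ⟨h.neg, this⟩⟩

/-- an orthogonal basis of eigenvectors of an involution -/
theorem ex_basis (h2 : (2 : K) ≠ 0) {g : Au K (V K)} (hg : g ∈ orth (Q K)) (e : g * g = 1) :
    ∃ (b : Basis (Fin 7) K (V K)) (P : Finset (Fin 7)), (∀ i, Q K (b i) ≠ 0) ∧
      (∀ i j, i ≠ j → polar (Q K) (b i) (b j) = 0) ∧ (∀ i ∈ P, g (b i) = b i) ∧ (∀ i ∉ P, g (b i) = -b i) ∧
      rk g + P.card = 7 := by
  classical
  obtain ⟨b, h1, h3, -⟩ := exists_eigen_fam (A := zpowers g) h2 (zpowers_le.2 hg) (by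
    rintro _ ⟨n, rfl⟩
    rw [← (Commute.refl g).mul_zpow, e, one_zpow]) (Q_nd h2) 7 finrank_V.ge
  have li : LinearIndependent K b := LinearMap.linearIndependent_of_isOrthoᵢ (B := polarBilin (Q K))
    (fun i j e => h3 i j e) fun i => by
      change ¬ polar (Q K) (b i) (b i) = 0
      rw [polar_self']; exact mul_ne_zero h2 (h1 i).1
  let B := basisOfLinearIndependentOfCardEqFinrank li (by simp)
  have hB : ∀ i, B i = b i := fun i => by simp [B]
  refine ⟨B, Finset.univ.filter fun i => g (b i) = b i, by simpa [hB] using fun i => (h1 i).1, by simpa [hB] using h3,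
    by simp [hB], fun i hi => ?_, ?_⟩
  · rw [hB]; exact ((h1 i).2 g (mem_zpowers g)).resolve_left (by simpa using hi)
  have : LinearMap.toMatrix B B ((g : V K →ₗ[K] V K) - 1) = Matrix.diagonal fun i => if g (b i) = b i then 0 else -2 := by
    ext i j
    rw [LinearMap.toMatrix_apply, LinearMap.sub_apply, Module.End.one_apply, LinearEquiv.coe_coe, Matrix.diagonal_apply]
    by_cases a : g (b j) = b j
    · rw [hB, a, sub_self]; split_ifs with x y <;> simp_all
    · have c := ((h1 j).2 g (mem_zpowers g)).resolve_left a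
      rw [hB, c, ← hB, map_sub, map_neg, B.repr_self]
      by_cases x : i = j
      · subst x; simp [a]; norm_num
      · simp [x]
  have r := Matrix.rank_eq_finrank_range_toLin (LinearMap.toMatrix B B ((g : V K →ₗ[K] V K) - 1)) B B
  rw [Matrix.toLin_toMatrix, this, Matrix.rank_diagonal, Fintype.card_subtype] at r
  rw [rk, ← r, add_comm]
  convert Finset.card_filter_add_card_filter_not (s := Finset.univ) (fun i => g (b i) = b i) using 4
  · simp [h2]
  · simp

theorem rk_anti {M : Type u} [AddCommGroup M] [Module K M] [FiniteDimensional K M] (h2 : (2 : K) ≠ 0) {b : Au K M}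
    (e : ∀ s, b (b s) = s) {f : M →ₗ[K] M} (hf : Function.Injective f) (a : ∀ s, b (f s) = -f (b s)) :
    2 * rk b = finrank K M := by
  have h1 : (fix b).map f ≤ LinearMap.range ((b : M →ₗ[K] M) - 1) := by
    rintro _ ⟨s, hs, rfl⟩
    refine ⟨(-2⁻¹ : K) • f s, ?_⟩
    change b _ - (-2⁻¹ : K) • f s = _
    rw [map_smul, a, mem_fix.1 hs, smul_neg, ← neg_smul, ← sub_smul,
      show - -2⁻¹ - -2⁻¹ = (1 : K) by field_simp; norm_num, one_smul]
  have h3 : (LinearMap.range ((b : M →ₗ[K] M) - 1)).map f ≤ fix b := by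
    rintro _ ⟨_, ⟨s, rfl⟩, rfl⟩
    change f (b s - s) ∈ _
    rw [mem_fix, a, map_sub b, e, ← map_neg, neg_sub]
  have := Submodule.finrank_mono h1
  have := Submodule.finrank_mono h3
  have := (Submodule.equivMapOfInjective f hf (fix b)).finrank_eq
  have := (Submodule.equivMapOfInjective f hf (LinearMap.range ((b : M →ₗ[K] M) - 1))).finrank_eq
  have := rk_add_fix b
  unfold rk at *
  omega

theorem L_orth {x y : V K} (h : polar (Q K) x y = 0) (s : S K) : L x (L y s) = -L y (L x s) :=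
  eq_neg_of_add_eq_zero_left (by rw [L_anti, h, zero_smul])

theorem lift_inv (h2 : (2 : K) ≠ 0) {g : Au K (V K)} (hg : g ∈ orth (Q K)) (e : g * g = 1) (r : rk g = 4)
    {b : Au K (S K)} (h : Lift g b) : b * b = 1 ∧ rk b = 4 := by
  obtain ⟨B, P, h1, h3, h4, h5, h6⟩ := ex_basis h2 hg e
  obtain ⟨i, j, k, ij, ik, jk, rfl⟩ := Finset.card_eq_three.1 (by omega : P.card = 3)
  have gg : ∀ x, g (g x) = x := fun x => LinearEquiv.congr_fun e x
  let β : S K →ₗ[K] S K := L (B i) ∘ₗ L (B j) ∘ₗ L (B k)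
  have β0 : ∀ s, β s = L (B i) (L (B j) (L (B k) s)) := fun s => rfl
  have β1 : ∀ x s, β (L x s) = L (g x) (β s) := fun x s => by
    refine LinearMap.congr_fun (B.ext fun l => ?_ : β ∘ₗ L.flip s = L.flip (β s) ∘ₗ g) x
    change β (L (B l) s) = L (g (B l)) (β s)
    rw [β0, β0]
    by_cases a : l ∈ ({i, j, k} : Finset (Fin 7))
    · rw [h4 l a]
      simp only [Finset.mem_insert, Finset.mem_singleton] at a
      rcases a with rfl | rfl | rfl
      · rw [L_orth (h3 k l ik.symm), map_neg, L_orth (h3 j l ij.symm), neg_neg]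
      · rw [L_orth (h3 k l jk.symm), map_neg, map_neg, L_orth (h3 l i ij.symm)]
      · rw [L_orth (h3 l i ik.symm), L_orth (h3 l j jk.symm), map_neg, neg_neg]
    · rw [h5 l a]
      simp only [Finset.mem_insert, Finset.mem_singleton, not_or] at a
      rw [L_orth (h3 k l (Ne.symm a.2.2)), map_neg, L_orth (h3 j l (Ne.symm a.2.1)), neg_neg,
        L_orth (h3 i l (Ne.symm a.1)), map_neg, LinearMap.neg_apply]
  have β2 : ∀ s, β (β s) = -(Q K (B i) * Q K (B j) * Q K (B k)) • s := fun s => by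
    rw [β0 s, β1, β1, β1, h4 i (by simp), h4 j (by simp), h4 k (by simp), β0, L_orth (h3 k i ik.symm), map_neg,
      L_orth (h3 j i ij.symm), neg_neg, L_L, L_orth (h3 k j jk.symm), map_neg, L_L, L_L]
    module
  obtain ⟨c, hc⟩ := comm_scalar h2 (b ∘ₗ β) fun x s => by
    change b (β _) = L x (b (β s))
    rw [β1, h.1, gg]
  have μ0 : -(Q K (B i) * Q K (B j) * Q K (B k)) ≠ 0 := neg_ne_zero.2 (mul_ne_zero (mul_ne_zero (h1 i) (h1 j)) (h1 k))
  have cc : c * c = -(Q K (B i) * Q K (B j) * Q K (B k)) := by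
    have := h.2 (β (H8.oneZ K))
    rw [show b (β _) = _ from hc _, Q_smul, β0, Nm_L, Nm_L, Nm_L, Nm_one] at this
    linear_combination this
  have bb : ∀ s, b (b s) = s := fun s => by
    have a : b (b (β (β s))) = _ := congrArg b (hc (β s))
    rw [map_smul, show b (β s) = _ from hc s, β2, map_smul, map_smul, smul_smul, cc] at a
    exact (smul_right_inj μ0).1 a
  refine ⟨LinearEquiv.ext bb, ?_⟩
  obtain ⟨l, hl⟩ : ∃ l, l ∉ ({i, j, k} : Finset (Fin 7)) := by
    by_contra! a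
    have := Finset.card_le_card (fun l _ => a l : Finset.univ ⊆ _)
    rw [Finset.card_univ, Fintype.card_fin] at this
    omega
  have := rk_anti h2 bb (L_inj (h1 l)) fun s => by rw [h.1, h5 l hl, map_neg, LinearMap.neg_apply]
  rw [finrank_S] at this
  omega
end

theorem lf : LF.{u} := fun _ _ h2 => ⟨comm_scalar h2, fun _ _ _ => lift_uniq h2, fun _ => lift_om h2,
  fun _ hg e r _ _ => lift_inv h2 hg e r, fun _ _ hg d => ⟨lift_so h2 hg d, fun _ hn e =>
    (lift_so h2 hg d).elim fun _ h => lift_odd h2 h hn e⟩⟩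

end H11.O7
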