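/-
S5806, tools UP DG W6: kit, base change, diagonalisation, weights.
-/
import Cfsg.Agent.H6.SP0

set_option autoImplicit false

open Matrix Cfsg Cfsg.Geo H27.Asch Module H6.SP
namespace H11.SP
universe u v

section
variable {k : Type*} [Field k] {G : Type*} [Group G]

theorem fm_ap (u v : V6 k) : fm u v = ∑ i, (u (.inr i) * v (.inl i) - u (.inl i) * v (.inr i)) := by
  simp [fm, spΦ_f, sympForm, J, fromBlocks_mulVec, dotProduct, neg_mulVec, sub_eq_neg_add, Finset.sum_add_distrib]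

@[simp] theorem fm_add_l (u v w : V6 k) : fm (u + v) w = fm u w + fm v w := Frm.add_left _ _ _ _
@[simp] theorem fm_add_r (u v w : V6 k) : fm w (u + v) = fm w u + fm w v := Frm.add_right _ _ _ _
@[simp] theorem fm_sub_l (u v w : V6 k) : fm (u - v) w = fm u w - fm v w := Frm.sub_left _ _ _ _
@[simp] theorem fm_sub_r (u v w : V6 k) : fm w (u - v) = fm w u - fm w v := Frm.sub_right _ _ _ _
@[simp] theorem fm_neg_l (u w : V6 k) : fm (-u) w = -fm u w := Frm.neg_left _ _ _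
@[simp] theorem fm_neg_r (u w : V6 k) : fm w (-u) = -fm w u := Frm.neg_right _ _ _
@[simp] theorem fm_smul_l (c : k) (u w : V6 k) : fm (c • u) w = c * fm u w := Frm.smul_left _ _ _ _
@[simp] theorem fm_smul_r (c : k) (u w : V6 k) : fm w (c • u) = c * fm w u := Frm.smul_right _ _ _ _
@[simp] theorem fm_zero_l (w : V6 k) : fm 0 w = 0 := Frm.zero_left _ _
@[simp] theorem fm_zero_r (w : V6 k) : fm w 0 = 0 := Frm.zero_right _ _
@[simp] theorem fm_self (w : V6 k) : fm w w = 0 := spΦ_alt w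
theorem fm_swap (u v : V6 k) : fm u v = -fm v u := by rw [fm_ap, fm_ap, ← Finset.sum_neg_distrib]; congr! 1; ring
theorem fm_nd {v : V6 k} (h : ∀ u, fm v u = 0) : v = 0 := Frm.eq_zero_left _ h
theorem mem_S6 {g : G6 k} : g ∈ S6 k ↔ ∀ u v, fm (g.val *ᵥ u) (g.val *ᵥ v) = fm u v := Iff.rfl
theorem mem_ad {g : G6 k} : g ∈ S6 k ↔ ad g.val = (g⁻¹).val := (spΦ 3 k).mem_iso_iff
theorem fm_ad (a : M6 k) (u v : V6 k) : fm (a *ᵥ u) v = fm u (ad a *ᵥ v) := Frm.f_adj _ _ _ _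
theorem mem_J {g : G6 k} : g ∈ S6 k ↔ g.valᵀ * J _ k * g.val = J _ k :=
  ⟨fun h => fG_injective (σ := RingHom.id k) fun u v => (fG_mulVec (σ := RingHom.id k) (J _ k) _ _ u v).symm.trans (h u v),
    fun h u v => (fG_mulVec (σ := RingHom.id k) (J _ k) _ _ u v).trans (congrArg (fG (RingHom.id k) · u v) h)⟩
theorem neg_mem_S6 : (-1 : G6 k) ∈ S6 k := mem_S6.2 fun u v => by simp [neg_mulVec]
/-- the form as a linear map -/
def fl (u : V6 k) : V6 k →ₗ[k] k := ⟨⟨fm u, fun a b => fm_add_r a b u⟩, fun c a => fm_smul_r c a u⟩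
@[simp] theorem fl_ap (u v : V6 k) : fl u v = fm u v := rfl

theorem rank_map {ι F K : Type*} [Fintype ι] [DecidableEq ι] [Field F] [Field K] (f : F →+* K) (M : Matrix ι ι F) :
    (M.map f).rank = M.rank := by
  obtain ⟨L, L', D, rfl⟩ := Matrix.Pivot.exists_list_transvec_mul_diagonal_mul_list_transvec M
  have := fun L : List (Matrix.TransvectionStruct ι F) => f.map_det (L.map Matrix.TransvectionStruct.toMatrix).prod
  simp only [Matrix.TransvectionStruct.det_toMatrix_prod, map_one, RingHom.mapMatrix_apply] at this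
  rw [Matrix.map_mul, Matrix.map_mul, Matrix.rank_mul_eq_left_of_isUnit_det _ _ (by simp [← this]),
    Matrix.rank_mul_eq_right_of_isUnit_det _ _ (by simp [← this]), Matrix.rank_mul_eq_left_of_isUnit_det _ _ (by simp),
    Matrix.rank_mul_eq_right_of_isUnit_det _ _ (by simp), Matrix.diagonal_map (by simp)]
  classical
  simp [Matrix.rank_diagonal]

section
variable {K : Type*} [Field K] (σ : k →+* K)
theorem gm_val (g : G6 k) : (GeneralLinearGroup.map σ g).val = g.val.map σ := rfl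
theorem gm_inj : Function.Injective (GeneralLinearGroup.map (n := I6) σ) := fun _ _ e =>
  Units.ext (Matrix.map_injective σ.injective (congrArg Units.val e))
theorem gm_neg (g : G6 k) : GeneralLinearGroup.map σ (-g) = -GeneralLinearGroup.map σ g :=
  Units.ext (Matrix.map_neg _ (map_neg σ) _)
theorem gm_mem {g : G6 k} : GeneralLinearGroup.map σ g ∈ S6 K ↔ g ∈ S6 k := by
  have : (J (Fin 3) k).map σ = J _ K := by simp [J, fromBlocks_map, Matrix.map_neg _ (map_neg σ)]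
  rw [mem_J, mem_J, gm_val, ← this, ← transpose_map, ← Matrix.map_mul, ← Matrix.map_mul]
  exact (Matrix.map_injective σ.injective).eq_iff
theorem gm_rk (g : G6 k) : rk (GeneralLinearGroup.map σ g) = rk g := by
  rw [rk, rk, ← rank_map σ, Matrix.map_sub _ (map_sub _), Matrix.map_one _ (map_zero _) (map_one _)]; rfl
theorem gm_T (g : G6 k) : T (GeneralLinearGroup.map σ g) = σ (T g) := (AddMonoidHom.map_trace σ _).symm
theorem gm_alg {P : Subgroup (G6 k)} (h : alg P = ⊤) : alg (P.map (GeneralLinearGroup.map σ)) = ⊤ := by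
  have k : ∀ M ∈ Submodule.span k (matrixSet P), M.map σ ∈ alg (P.map (GeneralLinearGroup.map σ)) := fun M hM => by
    induction hM using Submodule.span_induction with
    | mem M hM => obtain ⟨g, hg, rfl⟩ := hM; exact mem_alg (Subgroup.mem_map_of_mem _ hg)
    | zero => simp
    | add M N _ _ a b => rw [Matrix.map_add _ (map_add _)]; exact add_mem a b
    | smul c M _ a => rw [Matrix.map_smul' _ _ _ (map_mul σ)]; exact Subalgebra.smul_mem _ a _
  rw [span_eq_top_of_alg h] at k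
  refine eq_top_iff.2 fun M _ => ?_
  rw [matrix_eq_sum_single M]
  refine sum_mem fun i _ => sum_mem fun j _ => ?_
  have := Subalgebra.smul_mem _ (k (single i j 1) trivial) (M i j)
  rwa [Matrix.map_single _ _ _ _, map_one, smul_single, smul_eq_mul, mul_one] at this
theorem upq {P : Subgroup (G6 k)} {π : P →* G} (h : Rq P π) :
    ∃ π' : P.map (GeneralLinearGroup.map σ) →* G, Rq _ π' ∧ ∀ x : P, π' ⟨_, x.1, x.2, rfl⟩ = π x := by
  let e := P.equivMapOfInjective _ (gm_inj σ)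
  have a : ∀ x : P, π.comp e.symm.toMonoidHom ⟨_, x.1, x.2, rfl⟩ = π x := fun x => congrArg π (e.symm_apply_apply x)
  refine ⟨_, ⟨?_, gm_alg σ h.top, by rw [← Subgroup.map_commutator, h.perf], h.sur.comp e.symm.surjective, ?_, h.simp, h.nab,
    h.fin⟩, a⟩
  · rintro _ ⟨x, hx, rfl⟩; exact (gm_mem σ).2 (h.sp hx)
  · rintro ⟨_, x, hx, rfl⟩
    rw [a ⟨x, hx⟩, h.ker, ← map_one (GeneralLinearGroup.map σ), ← gm_neg, (gm_inj σ).eq_iff, (gm_inj σ).eq_iff]
end

variable (S : Set (G6 k))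

/-- common eigenvectors -/
def Ev (x : V6 k) : Prop := ∀ a ∈ S, ∃ c : k, a.val *ᵥ x = c • x

/-- nondegenerate subspaces spanned by eigenvectors -/
structure Gd (W : Submodule k (V6 k)) : Prop where
  nd : ∀ x ∈ W, (∀ y ∈ W, fm x y = 0) → x = 0
  sp : W ≤ Submodule.span k {x | x ∈ W ∧ Ev S x}

/-- a hyperbolic pair of eigenvectors -/
structure Hp (e f : V6 k) : Prop where
  ef : fm f e = 1
  ev : ∀ a ∈ S, ∃ c : kˣ, a.val *ᵥ e = (c : k) • e ∧ a.val *ᵥ f = ((c⁻¹ : kˣ) : k) • f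

variable {S}

theorem gd_top [IsAlgClosed k] (hc : ∀ a ∈ S, ∀ b ∈ S, a * b = b * a) (he : ∀ a ∈ S, ∃ n : ℕ, (n : k) ≠ 0 ∧ a ^ n = 1) :
    Gd S ⊤ := by
  let L : G6 k →* End k (V6 k) := (toLinAlgEquiv' (R := k) (n := I6)).toMonoidHom.comp (Units.coeHom _)
  have h1 := End.iSup_iInf_maxGenEigenspace_eq_top_of_iSup_maxGenEigenspace_eq_top_of_commute (fun a : S => L a)
    (fun i j _ => Commute.map (hc _ i.2 _ j.2) L) fun i => End.iSup_maxGenEigenspace_eq_top _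
  have h2 : ∀ (i : S) μ, (L i).maxGenEigenspace μ = (L i).eigenspace μ := fun i μ => by
    obtain ⟨n, hn, e⟩ := he _ i.2
    refine (End.isSemisimple_of_squarefree_aeval_eq_zero
      (Polynomial.separable_X_pow_sub_C 1 hn one_ne_zero).squarefree ?_).isFinitelySemisimple.maxGenEigenspace_eq_eigenspace μ
    rw [map_sub, map_pow, Polynomial.aeval_X, ← map_pow, e]; simp
  simp only [h2] at h1
  exact ⟨fun x _ h => fm_nd fun y => h y trivial, h1.ge.trans (iSup_le fun χ v hv => Submodule.subset_span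
    ⟨trivial, fun a ha => ⟨χ ⟨a, ha⟩, End.mem_eigenspace_iff.1 ((Submodule.mem_iInf _).1 hv ⟨a, ha⟩)⟩⟩)⟩

variable (hS : ∀ a ∈ S, a ∈ S6 k) {W : Submodule k (V6 k)} (h : Gd S W)
include hS h

theorem Gd.hp (hd : 1 ≤ finrank k W) : ∃ e ∈ W, ∃ f ∈ W, Hp S e f := by
  obtain ⟨e, he, ev, e0⟩ : ∃ e ∈ W, Ev S e ∧ e ≠ 0 := by
    by_contra! H
    exact Submodule.one_le_finrank_iff.1 hd (eq_bot_iff.2 (h.sp.trans (Submodule.span_le.2 fun x hx => H x hx.1 hx.2)))
  obtain ⟨f, hf, fv, ef⟩ : ∃ f ∈ W, Ev S f ∧ fm e f ≠ 0 := by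
    by_contra! H
    exact e0 (h.nd e he fun y hy => (h.sp.trans ((Submodule.span_le (p := LinearMap.ker (fl e))).2
      fun z hz => H z hz.1 hz.2)) hy)
  refine ⟨e, he, _, W.smul_mem (-(fm e f)⁻¹) hf, by rw [fm_smul_l, fm_swap f]; simp [ef], fun a ha => ?_⟩
  obtain ⟨c, hc⟩ := ev a ha
  obtain ⟨d, hd⟩ := fv a ha
  have := mem_S6.1 (hS a ha) e f
  rw [hc, hd, fm_smul_l, fm_smul_r, ← mul_assoc, mul_eq_right₀ ef] at this
  exact ⟨⟨c, d, this, mul_comm c d ▸ this⟩, hc, by rw [mulVec_smul, hd, smul_comm]; rfl⟩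

theorem Gd.step {e f : V6 k} (he : e ∈ W) (hf : f ∈ W) (p : Hp S e f) :
    ∃ W' ≤ W, Gd S W' ∧ finrank k W ≤ finrank k W' + 2 ∧ ∀ x ∈ W', fm e x = 0 ∧ fm f x = 0 := by
  let π : V6 k →ₗ[k] V6 k := LinearMap.id - (fl f).smulRight e + (fl e).smulRight f
  have π0 : ∀ x, π x = x - fm f x • e + fm e x • f := fun x => rfl
  let W' := W ⊓ (LinearMap.ker (fl e) ⊓ LinearMap.ker (fl f))
  have m : ∀ x, x ∈ W' ↔ x ∈ W ∧ fm e x = 0 ∧ fm f x = 0 := fun x => Iff.rfl
  have π1 : ∀ x ∈ W, π x ∈ W' := fun x hx => (m _).2 ⟨add_mem (sub_mem hx (W.smul_mem _ he)) (W.smul_mem _ hf), by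
    simp [π0, fm_swap e f, p.ef], by simp [π0, p.ef]⟩
  have π2 : ∀ x ∈ W', π x = x := fun x hx => by simp [π0, ((m x).1 hx).2]
  refine ⟨W', inf_le_left, ⟨fun x hx k => h.nd x hx.1 fun y hy => ?_, fun x hx => ?_⟩, ?_, fun x hx => ((m x).1 hx).2⟩
  · simpa [π0, fm_swap x e, fm_swap x f, ((m x).1 hx).2] using k _ (π1 y hy)
  · rw [← π2 x hx]
    refine ((Submodule.span_le (p := (Submodule.span k {x | x ∈ W' ∧ Ev S x}).comap π)).2 fun y hy =>
      Submodule.subset_span ⟨π1 y hy.1, fun a ha => ?_⟩) (h.sp hx.1)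
    obtain ⟨c, h1, h3⟩ := p.ev a ha
    obtain ⟨d, hd⟩ := hy.2 a ha
    have a1 := mem_S6.1 (hS a ha) e y
    have a2 := mem_S6.1 (hS a ha) f y
    rw [hd, fm_smul_r] at a1 a2
    rw [h1, fm_smul_l] at a1
    rw [h3, fm_smul_l, Units.val_inv_eq_inv_val] at a2
    refine ⟨d, ?_⟩
    rw [π0, mulVec_add, mulVec_sub, mulVec_smul, mulVec_smul, hd, h1, h3, smul_add, smul_sub, smul_smul, smul_smul, smul_smul,
      smul_smul, show fm f y * c = d * fm f y by field_simp at a2; linear_combination -a2,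
      show fm e y * (c⁻¹ : kˣ) = d * fm e y by rw [Units.val_inv_eq_inv_val]; field_simp; linear_combination -a1]
  · classical
    have : W ≤ W' ⊔ Submodule.span k {e, f} := fun x hx => by
      rw [show x = π x + (fm f x • e + (-fm e x) • f) by rw [π0, neg_smul]; abel]
      exact Submodule.add_mem_sup (π1 x hx) (Submodule.mem_span_pair.2 ⟨_, _, rfl⟩)
    have := Submodule.finrank_mono this
    have := Submodule.finrank_add_le_finrank_add_finrank W' (Submodule.span k {e, f})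
    have := finrank_span_le_card (R := k) ({e, f} : Set (V6 k))
    have := Finset.card_le_two (a := e) (b := f)
    simp only [Set.toFinset_insert, Set.toFinset_singleton] at *
    omega
end

theorem up : UP.{u} := by
  intro F K G _ _ _ σ P π h
  obtain ⟨π', h1, h2⟩ := upq σ h.toRq
  refine ⟨π', ⟨h1, by rintro _ ⟨x, hx, rfl⟩; rw [gm_rk]; exact h.ntv x hx, fun ⟨Q, q1, q2, q3⟩ => h.nq ?_⟩, h2⟩
  let _ := σ.toAlgebra
  obtain ⟨r, hr⟩ := (Algebra.linearMap F K).exists_leftInverse_of_injective (LinearMap.ker_eq_bot.2 σ.injective)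
  refine ⟨fun v => r (Q (σ ∘ v)), fun c v => ?_, fun u v => ?_, fun x hx v => ?_⟩ <;> dsimp only
  · rw [show σ ∘ (c • v) = σ c • (σ ∘ v) from funext fun _ => map_mul σ _ _, q1, ← map_pow, ← smul_eq_mul (c ^ 2), ← map_smul]
    rfl
  · rw [show σ ∘ (u + v) = σ ∘ u + σ ∘ v from funext fun _ => map_add σ _ _, q2, map_add, map_add,
      show fm (σ ∘ u) (σ ∘ v) = σ (fm u v) by simp [fm_ap]]
    exact congrArg _ (LinearMap.congr_fun hr _)
  · rw [show σ ∘ (x.val *ᵥ v) = _ from funext (σ.map_mulVec x.val v)]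
    exact congrArg r (q3 _ (Subgroup.mem_map_of_mem _ hx) _)

theorem dg' {K : Type*} [Field K] [IsAlgClosed K] (S : Set (G6 K)) (hS : ∀ a ∈ S, a ∈ S6 K)
    (hc : ∀ a ∈ S, ∀ b ∈ S, a * b = b * a) (he : ∀ a ∈ S, ∃ n : ℕ, (n : K) ≠ 0 ∧ a ^ n = 1) :
    ∃ B ∈ S6 K, ∀ a ∈ S, ∃ d, (B⁻¹ * a * B).val = dg d := by
  have g0 := gd_top hc he
  have d0 : finrank K (⊤ : Submodule K (V6 K)) = 6 := by simp
  obtain ⟨e0, a0, f0, b0, p0⟩ := g0.hp hS (by omega)
  obtain ⟨W1, -, g1, d1, c1⟩ := g0.step hS a0 b0 p0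
  obtain ⟨e1, a1, f1, b1, p1⟩ := g1.hp hS (by omega)
  obtain ⟨W2, l2, g2, d2, c2⟩ := g1.step hS a1 b1 p1
  obtain ⟨e2, a2, f2, b2, p2⟩ := g2.hp hS (by omega)
  let b : I6 → V6 K := Sum.elim ![e0, e1, e2] ![f0, f1, f2]
  let M : M6 K := Matrix.of fun i j => b j i
  have hM : ∀ j, M *ᵥ Pi.single j 1 = b j := fun j => by ext i; simp [M]
  have hJ : Mᵀ * J _ K * M = J _ K := by
    have : ∀ i j, (Mᵀ * J _ K * M : M6 K) i j = fm (b i) (b j) := fun i j => by
      rw [← hM, ← hM, ← fG_single (σ := RingHom.id K) (Mᵀ * J _ K * M)]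
      exact (fG_mulVec (σ := RingHom.id K) (J _ K) _ _ _ _).symm
    ext i j
    rw [this]
    rcases i with i | i <;> rcases j with j | j <;> fin_cases i <;> fin_cases j <;>
      simp [b, J, fm_swap e0 f0, fm_swap e1 f1, fm_swap e2 f2, p0.ef, p1.ef, p2.ef, c1 _ a1, c1 _ b1, c1 _ (l2 a2), c1 _ (l2 b2),
        c2 _ a2, c2 _ b2, fm_swap e1 e0, fm_swap e2 e0, fm_swap e2 e1, fm_swap f1 e0, fm_swap f2 e0, fm_swap f2 e1,
        fm_swap e1 f0, fm_swap e2 f0, fm_swap e2 f1, fm_swap f1 f0, fm_swap f2 f0, fm_swap f2 f1]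
  have hd : M.det ≠ 0 := fun e => by
    have := congrArg det hJ
    rw [det_mul, e, mul_zero] at this
    exact (isUnit_det_J (Fin 3) K).ne_zero this.symm
  let B := GeneralLinearGroup.mkOfDetNeZero M hd
  refine ⟨B, mem_J.2 hJ, fun a ha => ?_⟩
  obtain ⟨c0, x0, y0⟩ := p0.ev a ha
  obtain ⟨c1, x1, y1⟩ := p1.ev a ha
  obtain ⟨c2, x2, y2⟩ := p2.ev a ha
  refine ⟨![c0, c1, c2], ?_⟩
  rw [mul_assoc, Units.val_mul, Units.inv_mul_eq_iff_eq_mul, Units.val_mul]
  ext i j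
  have : (a.val * M) i j = (a.val *ᵥ b j) i := rfl
  refine this.trans ?_
  rw [dg, mul_diagonal]
  rcases j with j | j <;> fin_cases j <;> simp [b, B, M, x0, x1, x2, y0, y1, y2, mul_comm]

theorem dg : DG.{u} := fun _ _ _ => dg'

section
variable {k : Type*} [Field k] {G : Type*} [Group G] {P : Subgroup (G6 k)} {π : P →* G}

theorem lift_eq (h : Rq P π) {x y : P} (e : π x = π y) : x.1 = y.1 ∨ x.1 = -y.1 := by
  have := (h.ker (x * y⁻¹)).1 (by rw [map_mul, map_inv, e, mul_inv_cancel])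
  simpa [mul_inv_eq_iff_eq_mul] using this

theorem lift_odd (h : Rq P π) {n : ℕ} (hn : Odd n) {x y : P} (e : π x = π y) (hx : x ^ n = 1) (hy : y ^ n = 1) : x = y := by
  rcases lift_eq h e with a | a
  · exact Subtype.ext a
  have b : x.1 ^ n = 1 := congrArg Subtype.val hx
  have c : y.1 ^ n = 1 := congrArg Subtype.val hy
  rw [a, hn.neg_pow, c] at b
  exact Subtype.ext (by rw [a, ← neg_one_mul, b, one_mul])

theorem ex_odd (h : Rq P π) {n : ℕ} (hn : Odd n) {a : G} (ha : a ^ n = 1) : ∃ x : P, π x = a ∧ x ^ n = 1 := by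
  obtain ⟨x, rfl⟩ := h.sur a
  refine ⟨x ^ (n + 1), by rw [map_pow, pow_succ, ha, one_mul], Subtype.ext ?_⟩
  rw [← pow_mul, mul_comm, pow_mul]
  rcases (h.ker (x ^ n)).1 (by rw [map_pow, ha]) with e | e <;> rw [SubmonoidClass.coe_pow, e]
  exacts [one_pow _, hn.add_one.neg_one_pow]

/-- the odd lift of an abelian subgroup -/
theorem ex_lift (h : Rq P π) (A : Subgroup G) {n : ℕ} (hn : Odd n) (he : ∀ a ∈ A, a ^ n = 1)
    (hc : ∀ a ∈ A, ∀ b ∈ A, a * b = b * a) : ∃ l : A →* P, ∀ a, π (l a) = a ∧ l a ^ n = 1 := by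
  choose l l1 l2 using fun a : A => ex_odd h hn (he a a.2)
  refine ⟨MonoidHom.mk' l fun a b => lift_odd h hn (by rw [map_mul, l1, l1, l1]; rfl) (l2 _) ?_, fun a => ⟨l1 a, l2 a⟩⟩
  have : l a * l b * (l a)⁻¹ = l b := lift_odd h hn (by rw [map_mul, map_mul, map_inv, l1, l1, hc _ a.2 _ b.2]; simp)
    (by rw [conj_pow, l2]; simp) (l2 b)
  rw [Commute.mul_pow (mul_inv_eq_iff_eq_mul.1 this), l2, l2, one_mul]
end

theorem w6 : W6.{u} := by
  intro K G _ _ _ P π h A n ho hn he hc A0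
  classical
  obtain ⟨l, hl⟩ := ex_lift h A ho he hc
  have lc : ∀ a b, l a * l b = l b * l a := fun a b => by rw [← map_mul, ← map_mul, show a * b = b * a from Subtype.ext (hc _ a.2 _ b.2)]
  obtain ⟨B, -, hB⟩ := dg' (Set.range fun a => (l a).1) (by rintro _ ⟨a, rfl⟩; exact h.sp (l a).2)
    (by rintro _ ⟨a, rfl⟩ _ ⟨b, rfl⟩; exact congrArg Subtype.val (lc a b))
    (by rintro _ ⟨a, rfl⟩; exact ⟨n, hn, congrArg Subtype.val (hl a).2⟩)
  choose d hd using fun a => hB _ ⟨a, rfl⟩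
  let w : A → I6 → Kˣ := fun a => Sum.elim (d a) (d a)⁻¹
  have hw : ∀ a, (B⁻¹ * l a * B).val = diagonal fun i => (w a i : K) := fun a => (hd a).trans (by
    rw [H6.SP.dg]; congr; ext (i | i) <;> rfl)
  let χ : I6 → A →* Kˣ := fun i => MonoidHom.mk' (w · i) fun a b => Units.ext (by
    have : (B⁻¹ * l (a * b) * B).val = (B⁻¹ * l a * B).val * (B⁻¹ * l b * B).val := by
      rw [← Units.val_mul]; simp [mul_assoc]
    rw [hw, hw, hw, diagonal_mul_diagonal] at this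
    exact congrFun (diagonal_injective this) i)
  have key : ∀ ψ : A →* Kˣ, ψ ∈ Finset.univ.image χ ↔ ∃ v ≠ 0, ∀ a, (l a).1.val *ᵥ v = (ψ a : K) • v := fun ψ => by
    have e : ∀ a v, (l a).1.val *ᵥ (B.val *ᵥ v) = B.val *ᵥ (diagonal (fun i => (w a i : K)) *ᵥ v) := fun a v => by
      rw [← hw, mulVec_mulVec, mulVec_mulVec, ← Units.val_mul, ← Units.val_mul]; simp [mul_assoc]
    simp only [Finset.mem_image, Finset.mem_univ, true_and]
    refine ⟨?_, fun ⟨v, v0, hv⟩ => ?_⟩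
    · rintro ⟨i, rfl⟩
      refine ⟨B.val *ᵥ Pi.single i 1, by simp [mulVec_eq_zero_iff, -mulVec_single], fun a => ?_⟩
      rw [e, ← mulVec_smul, diagonal_mulVec_single, ← Pi.single_smul]; rfl
    obtain ⟨i, hi⟩ := Function.ne_iff.1 (mt (mulVec_eq_zero_iff B⁻¹).1 v0)
    refine ⟨i, MonoidHom.ext fun a => Units.ext (mul_right_cancel₀ hi ?_)⟩
    have := congrArg ((B⁻¹).val *ᵥ ·) (e a ((B⁻¹).val *ᵥ v))
    simp only [mulVec_inv_mulVec, inv_mulVec_mulVec, hv, mulVec_smul] at this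
    exact ((congrFun this i).trans (mulVec_diagonal _ _ _)).symm
  obtain ⟨i, hi⟩ : ∃ i, χ i ≠ 1 := by
    by_contra! H
    refine A0 (eq_bot_iff.2 fun a ha => ?_)
    have := hw ⟨a, ha⟩
    rw [show (fun i => (w ⟨a, ha⟩ i : K)) = fun _ => 1 from funext fun i => congrArg Units.val (DFunLike.congr_fun (H i) ⟨a, ha⟩),
      diagonal_one, Units.val_eq_one, mul_assoc, inv_mul_eq_one, eq_comm, mul_eq_right, OneMemClass.coe_eq_one] at this
    rw [Subgroup.mem_bot, ← show π (l ⟨a, ha⟩) = a from (hl _).1, this, map_one]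
  refine ⟨χ i, hi, Finset.univ.image χ, Finset.card_image_le.trans (by simp), Finset.mem_image_of_mem _ (Finset.mem_univ _),
    fun ψ hψ => ?_, fun ψ hψ g φ hφ => ?_⟩
  · obtain ⟨j, -, rfl⟩ := Finset.mem_image.1 hψ
    exact Finset.mem_image.2 ⟨j.swap, Finset.mem_univ _, MonoidHom.ext fun a => by rcases j with j | j <;> simp [χ, w]⟩
  obtain ⟨v, v0, hv⟩ := (key ψ).1 hψ
  obtain ⟨x, rfl⟩ := h.sur g
  refine (key _).2 ⟨_, mt (mulVec_eq_zero_iff x.1⁻¹).1 v0, fun a => ?_⟩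
  have : l (φ a) = x * l a * x⁻¹ := lift_odd h ho (by rw [(hl _).1, hφ, map_mul, map_mul, map_inv, (hl _).1]) (hl _).2
    (by rw [conj_pow, (hl _).2]; simp)
  rw [MonoidHom.comp_apply, ← mulVec_smul, ← hv, this, mulVec_mulVec, mulVec_mulVec, ← Units.val_mul, ← Units.val_mul]
  simp [mul_assoc]

end H11.SP
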