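/-
S5806, tools NS TE NM OU.
-/
import Cfsg.Agent.H11.SP1

set_option autoImplicit false

open Matrix Cfsg Cfsg.Geo H27.Asch Module H6.SP
open scoped commutatorElement
namespace H11.SP
universe u v

section
variable {k : Type*} [Field k] {G : Type*} [Group G] {H P : Subgroup (G6 k)} {π : P →* G}

theorem card_pm {α : Type*} (f : α → G6 k) (i : Function.Injective f) (h : ∀ a, f a = 1 ∨ f a = -1) : Nat.card α ≤ 2 :=
  (Nat.card_le_card_of_injective (β := ({1, -1} : Set (G6 k))) (fun x => ⟨f x, h x⟩)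
    fun _ _ e => i (congrArg Subtype.val e)).trans ((Set.ncard_insert_le _ _).trans (by simp))

theorem fin_P (h : Rq P π) : Finite P := by
  have := h.fin
  have : Finite π.ker := Finite.of_injective (β := ({1, -1} : Set (G6 k))) (fun x => ⟨x.1.1, (h.ker _).1 x.2⟩)
    fun _ _ e => Subtype.ext (Subtype.ext (Subtype.mk.inj e))
  exact π.finite_iff_finite_ker_range.2 ⟨this, inferInstance⟩

theorem comm_top (h : Rq P π) : commutator P = ⊤ := Subgroup.map_injective P.subtype_injective (by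
  rw [Subgroup.map_subtype_commutator, h.perf, ← MonoidHom.range_eq_map, Subgroup.range_subtype])

theorem ker_cen (h : Rq P π) : π.ker ≤ Subgroup.center P := fun x hx => Subgroup.mem_center_iff.2 fun y => Subtype.ext (by
  rcases (h.ker x).1 hx with e | e <;> simp [e])

theorem card_ker (h : Rq P π) : Nat.card π.ker ≤ 2 :=
  card_pm _ (Subtype.val_injective.comp Subtype.val_injective) fun x => (h.ker _).1 x.2

theorem scal_pm {g : G6 k} (hg : g ∈ S6 k) (hs : g ∈ scalars I6 k) : g = 1 ∨ g = -1 := by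
  obtain ⟨c, hc⟩ := mem_scalars.1 hs
  have := mem_S6.1 hg (Pi.single (.inr 0) 1) (Pi.single (.inl 0) 1)
  rw [hc] at this
  rw [smul_mulVec, smul_mulVec, one_mulVec, one_mulVec, fm_smul_l, fm_smul_r, ← mul_assoc, mul_eq_right₀ (by simp [fm_ap, Fin.sum_univ_three]),
    mul_self_eq_one_iff] at this
  rcases this with rfl | rfl
  exacts [.inl (Units.ext (by simpa using hc)), .inr (Units.ext (by simpa using hc))]

theorem pm_scal {g : G6 k} (h : g = 1 ∨ g = -1) : g ∈ scalars I6 k := by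
  rcases h with rfl | rfl
  exacts [one_mem _, mem_scalars.2 ⟨-1, by simp⟩]

theorem cen_bot (h : Rq P π) : Subgroup.center G = ⊥ :=
  (h.simp.eq_bot_or_eq_top_of_normal _ inferInstance).resolve_right fun e =>
    h.nab ⟨⟨fun a b => Subgroup.mem_center_iff.1 (e ▸ Subgroup.mem_top b) a⟩⟩

theorem gen_top (h : Rq P π) {S : Set P} (hS : Subgroup.closure (π '' S) = ⊤) : Subgroup.closure S = ⊤ := by
  have a : ∀ g : P, ∃ x ∈ Subgroup.closure S, ∃ z ∈ Subgroup.center P, g = x * z := fun g => by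
    obtain ⟨x, hx, e⟩ : π g ∈ (Subgroup.closure S).map π := by rw [MonoidHom.map_closure, hS]; trivial
    exact ⟨x, hx, x⁻¹ * g, ker_cen h (by simp [e]), by simp⟩
  refine eq_top_iff.2 ((comm_top h).ge.trans (Subgroup.commutator_le.2 fun g _ g' _ => ?_))
  obtain ⟨x, hx, z, hz, rfl⟩ := a g
  obtain ⟨x', hx', z', hz', rfl⟩ := a g'
  have c : ∀ z ∈ Subgroup.center P, ∀ x y : P, x * z * y * (x * z)⁻¹ = x * y * x⁻¹ := fun z hz x y => by
    rw [mul_assoc x z, ← Subgroup.mem_center_iff.1 hz]; group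
  rw [show ⁅x * z, x' * z'⁆ = ⁅x, x'⁆ by
    rw [commutatorElement_def, c z hz, mul_assoc x, mul_assoc x, c z' hz']; group]
  exact mul_mem (mul_mem (mul_mem hx hx') (inv_mem hx)) (inv_mem hx')

theorem gn_top (h : Rq P π) {x y : P} (g : Gn π x y) : Subgroup.closure {x, y} = ⊤ := gen_top h (by rwa [Set.image_pair])

theorem gn_adj (h : Rq P π) {x y : P} (g : Gn π x y) : Algebra.adjoin k {x.1.val, y.1.val} = ⊤ := by
  have := fin_P h
  refine eq_top_iff.2 (h.top.ge.trans (alg_le.2 fun z hz => ?_))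
  have : (⟨z, hz⟩ : P) ∈ Submonoid.closure {x, y} := by
    rw [← Subgroup.closure_toSubmonoid_of_finite, gn_top h g]; trivial
  exact Submonoid.closure_le (S := (Algebra.adjoin k {x.1.val, y.1.val}).toSubmonoid.comap ((Units.coeHom _).comp P.subtype)).2
    (by rintro _ (rfl | rfl) <;> exact Algebra.subset_adjoin (by simp)) this

/-- the automorphisms induced by the normaliser -/
theorem ex_aut (h : St H P π) : ∃ θ : H →* MulAut G, (∀ (a : H) (x y : P), y.1 = a * x * a.1⁻¹ → π y = θ a (π x)) ∧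
    ∀ a, θ a = 1 → a.1 = 1 ∨ a.1 = -1 := by
  let c : H → P →* P := fun a => ((MulAut.conj a.1).toMonoidHom.comp P.subtype).codRestrict P fun x => h.nrm _ a.2 _ x.2
  let f : H → G →* G := fun a => π.liftOfSurjective h.sur ⟨π.comp (c a), fun x hx => (h.ker _).2 (by
    rcases (h.ker x).1 hx with e | e <;> simp [c, e])⟩
  have f0 : ∀ a x, f a (π x) = π (c a x) := fun a x => MonoidHom.liftOfRightInverse_comp_apply _ _ _ _ _
  have f1 : ∀ a b g, f (a * b) g = f a (f b g) := fun a b g => by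
    obtain ⟨x, rfl⟩ := h.sur g
    rw [f0, f0, f0]; exact congrArg π (Subtype.ext (by simp [c, mul_assoc]))
  have f2 : ∀ g, f 1 g = g := fun g => by
    obtain ⟨x, rfl⟩ := h.sur g
    rw [f0]; exact congrArg π (Subtype.ext (by simp [c]))
  refine ⟨MonoidHom.mk' (fun a => (f a).toMulEquiv (f a⁻¹) (MonoidHom.ext fun g => by simp [← f1, f2])
    (MonoidHom.ext fun g => by simp [← f1, f2])) fun a b => MulEquiv.ext (f1 a b),
    fun a x y e => (congrArg π (Subtype.ext e)).trans (f0 a x).symm, fun a e => scal_pm (h.max.1.le a.2) (h.cen _ a.2 fun x hx =>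
      pm_scal ((h.ker (c a ⟨x, hx⟩ * (⟨x, hx⟩ : P)⁻¹)).1 ?_))⟩
  rw [map_mul, ← f0, map_inv, mul_inv_eq_one]
  exact DFunLike.congr_fun e _
end

theorem ns : NS.{u} := by
  intro k G _ _ P π h G' _ m ⟨e⟩ hm ho
  have := fin_P h
  let s : Shrink.{0} P ≃* P := Shrink.mulEquiv
  have := Finite.of_equiv _ s.symm.toEquiv
  have k1 : ∀ x, x ∈ (e.toMonoidHom.comp (π.comp s.toMonoidHom)).ker ↔ π (s x) = 1 := fun x => map_eq_one_iff e e.injective
  obtain ⟨f, hf⟩ := hm.2 _ (e.toMonoidHom.comp (π.comp s.toMonoidHom)) ⟨e.surjective.comp (h.sur.comp s.surjective),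
    fun x hx => Subgroup.mem_center_iff.2 fun y => s.injective (by
      rw [map_mul, map_mul, Subgroup.mem_center_iff.1 (ker_cen h ((k1 x).1 hx))]), by
      rw [show commutator (Shrink.{0} P) = ⊤ by
        rw [← Subgroup.map_top_of_surjective s.symm.toMonoidHom s.symm.surjective, ← comm_top h, map_commutator_eq,
          MonoidHom.range_eq_top.2 s.symm.surjective, commutator_def]]
      exact le_top⟩
  refine (injective_iff_map_eq_one _).2 fun x hx => lift_odd h ho (by rw [hx, map_one]) ?_ (one_pow _)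
  obtain ⟨a, ha⟩ := hf ⟨s.symm x, (k1 _).2 (by simpa using hx)⟩
  have := (map_pow f a m).trans (congrArg (· ^ m) ha)
  rw [show a ^ m = 1 from Multiplicative.toAdd.injective (by simp), map_one] at this
  exact s.symm.injective (by rw [map_pow, map_one]; exact (congrArg Subtype.val this).symm)

theorem te2 {F : Type*} [Field F] {ι : Type} [Fintype ι] [DecidableEq ι] [Nonempty ι] {Γ : Type*} [Group Γ] (ρ ρ' : Γ →* GL ι F)
    (hN : alg ρ.range = ⊤) (ht : ∀ g, (ρ g).val.trace = (ρ' g).val.trace) : ∃ B : GL ι F, ∀ g, B * ρ g * B⁻¹ = ρ' g := by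
  have hs := span_eq_top_of_alg hN
  let T : (Γ →* GL ι F) → Matrix ι ι F →ₗ[F] (Γ → F) := fun ρ => LinearMap.pi fun t =>
    (traceLinearMap ι F F).comp (LinearMap.mulRight F (ρ t).val)
  have h1 : ∀ x, T ρ' (ρ' x).val = T ρ (ρ x).val := fun x => funext fun t => by
    change ((ρ' x).val * _).trace = ((ρ x).val * _).trace
    rw [← Units.val_mul, ← Units.val_mul, ← map_mul, ← map_mul, ht]
  have h3 : LinearMap.range (T ρ) ≤ LinearMap.range (T ρ') := by
    rw [LinearMap.range_eq_map, ← hs, Submodule.map_span_le]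
    rintro _ ⟨_, ⟨x, rfl⟩, rfl⟩
    exact ⟨_, h1 x⟩
  have h0 : Function.Injective (T ρ) := (injective_iff_map_eq_zero _).2 fun b hb =>
    eq_zero_of_trace hs (by rintro _ ⟨_, ⟨x, rfl⟩, rfl⟩; exact congrFun hb x)
  have h2 : Function.Injective (T ρ') := by
    have := Submodule.finrank_mono h3
    have := (T ρ').finrank_range_add_finrank_ker
    rw [LinearMap.finrank_range_of_inj h0] at *
    exact LinearMap.ker_eq_bot.1 (Submodule.finrank_eq_zero.1 (by omega))
  let θ := (LinearEquiv.ofInjective _ h2).symm.toLinearMap.comp ((T ρ).codRestrict _ fun a => h3 ⟨a, rfl⟩)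
  have h4 : ∀ x, θ (ρ x).val = (ρ' x).val := fun x => (LinearEquiv.symm_apply_eq _).2 (Subtype.ext (h1 x).symm)
  let φ := AlgHom.ofLinearMap θ (by simpa using h4 1) (by
    rw [LinearMap.map_mul_iff]
    refine LinearMap.ext_on hs ?_
    rintro _ ⟨_, ⟨x, rfl⟩, rfl⟩
    refine LinearMap.ext_on hs ?_
    rintro _ ⟨_, ⟨y, rfl⟩, rfl⟩
    simp only [LinearMap.compr₂_apply, LinearMap.mul_apply', LinearMap.compl₂_apply, LinearMap.comp_apply]
    rw [← Units.val_mul, ← map_mul, h4, h4, h4, map_mul, Units.val_mul])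
  obtain ⟨B, hB⟩ := exists_cA (AlgEquiv.ofBijective φ ⟨algHom_injective φ,
    LinearMap.injective_iff_surjective.1 (show Function.Injective φ.toLinearMap from algHom_injective φ)⟩)
  exact ⟨B, fun g => Units.ext ((cA_coe _ _).symm.trans ((hB _).symm.trans (h4 g)))⟩

theorem te : TE.{u, v} := fun _ _ _ => ⟨fun _ hP hF K hK => by_contra fun e => hF K e (realisable_of_trace hP hK),
  fun _ _ => te2⟩

theorem nm : NM.{u} := by
  intro k G _ _ H P π h M J B J0 hM hH
  have a : ∀ g : G6 k, B * g * B⁻¹ ∈ M → ∀ u v, fG (RingHom.id k) (B.valᵀ * J * B.val) (g.val *ᵥ u) (g.val *ᵥ v) =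
      fG (RingHom.id k) (B.valᵀ * J * B.val) u v := fun g hg u v => by
    rw [fG_mulVec, show g.valᵀ * (B.valᵀ * J * B.val) * g.val.map (RingHom.id k) =
      B.valᵀ * ((B * g * B⁻¹).valᵀ * J * (B * g * B⁻¹).val) * B.val by
        simp only [Units.val_mul, transpose_mul, ← mul_assoc, Units.inv_mul_cancel_right]
        rw [← transpose_mul B⁻¹.val, Units.inv_mul, transpose_one, one_mul]; rfl, hM _ hg]
  obtain ⟨c, hc⟩ := eq_smul_of_adjM (σ := RingHom.id k) (fun _ => rfl) h.top (spΦ 3 k).G (G' := B.valᵀ * J * B.val) (by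
    rintro _ ⟨x, hx, rfl⟩ u v
    rw [show adjM _ _ x.val = _ from mem_ad.1 (h.sp hx), ← a x (hH x (h.le hx)) u, mulVec_inv_mulVec])
  have c0 : c ≠ 0 := by
    rintro rfl
    have := congrArg (fun m => (B⁻¹).valᵀ * m * (B⁻¹).val) hc
    simp only [← mul_assoc, Units.mul_inv_cancel_right] at this
    rw [← transpose_mul, Units.mul_inv] at this
    exact J0 (by simpa using this)
  rcases h.max.2 (M.comap (MulAut.conj B).toMonoidHom) hH (fun g hg u v => mul_left_cancel₀ c0 (by
    have := a g hg u v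
    rwa [hc, fG_smul, fG_smul] at this)) with e | e
  · exact .inl fun m hm => e ▸ (show B * _ * B⁻¹ ∈ M by simpa [mul_assoc] using hm)
  · exact .inr fun g hg => (e.ge hg :)

theorem ou : OU.{u} := by
  intro k G _ _ H P π h hA
  obtain ⟨θ, t1, t2⟩ := ex_aut h
  have := h.fin
  have i : Function.Injective (MulAut.conj : G →* MulAut G) := (injective_iff_map_eq_one _).2 fun g e =>
    (cen_bot h.toRq).le (Subgroup.mem_center_iff.2 fun y => (mul_inv_eq_iff_eq_mul.1 (DFunLike.congr_fun e y)).symm)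
  have c : (Inn G).index = 1 ∨ (Inn G).index = 2 := by
    have := (Inn G).card_mul_index
    rw [← Nat.card_congr (MonoidHom.ofInjective i).toEquiv] at this
    have := Nat.le_of_mul_le_mul_left (((mul_comm 2 _ ▸ hA :) : _ ≤ _).trans' this.le) Nat.card_pos
    have := (Inn G).index_ne_zero_of_finite
    omega
  have d : ∀ x : P, θ ⟨x, h.le x.2⟩ = MulAut.conj (π x) := fun x => MulEquiv.ext fun g => by
    obtain ⟨y, rfl⟩ := h.sur g
    rw [← t1 ⟨x, h.le x.2⟩ y (x * y * x⁻¹) rfl]; simp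
  have e : ∀ a : H, θ a ∈ Inn G → a.1 ∈ P ∨ -a.1 ∈ P := by
    rintro a ⟨g, hg⟩
    obtain ⟨x, rfl⟩ := h.sur g
    rcases t2 (a * (⟨x, h.le x.2⟩ : H)⁻¹) (by rw [map_mul, map_inv, d, hg, mul_inv_cancel]) with e | e
    · exact .inl (mul_inv_eq_one.1 e ▸ x.2)
    · exact .inr (by rw [mul_inv_eq_iff_eq_mul.1 e]; simp)
  refine ⟨?_, fun a ha => e (⟨a, ha⟩ ^ 2) ?_, or_iff_not_imp_left.2 fun n α => ?_⟩
  · have : Nat.card θ.ker ≤ 2 := card_pm _ (Subtype.val_injective.comp Subtype.val_injective) fun x => t2 _ x.2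
    have := θ.range.card_le_card_group
    rw [← θ.ker.card_mul_index, Subgroup.index_ker]
    nlinarith
  · rw [map_pow]
    rcases c with c | c
    exacts [Subgroup.index_eq_one.1 c ▸ Subgroup.mem_top _, Subgroup.sq_mem_of_index_two c _]
  push Not at n
  obtain ⟨a, ha, n⟩ := n
  have n := mt (e ⟨a, ha⟩) (not_or.2 n)
  obtain ⟨b, rfl⟩ : α ∈ θ.range := by
    have l : Inn G ≤ θ.range := by rintro _ ⟨g, rfl⟩; obtain ⟨x, rfl⟩ := h.sur g; exact ⟨_, d x⟩
    by_cases q : α ∈ Inn G
    · exact l q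
    have := l ((Subgroup.mul_mem_iff_of_index_two (c.resolve_left fun c => n (Subgroup.index_eq_one.1 c ▸ Subgroup.mem_top _))).2
      (iff_of_false q n))
    exact (θ.range.mul_mem_cancel_right ⟨_, rfl⟩).1 this
  exact ⟨b, b.2, t1 b⟩

end H11.SP
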