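import Cfsg.Agent.H27.Asch31
import Cfsg.Agent.H27.C6b

/-! Geometric subgroups of `SL₅`: conjugation, monomial groups and normal forms. -/

set_option autoImplicit false
set_option linter.dupNamespace false

namespace H11.G5

open Matrix Cfsg Cfsg.Geo H27.Asch Module H27 H4
open scoped commutatorElement MatrixGroups

/-- invertible matrices -/
abbrev G5 (k : Type*) [Field k] := GL (Fin 5) k
/-- matrices -/
abbrev M5 (k : Type*) := Matrix (Fin 5) (Fin 5) k

variable {F : Type*} [Field F] {q : ℕ} {H M P S X Y : Subgroup (G5 F)} {x y g B : G5 F} {σ : F →+* F}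

local notation "𝐬" => sc (Fin 5)
local notation "SL5" => specialLinear (Fin 5) F

/-- trace -/
def T (x : G5 F) : F := x.val.trace

theorem T_conj (h x : G5 F) : T (h * x * h⁻¹) = T x := by
  rw [T, ← cA_coe, trace_cA]; rfl

theorem T_sc_mul (c : Fˣ) (x : G5 F) : T (𝐬 c * x) = c * T x := by
  rw [T, Units.val_mul, sc_val, smul_mul_assoc, one_mul, trace_smul]; rfl

theorem det_inv (h : x.val.det = 1) : (x⁻¹).val.det = 1 := mem_SL.1 (inv_mem (mem_SL.2 h))

theorem det_pow' (h : x.val.det = 1) (n : ℕ) : (x ^ n).val.det = 1 := mem_SL.1 (pow_mem (mem_SL.2 h) n)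

theorem sc_comm (c : Fˣ) (x : G5 F) : 𝐬 c * x = x * 𝐬 c := scalars_comm (sc_mem c) x

theorem sc_mul_mul (c d : Fˣ) (x y : G5 F) : 𝐬 c * x * (𝐬 d * y) = 𝐬 (c * d) * (x * y) := by
  rw [map_mul, mul_assoc, ← mul_assoc x, ← sc_comm d x]; simp only [mul_assoc]

theorem sc_mul_inv (c : Fˣ) (x : G5 F) : (𝐬 c * x)⁻¹ = 𝐬 c⁻¹ * x⁻¹ := by
  rw [_root_.mul_inv_rev, ← map_inv, sc_comm]

theorem conj_sc_mul (c : Fˣ) (h x : G5 F) : h * (𝐬 c * x) * h⁻¹ = 𝐬 c * (h * x * h⁻¹) := by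
  rw [← mul_assoc h, ← sc_comm]; simp only [mul_assoc]

theorem det_sc (c : Fˣ) : (𝐬 c).val.det = (c : F) ^ 5 := by simp [sc_val]

theorem sc_eq_one {c : Fˣ} (h : 𝐬 c = 1) : c = 1 := sc_injective (h.trans (map_one _).symm)

theorem five_of_scalar (h : x ∈ scalars _ F) (hd : x.val.det = 1) : x ^ 5 = 1 := by
  obtain ⟨c, rfl⟩ := exists_sc h
  rw [← map_pow, show c ^ 5 = 1 from Units.ext ((det_sc c).symm.trans hd), map_one]

theorem ent (e : x = y) (i j : Fin 5) : x.val i j = y.val i j := e ▸ rfl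

/-- conjugate subgroup -/
def cjP (B : G5 F) (P : Subgroup (G5 F)) : Subgroup (G5 F) := P.comap (MulAut.conj B).toMonoidHom

theorem mem_cjP : x ∈ cjP B P ↔ B * x * B⁻¹ ∈ P := Iff.rfl

theorem mem_cjP' : B⁻¹ * x * B ∈ cjP B P ↔ x ∈ P := by simp [mem_cjP, mul_assoc]

theorem cjP_inf (B : G5 F) (P S : Subgroup (G5 F)) : cjP B (P ⊓ S) = cjP B P ⊓ cjP B S := rfl

theorem cjP_cjP (B C : G5 F) (P : Subgroup (G5 F)) : cjP C (cjP B P) = cjP (B * C) P := by
  ext x; simp [mem_cjP, mul_assoc]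

theorem cjP_one (P : Subgroup (G5 F)) : cjP 1 P = P := by ext x; simp [mem_cjP]

theorem cjP_mono (B : G5 F) (h : P ≤ S) : cjP B P ≤ cjP B S := fun _ hx => h hx

theorem cjP_SL (B : G5 F) : cjP B SL5 = SL5 := by
  ext x; simp [mem_cjP, specialLinear]

theorem card_cjP (B : G5 F) (P : Subgroup (G5 F)) : Nat.card (cjP B P) = Nat.card P :=
  Nat.card_congr ⟨fun x => ⟨_, x.2⟩, fun x => ⟨_, mem_cjP'.2 x.2⟩, fun x => Subtype.ext (by simp [mul_assoc]),
    fun x => Subtype.ext (by simp [mul_assoc])⟩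

theorem max_cj (h : IsMaximalIn S H) (hS : cjP B S = S) : IsMaximalIn S (cjP B H) := by
  have e : ∀ M, cjP B (cjP B⁻¹ M) = M := fun M => by rw [cjP_cjP, inv_mul_cancel, cjP_one]
  have e' : ∀ M, cjP B⁻¹ (cjP B M) = M := fun M => by rw [cjP_cjP, mul_inv_cancel, cjP_one]
  refine ⟨⟨hS ▸ cjP_mono B h.1.le, fun h' => h.1.not_ge (by
    have := cjP_mono B⁻¹ (hS.le.trans h'); rwa [e', e'] at this)⟩, fun M h1 h2 => ?_⟩
  refine (h.2 (cjP B⁻¹ M) (e' H ▸ cjP_mono _ h1) (e' S ▸ cjP_mono _ (h2.trans hS.ge))).imp (fun h => ?_) fun h => ?_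
  · rw [← h, e]
  · rw [← hS, ← h, e]

theorem max_of {G : Type*} [Group G] [Finite G] {S M : Subgroup G} (h : M < S)
    (h2 : ∀ H, IsMaximalIn S H → M ≤ H → Nat.card H ≤ Nat.card M) : IsMaximalIn S M := by
  refine ⟨h, fun X h3 h4 => or_iff_not_imp_right.2 fun h5 => ?_⟩
  obtain ⟨H, h6, h7⟩ := Finite.exists_le_maximal (p := (· < S)) (lt_of_le_of_ne h4 h5)
  have a := Subgroup.eq_of_le_of_card_ge (h3.trans h6) (h2 H ⟨h7.1, fun Y a b =>
    or_iff_not_imp_right.2 fun c => (h7.2 (lt_of_le_of_ne b c) a).antisymm a⟩ (h3.trans h6))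
  exact (a ▸ h6).antisymm h3

theorem max_cj' (hS : cjP B S = S) (h : IsMaximalIn S (cjP B M ⊓ S)) : IsMaximalIn S (M ⊓ S) := by
  have := max_cj (B := B⁻¹) h (by nth_rw 1 [← hS]; rw [cjP_cjP, mul_inv_cancel, cjP_one])
  rwa [← hS, ← cjP_inf, cjP_cjP, mul_inv_cancel, cjP_one, hS] at this

theorem card_cj_inf (hS : cjP B S = S) : Nat.card (M ⊓ S :) = Nat.card (cjP B M ⊓ S :) := by
  rw [← card_cjP B, cjP_inf, hS]

theorem inf_lt (h : ¬ S ≤ M) : M ⊓ S < S := lt_of_le_of_ne inf_le_right fun e => h (e ▸ inf_le_left)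

theorem cjP_self (h : B ∈ P) : cjP B P = P := by
  ext x; rw [mem_cjP, P.mul_mem_cancel_right (inv_mem h), P.mul_mem_cancel_left h]

theorem same (h : cjP B S = S) (e : cjP B X = Y) : Nat.card (X ⊓ S :) ≤ Nat.card (Y ⊓ S :) :=
  (e ▸ card_cj_inf h).le

theorem le_of_cjP (hS : cjP B S = S) (h : S ≤ cjP B X) : S ≤ X := fun _ hx =>
  mem_cjP'.1 (h (hS ▸ mem_cjP'.2 hx))

theorem cjP_norm (B : G5 F) (R : Subgroup (G5 F)) : cjP B (subgroupNormalizer R) = subgroupNormalizer (cjP B R) :=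
  Subgroup.comap_normalizer_eq_of_surjective _ (MulAut.conj B).surjective

theorem cjP_iso {Ψ Φ : Frm (Fin 5) σ} (h : ∀ a, Φ.adj (cA B a) = cA B (Ψ.adj a)) : cjP B Φ.iso = Ψ.iso := by
  ext x
  rw [mem_cjP, Frm.mem_iso_iff, Frm.mem_iso_iff, ← cA_coe, h, conj_inv, ← cA_coe, (cA B).injective.eq_iff]

theorem cjP_sim {Ψ Φ : Frm (Fin 5) σ} (h : ∀ a, Φ.adj (cA B a) = cA B (Ψ.adj a)) :
    cjP B (similarityGroup Φ.f) = similarityGroup Ψ.f := by
  ext x
  simp only [mem_cjP, Frm.mem_sim_iff]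
  simp only [conj_inv]
  simp only [← cA_coe, h, ← map_smul, (cA B).injective.eq_iff]

theorem det_cj (h : x.val.det = 1) : (B⁻¹ * x * B).val.det = 1 := (det_units_conj' B _).trans h

theorem conj_mul'' (B x y : G5 F) : B⁻¹ * x * B * (B⁻¹ * y * B) = B⁻¹ * (x * y) * B := by group

theorem not_stab {W : Submodule F (Fin 5 → F)} (h : Irr M) (h0 : W ≠ ⊥) (h1 : W ≠ ⊤) :
    ¬ M ≤ subspaceStabilizer W := fun e => (h W fun _ hg w hw => (e hg w).1 hw).elim h0 h1

/-- the embedding given by a field homomorphism and a change of basis -/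
def emb {K : Type*} [Field K] (ι : K →+* F) (B : G5 F) : G5 K →* G5 F :=
  (MulAut.conj B).toMonoidHom.comp (GeneralLinearGroup.map ι)

section emb
variable {K : Type*} [Field K] (ι : K →+* F) (B : G5 F)

theorem emb_apply (y : G5 K) : emb ι B y = B * GeneralLinearGroup.map ι y * B⁻¹ := rfl

theorem emb_val (y : G5 K) : (emb ι B y).val = cA B (y.val.map ι) := rfl

theorem emb_injective : Function.Injective (emb ι B) :=
  (MulAut.conj B).injective.comp fun _ _ h =>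
    Units.ext (Matrix.ext fun i j => ι.injective (ent h i j))

theorem T_emb (y : G5 K) : T (emb ι B y) = ι (T y) := by
  rw [emb_apply, T_conj]; simp [T, trace]

theorem det_emb (y : G5 K) : (emb ι B y).val.det = ι y.val.det :=
  (det_units_conj B _).trans (ι.map_det _).symm

end emb

/-! ### monomial matrices -/

/-- diagonal elements -/
def dg : (Fin 5 → Fˣ) →* G5 F where
  toFun d := monoU d 1
  map_one' := Units.ext mono_one
  map_mul' _ _ := by rw [monoU_mul]; rfl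

/-- permutation matrices -/
def pm : Equiv.Perm (Fin 5) →* G5 F where
  toFun s := monoU 1 s
  map_one' := Units.ext mono_one
  map_mul' _ _ := by rw [monoU_mul]; simp; rfl

theorem dg_val (d : Fin 5 → Fˣ) : (dg d).val = diagonal fun i => (d i : F) := mono_diag _

theorem T_dg (d : Fin 5 → Fˣ) : T (dg d) = d 0 + d 1 + d 2 + d 3 + d 4 := by
  simp [T, dg_val, Fin.sum_univ_five]

theorem monoU_inj {d d' : Fin 5 → Fˣ} {s s' : Equiv.Perm (Fin 5)} (h : monoU d s = monoU d' s') : d = d' ∧ s = s' := by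
  have a : ∀ j, s j = s' j ∧ d j = d' j := fun j => by
    have := ent h (s j) j
    simp only [monoU, mono, of_apply, if_true] at this
    split_ifs at this with e
    exacts [⟨e, Units.ext this⟩, absurd this (d j).ne_zero]
  exact ⟨funext fun j => (a j).2, Equiv.ext fun j => (a j).1⟩

theorem dg_injective : Function.Injective (dg : _ → G5 F) := fun _ _ h => (monoU_inj h).1

theorem pm_injective : Function.Injective (pm : _ → G5 F) := fun _ _ h => (monoU_inj h).2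

theorem monoU_eq (d : Fin 5 → Fˣ) (s : Equiv.Perm (Fin 5)) : monoU d s = pm s * dg d := by
  rw [pm, dg]; simp [monoU_mul]

theorem pm_dg (s : Equiv.Perm (Fin 5)) (d : Fin 5 → Fˣ) : pm s * dg d * (pm s)⁻¹ = dg fun j => d (s⁻¹ j) := by
  rw [← map_inv, pm, dg]; simp [monoU_mul]

theorem det_monoU (d : Fin 5 → Fˣ) (s : Equiv.Perm (Fin 5)) :
    (monoU d s).val.det = (s.sign : ℤ) * ((∏ i, d i : Fˣ) : F) := by
  simp [monoU, det_mono]

theorem dg_mem {d : Fin 5 → Fˣ} (h : ∏ i, d i = 1) : dg d ∈ SL5 := mem_SL.2 ((det_monoU ..).trans (by simp [h]))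

theorem pm_mem {s : Equiv.Perm (Fin 5)} (h : s.sign = 1) : pm s ∈ SL5 := mem_SL.2 ((det_monoU ..).trans (by simp [h]))

theorem pm_mulVec (s : Equiv.Perm (Fin 5)) (v : Fin 5 → F) : (pm s : G5 F).val *ᵥ v = fun i => v (s⁻¹ i) := by
  ext i
  obtain ⟨j, rfl⟩ := s.surjective i
  exact (mono_mulVec ..).trans (by simp)

theorem dg_mulVec (d : Fin 5 → Fˣ) (v : Fin 5 → F) : (dg d).val *ᵥ v = fun i => d i * v i := by
  ext i; rw [dg_val, mulVec_diagonal]

theorem sc_eq_dg (c : Fˣ) : 𝐬 c = dg fun _ => c := Units.ext (by rw [sc_val, dg_val, smul_one_eq_diagonal])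

/-- monomial matrices -/
def Mon : Subgroup (G5 F) where
  carrier := {x | ∃ d s, x = monoU d s}
  mul_mem' := by rintro _ _ ⟨d, s, rfl⟩ ⟨d', s', rfl⟩; exact ⟨_, _, monoU_mul ..⟩
  one_mem' := ⟨1, 1, (map_one dg).symm⟩
  inv_mem' := by rintro _ ⟨d, s, rfl⟩; exact ⟨_, _, monoU_inv ..⟩

theorem mono_mem (d : Fin 5 → Fˣ) (s : Equiv.Perm (Fin 5)) : monoU d s ∈ Mon := ⟨d, s, rfl⟩

/-- the permutation part -/
noncomputable def πM : (Mon : Subgroup (G5 F)) →* Equiv.Perm (Fin 5) :=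
  .mk' (fun x => x.2.choose_spec.choose) fun x y =>
    (monoU_inj ((x * y).2.choose_spec.choose_spec.symm.trans ((congrArg₂ (· * ·) x.2.choose_spec.choose_spec
      y.2.choose_spec.choose_spec).trans (monoU_mul ..)))).2

theorem πM_one {x : (Mon : Subgroup (G5 F))} (h : πM x = 1) : ∃ d, x.1 = dg d :=
  ⟨_, x.2.choose_spec.choose_spec.trans (congrArg _ h)⟩

theorem col_ne (B : G5 F) (i : Fin 5) : B.val *ᵥ Pi.single i 1 ≠ 0 := by rw [Ne, mulVec_eq_zero_iff]; simp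

theorem cjP_dec {D : Fin 5 → Submodule F (Fin 5 → F)} (hD : IsMDecomposition 1 D)
    (h : ∀ i, B.val *ᵥ Pi.single i 1 ∈ D i) : cjP B (decompositionStabilizer D) = Mon := by
  have a : ∀ i, D i = Submodule.span F {B.val *ᵥ Pi.single i 1} := fun i =>
    (Submodule.eq_of_le_of_finrank_eq (by simpa using h i) (by
      rw [hD.finrank_eq, finrank_span_singleton (col_ne B i)])).symm
  have b : ∀ (x : G5 F) v, (B * x * B⁻¹).val *ᵥ (B.val *ᵥ v) = B.val *ᵥ (x.val *ᵥ v) := fun x v => cA_mulVec ..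
  ext x
  refine ⟨fun ⟨s, hs⟩ => ?_, ?_⟩
  · have c : ∀ j, ∃ c : Fˣ, ∀ i, x.val i j = if i = s j then c.1 else 0 := fun j => by
      have : (B * x * B⁻¹).val *ᵥ _ ∈ D (s j) := hs j ▸ Submodule.mem_map_of_mem (h j)
      rw [a, b, Submodule.mem_span_singleton] at this
      obtain ⟨c, hc⟩ := this
      rw [← mulVec_smul] at hc
      replace hc := congrArg ((B⁻¹).val *ᵥ ·) hc
      simp only [inv_mulVec_mulVec] at hc
      refine ⟨Units.mk0 c fun e => ?_, fun i => by simpa [Pi.single_apply] using (congrFun hc i).symm⟩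
      exact col_ne x j (by rw [← hc, e, zero_smul])
    choose c hc using c
    exact ⟨c, s, Units.ext (Matrix.ext fun i j => hc j i)⟩
  · rintro ⟨d, s, rfl⟩
    refine mem_decStab hD fun i => ⟨s i, fun w hw => ?_⟩
    rw [a, Submodule.mem_span_singleton] at hw ⊢
    obtain ⟨c, rfl⟩ := hw
    refine ⟨c * d i, ?_⟩
    rw [mulVec_smul, MulEquiv.coe_toMonoidHom, MulAut.conj_apply, b, ← mulVec_smul, ← mulVec_smul]
    congr 1; ext j; simp [monoU, mono, Pi.single_apply]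

theorem exists_basis {v : Fin 5 → Fin 5 → F} (h : LinearIndependent F v) :
    ∃ B : G5 F, ∀ i, B.val *ᵥ Pi.single i 1 = v i := by
  obtain ⟨u, hu⟩ := linearIndependent_cols_iff_isUnit.1 (show LinearIndependent F (of v)ᵀ.col from h)
  exact ⟨u, fun i => by rw [hu]; ext; simp⟩

theorem nf_dec {D : Fin 5 → Submodule F (Fin 5 → F)} (hD : IsMDecomposition 1 D) :
    ∃ B, cjP B (decompositionStabilizer D) = Mon := by
  obtain ⟨v, h1, h2⟩ := exists_vec hD
  obtain ⟨B, hB⟩ := exists_basis (hD.indep.linearIndependent _ h1 h2)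
  exact ⟨B, cjP_dec hD fun i => hB i ▸ h1 i⟩

/-- the action of a decomposition stabilizer on the five lines -/
theorem dec_hom {D : Fin 5 → Submodule F (Fin 5 → F)} (hD : IsMDecomposition 1 D) (h : M ≤ decompositionStabilizer D) :
    ∃ (π : M →* Equiv.Perm (Fin 5)) (B : G5 F), ∀ x, π x = 1 → ∃ d, x.1 = B * dg d * B⁻¹ := by
  obtain ⟨B, e⟩ := nf_dec hD
  refine ⟨πM.comp ((((MulAut.conj B⁻¹).toMonoidHom).comp M.subtype).codRestrict _ fun x =>
    e ▸ (by simpa using mem_cjP'.2 (h x.2))), B, fun x hx => (πM_one hx).imp fun d a => ?_⟩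
  rw [← a]; simp [mul_assoc]

section
variable {D : Fin 5 → Submodule F (Fin 5 → F)} (hD : IsMDecomposition 1 D)
include hD

theorem dec_eig (hx : x ∈ decompositionStabilizer D) : ∃ v c, v ≠ 0 ∧ (x ^ 120).val *ᵥ v = (c : F) • v := by
  obtain ⟨π, B, e⟩ := dec_hom hD le_rfl
  obtain ⟨d, a⟩ := e (⟨x, hx⟩ ^ 120) (by
    rw [map_pow]; simpa [Fintype.card_perm, Nat.factorial] using pow_card_eq_one (x := π ⟨x, hx⟩))
  refine ⟨B.val *ᵥ Pi.single 0 1, d 0, col_ne B 0, ?_⟩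
  rw [show x ^ 120 = _ from a, ← cA_coe, cA_mulVec, ← mulVec_smul, dg_mulVec]
  congr 1; ext i; by_cases e : i = 0 <;> simp [e]

theorem dec_card [Fintype F] (h : M ≤ decompositionStabilizer D) (h1 : ∀ x ∈ M, x ^ (Fintype.card F - 1) = 1 → x = 1) :
    Nat.card M ∣ 120 := by
  obtain ⟨π, B, e⟩ := dec_hom hD h
  have := Subgroup.card_dvd_of_injective π ((injective_iff_map_eq_one _).2 fun x hx => Subtype.ext (h1 _ x.2 (by
    obtain ⟨d, a⟩ := e x hx
    rw [a, conj_pow, ← map_pow, show d ^ _ = 1 from funext fun i =>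
      Units.ext (by simpa using FiniteField.pow_card_sub_one_eq_one _ (d i).ne_zero), map_one, mul_one, mul_inv_cancel])))
  simpa [Fintype.card_perm, Nat.factorial] using this

theorem dec_ker [Finite F] (h : M ≤ decompositionStabilizer D) {R : Subgroup (G5 F)} (hR : R ≤ M) (hc : Nat.card R = 125)
    (hz : Nat.card ((scalars _ F).subgroupOf R) = 5) :
    ∃ r ∈ R, r ∉ scalars _ F ∧ ∀ j ∈ M, r * (j * r * j⁻¹) = j * r * j⁻¹ * r := by
  obtain ⟨π, B, e⟩ := dec_hom hD h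
  let φ := π.comp (Subgroup.inclusion hR)
  have a : ¬ φ.ker ≤ (scalars _ F).subgroupOf R := fun b => by
    have c := Subgroup.card_dvd_of_le b
    have d := Subgroup.card_subgroup_dvd_card φ.range
    have := Nat.mul_dvd_mul c d
    rw [← Subgroup.index_ker, Subgroup.card_mul_index, hc, hz] at this
    simp [Fintype.card_perm, Nat.factorial] at this
  obtain ⟨r, h1, h2⟩ := SetLike.not_le_iff_exists.1 a
  refine ⟨r, r.2, h2, fun j hj => ?_⟩
  obtain ⟨d, a⟩ := e _ h1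
  obtain ⟨d', b⟩ := e (⟨j, hj⟩ * Subgroup.inclusion hR r * ⟨j, hj⟩⁻¹) (π.normal_ker.conj_mem _ h1 _)
  rw [show j * r * j⁻¹ = _ from b, show r.1 = _ from a, conj_mul, conj_mul, ← map_mul, mul_comm d, map_mul]

end

/-! ### groups containing many monomial matrices -/

/-- `M` contains the even permutation matrices and the diagonal matrices with entries in `A` -/
structure Has (M : Subgroup (G5 F)) (A : Subgroup Fˣ) : Prop where
  pm : ∀ s, s.sign = 1 → pm s ∈ M
  dg : ∀ d, (∀ i, d i ∈ A) → ∏ i, d i = 1 → dg d ∈ M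

/-- `diag (1, a, a⁻¹, 1, 1)` -/
def D1 (a : Fˣ) : G5 F := dg ![1, a, a⁻¹, 1, 1]
/-- `diag (a, a, a⁻², 1, 1)` -/
def D2 (a : Fˣ) : G5 F := dg ![a, a, a⁻¹ * a⁻¹, 1, 1]
/-- a three-cycle -/
def c3 : Equiv.Perm (Fin 5) := Equiv.swap 0 2 * Equiv.swap 0 1

theorem comm_D1 (a : Fˣ) : ⁅D1 a, pm c3⁆ = D2 a := by
  rw [commutatorElement_def, mul_assoc, mul_assoc, ← mul_assoc (pm _), D1, ← map_inv, pm_dg, ← map_mul, D2]
  congr 1; ext1 i; fin_cases i <;> simp [c3, Equiv.swap_apply_def]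

theorem T_D1 (a : Fˣ) : T (D1 a) = 3 + a + (a : F)⁻¹ := by simp [D1, T_dg]; ring

theorem T_D1_inv (a : Fˣ) : T (D1 a)⁻¹ = T (D1 a) := by simp [D1, ← map_inv, T_dg]; ring

theorem D1_mem (a : Fˣ) : D1 a ∈ SL5 := dg_mem (by simp [Fin.prod_univ_five])

theorem D2_real {a : Fˣ} (h : T (D2 a)⁻¹ = T (D2 a)) : a ^ 2 = 1 := by
  simp only [D2, ← map_inv, T_dg] at h
  simp at h
  have a0 := a.ne_zero
  field_simp at h
  have : ((a : F) - 1) ^ 2 * (a ^ 2 - 1) = 0 := by linear_combination h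
  refine Units.ext ?_
  rcases mul_eq_zero.1 this with e | e
  · rw [Units.val_pow_eq_pow_val, sub_eq_zero.1 (pow_eq_zero_iff two_ne_zero |>.1 e), one_pow, Units.val_one]
  · exact sub_eq_zero.1 e

/-- the group generated by these elements -/
def M0 (A : Subgroup Fˣ) : Subgroup (G5 F) where
  carrier := {x | ∃ d s, (∀ i, d i ∈ A) ∧ ∏ i, d i = 1 ∧ s.sign = 1 ∧ x = monoU d s}
  mul_mem' := by
    rintro _ _ ⟨d, s, a, b, c, rfl⟩ ⟨d', s', a', b', c', rfl⟩
    exact ⟨_, _, fun i => mul_mem (a _) (a' _), by rw [Finset.prod_mul_distrib, Equiv.prod_comp s' d, b, b', mul_one],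
      by simp [c, c'], monoU_mul ..⟩
  one_mem' := ⟨1, 1, fun _ => one_mem _, by simp, by simp, (map_one dg).symm⟩
  inv_mem' := by
    rintro _ ⟨d, s, a, b, c, rfl⟩
    exact ⟨_, _, fun i => inv_mem (a _), by rw [Finset.prod_inv_distrib, Equiv.prod_comp s⁻¹ d, b, inv_one],
      by simp [c], monoU_inv ..⟩

theorem card_M0 (A : Subgroup Fˣ) : Nat.card (M0 A) = Nat.card A ^ 4 * 60 := by
  let f : (Fin 4 → A) × alternatingGroup (Fin 5) → M0 A := fun e =>
    ⟨monoU (Fin.cons (∏ i, (e.1 i).1)⁻¹ fun i => (e.1 i).1) e.2, _, _, fun i => by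
      refine Fin.cases ?_ (fun i => ?_) i
      exacts [inv_mem (prod_mem fun i _ => (e.1 i).2), (e.1 i).2], by simp [Fin.prod_univ_succ (n := 4)], e.2.2, rfl⟩
  suffices Function.Bijective f by
    rw [← Nat.card_congr (Equiv.ofBijective f this), Nat.card_prod, Nat.card_fun, Nat.card_eq_fintype_card (α := Fin 4),
      Fintype.card_fin, Nat.card_eq_fintype_card (α := alternatingGroup _), card_alternatingGroup]
    rfl
  refine ⟨fun e e' h => ?_, ?_⟩
  · obtain ⟨a, b⟩ := monoU_inj (congrArg Subtype.val h)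
    exact Prod.ext (funext fun i => Subtype.ext (congrFun a i.succ)) (Subtype.ext b)
  · rintro ⟨_, d, s, a, b, c, rfl⟩
    refine ⟨(fun i => ⟨d i.succ, a _⟩, ⟨s, c⟩), Subtype.ext (congrArg (monoU · s) (funext fun i => ?_))⟩
    refine Fin.cases ?_ (fun i => rfl) i
    rw [Fin.prod_univ_succ] at b
    exact (eq_inv_of_mul_eq_one_left b).symm

namespace Has
variable {A : Subgroup Fˣ} (h : Has M A) {a : Fˣ}
include h

theorem mono (e : M ≤ X) : Has X A := ⟨fun s a => e (h.pm s a), fun d a b => e (h.dg d a b)⟩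

theorem card_dvd : Nat.card A ^ 4 * 60 ∣ Nat.card M := card_M0 A ▸ Subgroup.card_dvd_of_le (by
  rintro _ ⟨d, s, a, b, c, rfl⟩
  exact monoU_eq d s ▸ mul_mem (h.pm s c) (h.dg d a b))

theorem D1 (ha : a ∈ A) : D1 a ∈ M :=
  h.dg _ (fun i => by fin_cases i <;> simp [ha]) (by simp [Fin.prod_univ_five])

theorem alg (ha : a ∈ A) (h1 : a ≠ 1) : alg M = ⊤ := by
  refine eq_top_of_mono (fun i j e => ?_) fun i j => ?_
  · obtain ⟨k, a1, a2⟩ := (by decide : ∀ i j : Fin 5, ∃ k, k ≠ i ∧ k ≠ j) i j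
    have b := mem_alg (h.dg (Pi.mulSingle i a * Pi.mulSingle k a⁻¹) (fun l => mul_mem ?_ ?_) ?_)
    · exact ⟨_, dg_val (F := F) _ ▸ b, by simpa [Pi.mulSingle_apply, a1.symm, a2.symm, e.symm] using h1⟩
    · rw [Pi.mulSingle_apply]; split_ifs; exacts [ha, one_mem _]
    · rw [Pi.mulSingle_apply]; split_ifs; exacts [inv_mem ha, one_mem _]
    · simp [Finset.prod_mul_distrib]
  · obtain ⟨s, a, b⟩ : ∃ s : Equiv.Perm (Fin 5), s.sign = 1 ∧ s j = i := by
      obtain ⟨k, l, a⟩ := (by decide : ∀ i j : Fin 5, ∃ k l, k ≠ l ∧ k ≠ j ∧ l ≠ j) i j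
      by_cases e : i = j
      · exact ⟨1, by simp, e.symm⟩
      · exact ⟨Equiv.swap i j * Equiv.swap k l, by simp [e, a.1], by simp [Equiv.swap_apply_of_ne_of_ne a.2.1.symm a.2.2.symm]⟩
    exact ⟨1, s, mem_alg (h.pm s a), b⟩

theorem quad {Φ : Frm (Fin 5) (.id F)} (e : M ≤ similarityGroup Φ.f) (ha : a ∈ A) : a ^ 2 = 1 := by
  have := comm_D1 a ▸ Φ.comm_mem_iso (e (h.D1 ha)) (e (h.pm c3 (by decide)))
  exact D2_real (by rw [T, ← Φ.mem_iso_iff.1 this, Φ.trace_adj]; rfl)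

end Has

end H11.G5
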