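import Cfsg.Agent.H11.G5a

/-! Geometric subgroups of `SL₅`: field extension groups, subfield groups, forms. -/

set_option autoImplicit false
set_option linter.style.haveILetI false
set_option linter.unusedSectionVars false

namespace H11.G5

open Matrix Cfsg Cfsg.Geo H27.Asch Module H27 H4
open scoped commutatorElement MatrixGroups

variable {F : Type*} [Field F] {q r : ℕ} {H M P S X Y : Subgroup (G5 F)} {x y g B : G5 F} {σ : F →+* F}

local notation "𝐬" => sc (Fin 5)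
local notation "SL5" => specialLinear (Fin 5) F

/-! ### field extension groups -/

section
variable {K : Subalgebra F (M5 F)} (hK : IsFieldSubalgebra 5 K)
include hK

theorem fld_eig {a : M5 F} (ha : a ∈ K) {v : Fin 5 → F} (h0 : v ≠ 0) {c : F} (h : a *ᵥ v = c • v) : a = c • 1 :=
  sub_eq_zero.1 (field_eq_zero hK (sub_mem ha (K.smul_mem (one_mem _) c)) h0 (by simp [sub_mulVec, smul_mulVec, h]))

theorem fld_mem (h : x.val ∈ K) : x ∈ subalgebraNormalizer K := by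
  obtain ⟨y, a, b⟩ := hK.inv _ h x.ne_zero
  rw [← Units.inv_eq_of_mul_eq_one_right b] at a
  exact fun k => ⟨fun e => mul_mem (mul_mem h e) a, fun e => by simpa [mul_assoc] using mul_mem (mul_mem a e) h⟩

theorem fld_le (hx : x.val ∈ K) (h0 : x ∉ scalars _ F) {A : Subalgebra F (M5 F)} (h : x.val ∈ A) : K ≤ A := by
  letI := (isField_of_inv hK.comm hK.inv).toField
  have hd : (minpoly F (⟨x, hx⟩ : K)).natDegree = finrank F K := by
    have h := minpoly.degree_dvd (K := F) (Algebra.IsIntegral.isIntegral (⟨x, hx⟩ : K))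
    rw [hK.finrank_eq] at h ⊢
    refine ((Nat.dvd_prime Nat.prime_five).1 h).resolve_left fun e => ?_
    obtain ⟨a, ha⟩ := minpoly.natDegree_eq_one_iff.1 e
    exact h0 (mem_scalars.2 ⟨a, (congrArg Subtype.val ha).symm.trans (Algebra.algebraMap_eq_smul_one a)⟩)
  have := congrArg IntermediateField.toSubalgebra
    ((Field.primitive_element_iff_minpoly_natDegree_eq F _).2 hd)
  rw [IntermediateField.adjoin_simple_toSubalgebra_of_isAlgebraic (Algebra.IsAlgebraic.isAlgebraic _)]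
    at this
  have h2 : Algebra.adjoin F {(⟨x, hx⟩ : K)} ≤ A.comap K.val := Algebra.adjoin_le (by rintro _ rfl; exact h)
  exact fun k hk => h2 (x := ⟨k, hk⟩) (by rw [this]; trivial)

theorem fld_irr (hx : x.val ∈ K) (h0 : x ∉ scalars _ F) (h : x ∈ M) : Irr M := fun W hW =>
  or_iff_not_imp_left.2 fun e => by
    let A : Subalgebra F (M5 F) :=
      { carrier := {a | ∀ w ∈ W, a *ᵥ w ∈ W}
        mul_mem' := fun a b w hw => by rw [← mulVec_mulVec]; exact a _ (b w hw)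
        add_mem' := fun a b w hw => by rw [add_mulVec]; exact add_mem (a w hw) (b w hw)
        algebraMap_mem' := fun c w hw => by
          rw [Algebra.algebraMap_eq_smul_one, smul_mulVec, one_mulVec]; exact W.smul_mem c hw }
    obtain ⟨w, hw, w0⟩ := W.exists_mem_ne_zero_of_ne_bot e
    obtain ⟨f, hf⟩ := exists_field_equiv (ι := Fin 5) hK w0
    refine top_unique fun v _ => ?_
    obtain ⟨k, rfl⟩ := f.surjective v
    exact hf k ▸ fld_le hK hx h0 (A := A) (hW x h) k.2 w hw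

theorem fld_orth (h2 : (2 : F) ≠ 0) {Φ : Frm (Fin 5) (.id F)} (hx : x.val ∈ K) (hd : x.val.det = 1) (h : x ∈ Φ.iso) :
    x = 1 := by
  have a := Φ.det_adj (x.val - 1)
  rw [Φ.adj_sub, Φ.mem_iso_iff.1 h, Φ.adj_one, show (x⁻¹).val - 1 = (x⁻¹).val * -(x.val - 1) by
    rw [neg_sub, mul_sub, x.inv_mul, mul_one], det_mul, det_inv hd, det_neg, RingHom.id_apply] at a
  obtain ⟨v, v0, e⟩ := exists_mulVec_eq_zero_iff.2 (show (x.val - 1).det = 0 from mul_left_cancel₀ h2 (by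
    simp at a; linear_combination -a))
  exact Units.ext (by simpa using fld_eig hK hx v0 (c := 1) (by simpa [sub_mulVec, sub_eq_zero] using e))

variable [Fintype F]

theorem fld_card : Nat.card K = Fintype.card F ^ 5 := by
  rw [Module.natCard_eq_pow_finrank (K := F), hK.finrank_eq, Nat.card_eq_fintype_card]

theorem fld_five (hg : g ∈ subalgebraNormalizer K) : (g ^ 5).val ∈ K := by
  letI := (isField_of_inv hK.comm hK.inv).toField
  haveI := Fintype.ofFinite K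
  obtain ⟨j, hj⟩ := exists_cA_pow hK hg
  have a : ∀ n, ∀ k ∈ K, cA (g ^ n) k = k ^ Fintype.card F ^ (n * j) := fun n => by
    induction n with
    | zero => simp [cA_one]
    | succ n ih => intro k hk; rw [pow_succ, cA_mul, hj k hk, map_pow, ih k hk, ← pow_mul, ← pow_add, add_mul, one_mul]
  refine mem_of_comm_field hK fun k hk => (cA_eq_iff.1 ?_).symm
  rw [a 5 k hk, pow_mul, ← fld_card hK, Nat.card_eq_fintype_card]
  exact congrArg Subtype.val (FiniteField.pow_card_pow j (⟨k, hk⟩ : K))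

theorem fld_pm (B : G5 F) {s : Equiv.Perm (Fin 5)} (h1 : s ≠ 1) (h2 : s * s = 1) :
    B * pm s * B⁻¹ ∉ subalgebraNormalizer K := fun h => by
  have := fld_five hK h
  rw [conj_pow, ← map_pow, show s ^ 5 = s by rw [pow_succ, show 4 = 2 * 2 from rfl, pow_mul, sq s, h2]; simp] at this
  exact h1 (pm_injective (F := F) ((conj_eq_one_iff.1 (Units.ext (by
    simpa only [one_smul, Units.val_one] using fld_eig hK this (v := B.val *ᵥ 1) ((mulVec_eq_zero_iff B).not.2 one_ne_zero) (c := 1) (by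
      rw [← cA_coe, cA_mulVec, pm_mulVec, one_smul]; rfl)))).trans (map_one _).symm))

theorem fld_eq {K' : Subalgebra F (M5 F)} (hK' : IsFieldSubalgebra 5 K') (h1 : x.val ∈ K) (h2 : x.val ∈ K')
    (h0 : x ∉ scalars _ F) : K' = K :=
  (fld_le hK' h2 h0 h1).antisymm (fld_le hK h1 h0 h2)

theorem fld_ord {N : ℕ} (h : N ∣ Fintype.card F ^ 5 - 1) : ∃ s : G5 F, s.val ∈ K ∧ orderOf s = N := by
  letI := (isField_of_inv hK.comm hK.inv).toField
  obtain ⟨θ, hθ⟩ := IsCyclic.exists_ofOrder_eq_natCard (α := Kˣ)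
  rw [Nat.card_units, fld_card hK] at hθ
  refine ⟨Units.map K.val.toMonoidHom (θ ^ (orderOf θ / N)), (θ ^ _).1.2, ?_⟩
  rw [orderOf_injective _ (Units.map_injective Subtype.val_injective), orderOf_pow_orderOf_div (orderOf_pos θ).ne' (hθ ▸ h)]

theorem fld_unit (hF : Fintype.card F = q ^ 2) {Φ : Frm (Fin 5) (H11.frob hF)} (hx : x.val ∈ K) (h0 : x ∉ scalars _ F)
    (h : x ∈ Φ.iso) : x ^ (q ^ 5 + 1) = 1 := by
  have a : K = Algebra.adjoin F {x.val} :=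
    (fld_le hK hx h0 (Algebra.self_mem_adjoin_singleton F _)).antisymm (Algebra.adjoin_le (by rintro _ rfl; exact hx))
  have b := adj_eq_pow hF hK (Φ := Φ) (a ▸ Frm.st_adjoin (by
    rintro _ rfl
    obtain ⟨y, c, d⟩ := hK.inv _ hx x.ne_zero
    rw [Φ.mem_iso_iff.1 h, ← a, Units.inv_eq_of_mul_eq_one_right d]; exact c)) _ hx
  rw [Φ.mem_iso_iff.1 h, ← Units.val_pow_eq_pow_val, Units.val_inj] at b
  rw [pow_succ, ← b, inv_mul_cancel]

end

theorem Has.fld [Fintype F] {A : Subgroup Fˣ} (h : Has M A) {K : Subalgebra F (M5 F)} (hK : IsFieldSubalgebra 5 K) :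
    ¬ M ≤ subalgebraNormalizer K := fun e =>
  fld_pm hK 1 (s := Equiv.swap 0 1 * Equiv.swap 2 3) (by decide) (by decide) (by
    rw [one_mul, inv_one, mul_one]; exact e (h.pm _ (by decide)))

open Polynomial in
theorem ord_le [Fintype F] (z : G5 F) : orderOf z ≤ Fintype.card F ^ 5 := by
  classical
  have m := z.val.charpoly_monic
  have d : ∀ k, (X ^ k %ₘ z.val.charpoly).degree < 5 := fun k => by
    simpa using degree_modByMonic_lt (X ^ k) m
  have : Function.Injective fun k : Fin (orderOf z) => fun i : Fin 5 => (X ^ k.1 %ₘ z.val.charpoly).coeff i := fun k l e => by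
    have a : X ^ k.1 %ₘ z.val.charpoly = X ^ l.1 %ₘ z.val.charpoly := Polynomial.ext fun i => by
      by_cases h : i < 5
      · exact congrFun e ⟨i, h⟩
      · rw [coeff_eq_zero_of_degree_lt ((d _).trans_le (by exact_mod_cast not_lt.1 h)),
          coeff_eq_zero_of_degree_lt ((d _).trans_le (by exact_mod_cast not_lt.1 h))]
    exact Fin.ext (pow_injOn_Iio_orderOf k.2 l.2 (Units.ext (by
      simp only [Units.val_pow_eq_pow_val]; rw [pow_eq_aeval_mod_charpoly, a, ← pow_eq_aeval_mod_charpoly])))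
  simpa using Fintype.card_le_of_injective _ this

/-! ### subfield groups -/

section
variable {F₀ : Subfield F}

theorem cjP_sub (F₀ : Subfield F) (B : G5 F) : cjP B (subfieldSubgroup F₀ B) = subfieldSubgroup F₀ 1 := by
  ext x
  simp only [mem_cjP, mem_subfieldSubgroup_iff, Asch.Rat, ← cA_coe, ← map_smul, cA_inv_cA, inv_one, cA_one]

theorem emb_mem_sub (B : G5 F) (y : G5 F₀) : emb F₀.subtype B y ∈ subfieldSubgroup F₀ B :=
  ⟨_, Subgroup.mem_sup_left ⟨y, rfl⟩, rfl⟩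

theorem sub_eq (F₀ : Subfield F) (B : G5 F) :
    subfieldSubgroup F₀ B = (⊤ : Subgroup _).map (emb F₀.subtype B) ⊔ scalars _ F := by
  rw [subfieldSubgroup, Subgroup.map_sup, MonoidHom.range_eq_map, Subgroup.map_map]
  exact congrArg _ (cj_eq (nm_central hZ ⊤) trivial)

theorem sub_dec (hx : x ∈ subfieldSubgroup F₀ B) (hd : x.val.det = 1) :
    ∃ c : Fˣ, ∃ y, x = 𝐬 c * emb F₀.subtype B y ∧ (c : F) ^ 5 ∈ F₀ := by
  rw [sub_eq, mem_sup_central hZ] at hx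
  obtain ⟨_, ⟨y, -, rfl⟩, z, hz, rfl⟩ := hx
  obtain ⟨c, rfl⟩ := exists_sc hz
  rw [← sc_comm] at hd ⊢
  rw [Units.val_mul, det_mul, det_sc, det_emb] at hd
  exact ⟨c, y, rfl, eq_inv_of_mul_eq_one_left hd ▸ inv_mem y.val.det.2⟩

theorem sub_real (hx : x ∈ subfieldSubgroup F₀ B) (hd : x.val.det = 1) (h : T x⁻¹ = T x) : T x ∈ F₀ := by
  obtain ⟨c, y, rfl, hc⟩ := sub_dec hx hd
  by_cases e : T (𝐬 c * emb F₀.subtype B y) = 0
  · exact e ▸ zero_mem _
  have a : T (𝐬 c * emb F₀.subtype B y) ^ 5 ∈ F₀ := by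
    rw [T_sc_mul, T_emb, mul_pow]; exact mul_mem hc (pow_mem (T y).2 5)
  have b : T (𝐬 c * emb F₀.subtype B y) * T (𝐬 c * emb F₀.subtype B y)⁻¹ ∈ F₀ := by
    rw [sc_mul_inv, T_sc_mul, T_sc_mul, ← map_inv, T_emb, T_emb, mul_mul_mul_comm, Units.mul_inv, one_mul]
    exact mul_mem (T y).2 (T y⁻¹).2
  convert div_mem a (pow_mem b 2) using 1
  rw [h]; field_simp

theorem sub_ord [Finite F] (hx : x ∈ subfieldSubgroup F₀ B) (hd : x.val.det = 1) :
    ∃ n, 0 < n ∧ n ≤ Nat.card F₀ ^ 5 ∧ orderOf x ∣ 5 * n := by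
  haveI := Fintype.ofFinite F₀
  obtain ⟨c, y, rfl, hc⟩ := sub_dec hx hd
  let c' : F₀ˣ := .mk0 ⟨_, hc⟩ fun e => pow_ne_zero 5 c.ne_zero (congrArg Subtype.val e)
  refine ⟨orderOf (sc (Fin 5) c' * y ^ 5), orderOf_pos _, Nat.card_eq_fintype_card (α := F₀) ▸ ord_le _,
    orderOf_dvd_of_pow_eq_one ?_⟩
  have : (𝐬 c * emb F₀.subtype B y) ^ 5 = emb F₀.subtype B (sc (Fin 5) c' * y ^ 5) := by
    rw [Commute.mul_pow (sc_comm c _), map_mul, map_pow, ← map_pow 𝐬]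
    congr 1
    rw [emb_apply, eq_mul_inv_iff_mul_eq, sc_comm]
    congr 1
    refine Units.ext (Matrix.ext fun i j => ?_)
    by_cases e : i = j <;> simp [sc_val, e, c', _root_.smul_pow]
  rw [pow_mul, this, ← map_pow, pow_orderOf_eq_one, map_one]

theorem cnt_D1 {K : Type*} [Field K] [Finite F] (ι : K →+* F) {A : Subgroup Kˣ}
    (m : ∀ a ∈ A, ι (3 + a + (a : K)⁻¹) ∈ F₀) : Nat.card A ≤ 2 * Nat.card F₀ := by
  classical
  haveI := Finite.of_injective _ ι.injective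
  haveI := Fintype.ofFinite A
  haveI := Fintype.ofFinite F₀
  rw [Nat.card_eq_fintype_card, Nat.card_eq_fintype_card]
  refine Finset.card_le_mul_card_image_of_maps_to (f := fun a => ⟨_, m a.1 a.2⟩) (fun _ _ => Finset.mem_univ _) 2
    fun t _ => ?_
  by_contra! e
  obtain ⟨a, b, c, ha, hb, hc, h1, h2, h3⟩ := Finset.two_lt_card_iff.1 e
  simp only [Finset.mem_filter, Subtype.ext_iff, Ne, Units.ext_iff] at ha hb hc h1 h2 h3
  have := ι.injective (ha.2.trans hb.2.symm)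
  have := ι.injective (ha.2.trans hc.2.symm)
  have := mul_inv_cancel₀ a.1.ne_zero
  have := mul_inv_cancel₀ b.1.ne_zero
  have := mul_inv_cancel₀ c.1.ne_zero
  grind

theorem Has.sub [Finite F] {A : Subgroup Fˣ} (h : Has M A) (e : M ≤ subfieldSubgroup F₀ B) :
    Nat.card A ≤ 2 * Nat.card F₀ :=
  cnt_D1 (.id F) fun a ha => T_D1 a ▸ sub_real (e (h.D1 ha)) (mem_SL.1 (D1_mem a)) (T_D1_inv a)

end

/-! ### forms -/

theorem T_iso {Φ : Frm (Fin 5) σ} (h : x ∈ Φ.iso) : T x⁻¹ = σ (T x) := by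
  rw [T, ← Φ.mem_iso_iff.1 h, Φ.trace_adj, T]

theorem sim_five {Φ : Frm (Fin 5) σ} (h : x ∈ similarityGroup Φ.f) (hd : x.val.det = 1) : x ^ 5 ∈ Φ.iso := by
  obtain ⟨c, e⟩ := Φ.mem_sim_iff.1 h
  have := congrArg det e
  rw [Φ.det_adj, det_smul, hd, det_inv hd, map_one, mul_one, Fintype.card_fin] at this
  rw [Φ.mem_iso_iff, Units.val_pow_eq_pow_val, Φ.adj_pow, e, _root_.smul_pow, ← this, one_smul, ← inv_pow]; rfl

theorem sim_real {Φ : Frm (Fin 5) σ} (h : x ∈ similarityGroup Φ.f) (hd : x.val.det = 1) (hr : T x⁻¹ = T x) :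
    T x ∈ fixS σ := by
  obtain ⟨c, e⟩ := Φ.mem_sim_iff.1 h
  have a := congrArg det e
  rw [Φ.det_adj, det_smul, hd, det_inv hd, map_one, mul_one, Fintype.card_fin] at a
  have b : (c : F) • Φ.adj x⁻¹.val = x.val := by
    rw [← mul_one ((c : F) • _), ← x.inv_mul, ← mul_assoc, smul_mul_assoc, ← mul_smul_comm, ← e, ← Φ.adj_mul, x.mul_inv,
      Φ.adj_one, one_mul]
  have c1 := congrArg trace e
  have c2 := congrArg trace b
  rw [Φ.trace_adj, trace_smul] at c1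
  rw [trace_smul, Φ.trace_adj] at c2
  simp only [T, smul_eq_mul] at hr c1 c2 ⊢
  rw [mem_fixS]
  grind

theorem Has.unit [Finite F] {A : Subgroup Fˣ} (h : Has M A) {Φ : Frm (Fin 5) σ} (e : M ≤ similarityGroup Φ.f) :
    Nat.card A ≤ 2 * Nat.card (fixS σ) :=
  cnt_D1 (.id F) fun a ha => T_D1 a ▸ sim_real (e (h.D1 ha)) (mem_SL.1 (D1_mem a)) (T_D1_inv a)

theorem gr_smul {Ψ Φ : Frm (Fin 5) σ} (h : ∀ a, Φ.adj (cA B a) = cA B (Ψ.adj a)) :
    ∃ c : F, c ≠ 0 ∧ Φ.gr B = c • Ψ.G.val := by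
  obtain ⟨c, e⟩ := eq_smul_of_adjM Ψ.σσ (Algebra.adjoin_univ _ _) Ψ.G (G' := Φ.gr B) fun s _ u v => by
    rw [← Φ.f_gr, ← Φ.f_gr, ← cA_mulVec, ← cA_mulVec, Φ.f_adj, h]; rfl
  exact ⟨c, fun a => Φ.det_gr B (by simp [e, a]), e⟩

theorem sim_of_gr {Φ : Frm (Fin 5) σ} {c : F} (hc : c ≠ 0) (h : Φ.gr B = c • Φ.G.val) : B ∈ similarityGroup Φ.f :=
  ⟨Units.mk0 c hc, fun u v => by rw [Φ.f_gr, h, fG_smul]; rfl⟩

/-- special isometry group of the standard form -/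
def SI (h : ∀ a, σ (σ a) = a) : Subgroup (G5 F) := (Frm.one _ h).iso ⊓ SL5

theorem mem_SI {h : ∀ a, σ (σ a) = a} : x ∈ SI h ↔ x.val * x.valᵀ.map σ = 1 ∧ x.val.det = 1 := by
  rw [SI, Subgroup.mem_inf, mem_SL, Frm.mem_iso_iff]
  refine and_congr_left' ?_
  rw [show (Frm.one _ h).adj x.val = x.valᵀ.map σ by simp [Frm.adj, adjM, Frm.one]]
  exact ⟨fun e => by rw [e, Units.mul_inv], fun e => (Units.inv_eq_of_mul_eq_one_right e).symm⟩

theorem mono_SI {h : ∀ a, σ (σ a) = a} {d : Fin 5 → Fˣ} (h1 : ∀ i, d i * σ (d i) = 1) {s : Equiv.Perm (Fin 5)}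
    (h2 : monoU d s ∈ SL5) : monoU d s ∈ SI h :=
  ⟨(Frm.mem_iso _).2 fun u v => (Frm.one_mono h h1 s u v).trans (one_mul _), h2⟩

theorem has_SI {h : ∀ a, σ (σ a) = a} {A : Subgroup Fˣ} (hA : ∀ a ∈ A, a * σ a = 1) : Has (SI h) A :=
  ⟨fun _ e => mono_SI (by simp) (pm_mem e), fun _ a b => mono_SI (fun i => hA _ (a i)) (dg_mem b)⟩

theorem emb_SI {K : Type*} [Field K] {τ : K →+* K} {h : ∀ a, τ (τ a) = a} {h' : ∀ a, σ (σ a) = a} (ι : K →+* F)
    (e : ∀ a, σ (ι a) = ι (τ a)) : (SI h).map (emb ι 1) ≤ SI h' := by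
  rintro _ ⟨y, hy, rfl⟩
  obtain ⟨a, b⟩ := mem_SI.1 hy
  rw [mem_SI, emb_val, cA_one, ← RingHom.mapMatrix_apply, ← RingHom.map_det, b, map_one, ← map_one ι.mapMatrix, ← a, map_mul]
  exact ⟨congrArg _ (Matrix.ext fun _ _ => e _), rfl⟩

theorem nf_sub {F₀ : Subfield F} {τ : F₀ →+* F₀} (e : ∀ a : F₀, σ a = τ a) {Φ : Frm (Fin 5) σ} (hΦ : Φ.ε = 1) (h1 : Φ.G = 1)
    (hs : ∀ Ψ₁ Ψ₂ : Frm (Fin 5) τ, Ψ₁.ε = 1 → Ψ₂.ε = 1 → ∃ g, ∀ a, Ψ₂.adj (cA g a) = cA g (Ψ₁.adj a))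
    (h : ∀ i j, 1 * Φ.gr B i j ∈ F₀) :
    ∃ C ∈ similarityGroup Φ.f, cjP C (subfieldSubgroup F₀ B) = subfieldSubgroup F₀ 1 := by
  let G : M5 F₀ := of fun i j => ⟨_, one_mul (Φ.gr B i j) ▸ h i j⟩
  have a : F₀.subtype.mapMatrix G = Φ.gr B := rfl
  have t : ∀ a, τ (τ a) = a := fun a => Subtype.ext (by rw [← e, ← e, Φ.σσ])
  let Ψ : Frm (Fin 5) τ := ⟨t, .mkOfDetNeZero G fun b => Φ.det_gr B (by rw [← a, ← RingHom.map_det, b, map_zero]), 1,
    Matrix.ext fun i j => Subtype.ext ((e _).symm.trans (by simpa [hΦ, G] using Φ.gr_symm B j i))⟩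
  obtain ⟨g, hg⟩ := hs (Frm.one _ t) Ψ rfl rfl
  obtain ⟨c, c0, hc⟩ := gr_smul hg
  refine ⟨B * emb F₀.subtype 1 g, sim_of_gr (c := c) (by simpa using c0) ?_, by
    rw [← cjP_cjP, cjP_sub, cjP_self (emb_mem_sub 1 g)]⟩
  have := congrArg F₀.subtype.mapMatrix hc
  rw [Frm.gr, map_mul, map_mul] at this
  rw [Frm.gr, Units.val_mul, emb_val, cA_one, transpose_mul, Matrix.map_mul, mul_assoc, mul_assoc, ← mul_assoc B.valᵀ,
    ← mul_assoc (_ * _), ← Frm.gr, ← a, ← mul_assoc, h1]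
  convert this using 1
  · exact congrArg _ (Matrix.ext fun _ _ => e _)
  · ext i j; by_cases e : i = j <;> simp [Frm.one, e]

theorem quad_eq (h2 : (2 : F) ≠ 0) {Q : (Fin 5 → F) → F} (hQ : IsNondegenerateQuadraticForm Q) :
    ∃ Φ : Frm (Fin 5) (RingHom.id F), Φ.ε = 1 ∧ quadSimilarityGroup Q = similarityGroup Φ.f := by
  obtain ⟨Φ, hΦ⟩ := exists_qF hQ
  refine ⟨Φ, hΦ.ε, Subgroup.ext fun x => exists_congr fun c =>
    ⟨fun e u v => hΦ.polar ▸ polar_mulVec e u v, fun e v => mul_left_cancel₀ h2 ?_⟩⟩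
  rw [← hΦ.two, e, hΦ.two]; ring

theorem sub_small {Q f r : ℕ} (hr : 2 ≤ r) (h : Q = f ^ r) (h2 : Q ≤ 2 * f + 1) (h1 : 2 ≤ Q) : Q = 4 := by
  obtain ⟨k, rfl⟩ := Nat.exists_eq_add_of_le hr
  have : f ≠ 0 := by rintro rfl; simp at h; omega
  have a : f ^ 2 ≤ Q := h ▸ Nat.pow_le_pow_right (by omega) hr
  have : f ≤ 2 := by nlinarith
  interval_cases f
  · contradiction
  · simp at h; omega
  · rw [pow_add] at h; omega

theorem not_prime_pow {Q f r : ℕ} (hr : 2 ≤ r) (h : Q = f ^ r) : ¬ Q.Prime := fun e => by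
  have := (h ▸ e).eq_one_of_pow; omega

theorem sq_of {f : ℕ} (ho : Odd r) (h : q ^ 2 = f ^ r) (h0 : f ≠ 0) : ∃ q₀, f = q₀ ^ 2 ∧ q = q₀ ^ r := by
  obtain ⟨k, rfl⟩ := ho
  obtain ⟨n, rfl⟩ : f ^ k ∣ q := (Nat.pow_dvd_pow_iff two_ne_zero).1 ⟨f, by rw [h]; ring⟩
  obtain rfl : f = n ^ 2 := mul_left_cancel₀ (pow_ne_zero 2 (pow_ne_zero k h0)) (by rw [← mul_pow, h]; ring)
  exact ⟨n, rfl, by ring⟩

variable [Fintype F]

theorem card_top : Nat.card (⊤ : Subgroup Fˣ) + 1 = Fintype.card F := by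
  rw [Subgroup.card_top, Nat.card_units, Nat.card_eq_fintype_card]
  have := Fintype.one_lt_card (α := F)
  omega

theorem invol_frob (h : ∀ a, σ (σ a) = a) (h1 : σ ≠ RingHom.id F) :
    ∃ (q : ℕ) (hF : Fintype.card F = q ^ 2), σ = H11.frob hF := by
  let τ : RingAut F := RingEquiv.ofBijective σ (Function.Involutive.bijective h)
  have a : orderOf τ = 2 := orderOf_eq_prime (RingEquiv.ext h) fun e => h1 (RingHom.ext (RingEquiv.congr_fun e))
  exact ⟨_, by rw [← a, H22.card_fixF_pow, Nat.card_eq_fintype_card], RingHom.ext (H22.apply_eq_pow_of_orderOf_two a)⟩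

theorem unit_eq {τ : F ≃+* F} {f : (Fin 5 → F) → (Fin 5 → F) → F} (h : IsUnitaryForm τ f) :
    ∃ (q : ℕ) (hF : Fintype.card F = q ^ 2) (Φ : Frm (Fin 5) (H11.frob hF)), Φ.ε = 1 ∧ f = Φ.f := by
  obtain ⟨Φ, rfl, h1⟩ := exists_frm_unit h
  obtain ⟨q, hF, e⟩ := invol_frob Φ.σσ (H12.ringEquiv_ne_id h.ne_refl)
  generalize (τ : F →+* F) = σ at *
  subst e
  exact ⟨q, hF, Φ, h1, rfl⟩

variable (F q) in
/-- `SU₅(q)` -/
abbrev SU5 : Subgroup (G5 F) := GU 5 F q ⊓ SL5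

section
variable (hF : Fintype.card F = q ^ 2) {F₀ : Subfield F}
local notation "𝔟" => H11.frob hF

theorem SU5_eq : SU5 F q = SI (H11.frob_frob hF) := by rw [SU5, ← suΦ_iso hF]; rfl

theorem cjP_SU (hB : B ∈ similarityGroup (suΦ hF 5).f) : cjP B (SU5 F q) = SU5 F q := by
  rw [cjP_inf, cjP_SL]; congr 1
  ext x
  have := Frm.nm_iso (suΦ hF 5) le_rfl
  rw [← suΦ_iso hF]
  exact ⟨fun h => by simpa [mul_assoc] using this _ (inv_mem hB) _ h, fun h => this _ hB _ h⟩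

include hF in
theorem cjP_SU_of (ha : alg P = ⊤) (h1 : P ≤ SU5 F q) (h2 : P ≤ cjP B (SU5 F q)) : cjP B (SU5 F q) = SU5 F q := by
  refine cjP_SU hF (Frm.mem_sim_of_adj _ ha ?_)
  rintro _ ⟨x, hx, rfl⟩
  dsimp only
  rw [cA_coe, (Frm.mem_iso_iff _).1 (suΦ_iso hF ▸ (h1 hx).1 :), (Frm.mem_iso_iff _).1 (suΦ_iso hF ▸ (mem_cjP.1 (h2 hx)).1 :), cA_coe]
  simp [mul_assoc]

theorem exists_onf {v : Fin 5 → Fin 5 → F} (h : ∀ i j, (suΦ hF 5).f (v i) (v j) = if i = j then 1 else 0) :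
    ∃ B, cjP B (SU5 F q) = SU5 F q ∧ ∀ i, B.val *ᵥ Pi.single i 1 = v i := by
  have a : of v * ((of v)ᵀ.map (H11.frob hF)) = 1 := Matrix.ext fun i j => by
    rw [one_apply, ← h, suΦ_f]; simp [mul_apply, hermForm]
  exact ⟨⟨(of v)ᵀ, (of v).map (H11.frob hF), by simpa [transpose_map] using congrArg transpose (mul_eq_one_comm.1 a),
    by simpa [transpose_map] using congrArg transpose a⟩, cjP_SU hF (sim_of_gr one_ne_zero (by simpa [Frm.gr, suΦ] using a)),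
    fun i => by ext; simp⟩

theorem eq_fixS (h : Fintype.card F = Nat.card F₀ ^ 2) : F₀ = fixS 𝔟 :=
  subfield_eq_of_card ((Nat.pow_left_injective two_ne_zero (h.symm.trans hF)).trans (card_fixS hF).symm)

theorem nf_real (hq : Odd q) (h : IsFormRationalStructure (hermForm 5 F q) (fixS 𝔟) 1 B) :
    ∃ C, cjP C (SU5 F q) = SU5 F q ∧ cjP C (subfieldSubgroup (fixS 𝔟) B) = subfieldSubgroup (fixS 𝔟) 1 := by
  haveI := Fintype.ofFinite (fixS 𝔟)
  obtain ⟨C, h1, h2⟩ := nf_sub (τ := RingHom.id _) (fun a => a.2) (Φ := suΦ hF 5) rfl rfl (Frm.odd_similar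
    (two_ne_of_odd_card (by rwa [← Nat.card_eq_fintype_card, card_fixS])) (by decide))
    ((Frm.rational_iff _).1 (suΦ_f hF ▸ h))
  exact ⟨C, cjP_SU hF h1, h2⟩

theorem norm_one {a : Fˣ} : a * 𝔟 a = 1 ↔ a ^ (q + 1) = 1 := by
  rw [H11.frob_apply, ← pow_succ', ← Units.val_pow_eq_pow_val, Units.val_eq_one]

theorem real_bil (h : IsFormRationalStructure (hermForm 5 F q) (fixS 𝔟) 1 B) (hM : M ≤ SU5 F q)
    (e : M ≤ subfieldSubgroup (fixS 𝔟) B) : ∃ Ψ : Frm (Fin 5) (.id F), M ≤ similarityGroup Ψ.f :=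
  ((suΦ hF 5).exists_bilin (hM.trans (suΦ_iso hF ▸ inf_le_left)) le_rfl e one_ne_zero
    ((Frm.rational_iff _).1 (suΦ_f hF ▸ h)) (ε := 1) (by simp [suΦ])).imp fun _ h => h.2.1

include hF

theorem nf_udec {D : Fin 5 → Submodule F (Fin 5 → F)} (hD : IsNondegenerateMDecomposition (hermForm 5 F q) 1 D) :
    ∃ B, cjP B (SU5 F q) = SU5 F q ∧ cjP B (decompositionStabilizer D) = Mon := by
  rw [← suΦ_f hF] at hD
  choose b hb using fun i => (suΦ hF 5).exists_on (κ := Fin 1) (H11.frob_ne_id hF) rfl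
    (hD.nondegenerate i) (by simp [hD.decomp.finrank_eq])
  obtain ⟨B, h1, h2⟩ := exists_onf hF (v := fun i => b i 0) fun i j => by
    split_ifs with a
    · subst a; exact hb i 0 0
    · exact hD.orthogonal i j a _ (b i 0).2 _ (b j 0).2
  exact ⟨B, h1, cjP_dec hD.decomp fun i => h2 i ▸ (b i 0).2⟩

theorem five_u (hr : r.Prime) (ho : Odd r) (h : Fintype.card F = Nat.card F₀ ^ r) :
    ∃ q₀, 2 ≤ q₀ ∧ Nat.card F₀ = q₀ ^ 2 ∧ q = q₀ ^ r ∧ q₀ ^ 3 ≤ q := by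
  obtain ⟨n, a, b⟩ := sq_of ho (hF.symm.trans h) Nat.card_pos.ne'
  have c : 1 < Nat.card F₀ := Finite.one_lt_card
  have d : 2 ≤ n := by by_contra! e; interval_cases n <;> omega
  exact ⟨n, d, a, b, b ▸ Nat.pow_le_pow_right (by omega) (by have := hr.two_le; obtain ⟨k, rfl⟩ := ho; omega)⟩

end

/-! ### the orthogonal group -/

theorem card_orth (h2 : (2 : F) ≠ 0) (Φ : Frm (Fin 5) (RingHom.id F)) (h1 : Φ.ε = 1) :
    Fintype.card F ^ 4 ∣ Nat.card Φ.iso := by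
  obtain ⟨c, hc, h⟩ := H12.quad_iso_qOdd h2 (Φ.quad_nondeg h1 h2) (m := 2) (by simp)
  obtain ⟨e⟩ := h.isom_equiv
  have h3 : (H12.CForm.ofQuad (c • H11.qOdd 2 F)).isom = (H12.CForm.ofQuad (H11.qOdd 2 F)).isom := by
    ext g; simp [H12.CForm.mem_isom_ofQuad, hc]
  have h4 := H11.card_O_odd h2 2
  rw [← H11.coe_qOdd, Nat.card_congr (H11.isometryEquivIsom _).toEquiv, ← h3,
    ← Nat.card_congr e.toEquiv, ← Nat.card_congr (H11.subgroupGLEquiv Φ.iso _ fun g =>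
      ⟨fun h => H12.CForm.mem_isom_ofQuad.2 fun u => h u u, fun h u v => mul_left_cancel₀ h2
        (by rw [← Φ.polar_diag h1, ← Φ.polar_diag h1]; exact h.1 u v)⟩).toEquiv] at h4
  exact h4 ▸ (dvd_mul_left _ 2).mul_right _

theorem eq_one_of_pow {G : Type*} [Monoid G] {x : G} {n : ℕ} (h1 : x ^ Fintype.card F ^ 4 = 1)
    (h2 : x ^ (Fintype.card F ^ (n + 1) - 1) = 1) : x = 1 :=
  (pow_eq_one_iff_of_coprime (((Nat.coprime_self_sub_right (Nat.one_le_pow _ _ Fintype.card_pos)).2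
    (Nat.coprime_one_right _)).of_dvd_left (dvd_pow_self _ n.succ_ne_zero) |>.pow_left 4)).1 ⟨h1, h2⟩

theorem so_U0 (h2 : (2 : F) ≠ 0) :
    ∃ U ≤ SI (σ := .id F) fun _ => rfl, Nat.card U = Fintype.card F ^ 4 := by
  obtain ⟨p, hp, n, a, b⟩ := FiniteField.card' F
  haveI := Fact.mk a
  have := card_orth h2 (Frm.one _ fun _ => rfl) rfl
  rw [b, ← pow_mul] at this
  obtain ⟨U, hU⟩ := Sylow.exists_subgroup_card_pow_prime p this
  rw [pow_mul, ← b] at hU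
  refine ⟨U.map (Subgroup.subtype _), ?_, (Subgroup.card_map_of_injective Subtype.val_injective).trans hU⟩
  rintro _ ⟨x, hx, rfl⟩
  refine ⟨x.2, mem_SL.2 (eq_one_of_pow (F := F) (n := 0) ?_ (by
    simpa using FiniteField.pow_card_sub_one_eq_one _ x.1.det_ne_zero))⟩
  rw [← det_pow, ← Units.val_pow_eq_pow_val, ← map_pow, ← hU,
    show x ^ Nat.card U = 1 from congrArg Subtype.val (pow_card_eq_one' (x := (⟨x, hx⟩ : U))), map_one, Units.val_one, det_one]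

omit [Fintype F] in
/-- a form of maximal Witt index -/
def ΦJ : Frm (Fin 5) (.id F) where
  σσ _ := rfl
  G := pm (Equiv.swap 0 1)
  ε := 1
  herm := by ext i j; fin_cases i <;> fin_cases j <;> simp [pm, monoU, mono, Equiv.swap_apply_def]

omit [Fintype F] in
theorem do_mem (a : Fˣ) : dg ![a, a⁻¹, 1, 1, 1] ∈ (ΦJ.iso ⊓ SL5 : Subgroup (G5 F)) :=
  ⟨(Frm.mem_iso _).2 fun u v => by
    simp [Frm.f, fG, ΦJ, dg_mulVec, pm_mulVec, dotProduct, Fin.sum_univ_five, Equiv.swap_apply_def]; field_simp,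
    dg_mem (by simp [Fin.prod_univ_five])⟩

omit [Fintype F]

section
variable {K : Type*} [Field K] [Fintype K] (h2 : (2 : K) ≠ 0) (ι : K →+* F)
  (hM : (SI (σ := .id K) fun _ => rfl).map (emb ι 1) ≤ M)
include h2 hM

theorem so_D (a : Kˣ) : ∃ x ∈ M, x.val.det = 1 ∧ T x = ι (3 + a + (a : K)⁻¹) ∧ T x⁻¹ = T x := by
  obtain ⟨B, hB⟩ := Frm.odd_similar h2 (by decide) ΦJ (Frm.one (Fin 5) fun _ => rfl) rfl rfl
  have e : B * _ * B⁻¹ ∈ SI (σ := .id K) fun _ => rfl := mem_cjP.1 (by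
    rw [SI, cjP_inf, cjP_iso hB, cjP_SL]; exact do_mem a)
  refine ⟨_, hM ⟨_, e, rfl⟩, ?_, ?_, ?_⟩
  · rw [det_emb, mem_SL.1 e.2, map_one]
  · rw [T_emb, T_conj]; congr 1; simp [T_dg]; ring
  · rw [← map_inv, T_emb, T_emb, T_iso e.1]; rfl

theorem so_U : ∃ U ≤ M, Nat.card U = Fintype.card K ^ 4 := by
  obtain ⟨U, a, b⟩ := so_U0 h2
  exact ⟨_, (Subgroup.map_mono a).trans hM, (Subgroup.card_map_of_injective (emb_injective _ _)).trans b⟩

theorem so_dec [Fintype F] {n : ℕ} (hF : Fintype.card F = Fintype.card K ^ (n + 1)) {D : Fin 5 → Submodule F (Fin 5 → F)}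
    (hD : IsMDecomposition 1 D) : ¬ M ≤ decompositionStabilizer D := fun e => by
  obtain ⟨U, a, b⟩ := so_U h2 ι hM
  have c := b ▸ dec_card hD (a.trans e) fun x hx h => eq_one_of_pow (F := K)
    (b ▸ congrArg Subtype.val (pow_card_eq_one' (x := (⟨x, hx⟩ : U)))) (hF ▸ h)
  have d := Nat.le_of_dvd (by norm_num) c
  have := Fintype.one_lt_card (α := K)
  have : Fintype.card K < 4 := lt_of_pow_lt_pow_left₀ 4 (by norm_num) (d.trans_lt (by norm_num))
  interval_cases Fintype.card K <;> omega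

end

end H11.G5
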