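import Cfsg.Agent.H11.G5b

/-! The extraspecial group of order 125 in `SL₅` and its normalizer. -/

set_option autoImplicit false
set_option linter.style.haveILetI false
set_option linter.unusedSectionVars false

namespace H11.G5

open Matrix Cfsg Cfsg.Geo H27.Asch Module H27 H4
open scoped commutatorElement MatrixGroups

variable {F : Type*} [Field F] {q : ℕ} {H M R S : Subgroup (G5 F)} {x y g u B : G5 F} {σ : F →+* F} {ω : Fˣ}

local notation "𝐬" => sc (Fin 5)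
local notation "SL5" => specialLinear (Fin 5) F
local notation "π" => QuotientGroup.mk' (scalars (Fin 5) F)

/-- `a` and `b` commute up to the scalar `c` -/
def Cm (a b : G5 F) (c : Fˣ) : Prop := a * b = 𝐬 c * (b * a)

theorem Cm.mul {a a' b : G5 F} {c c' : Fˣ} (h : Cm a b c) (h' : Cm a' b c') : Cm (a * a') b (c * c') := by
  rw [Cm, mul_assoc, h', ← mul_assoc, ← sc_comm, mul_assoc, ← mul_assoc a, h, mul_comm c, map_mul]
  simp only [mul_assoc]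

theorem cm_one {a b : G5 F} : Cm a b 1 ↔ a * b = b * a := by simp [Cm]

theorem Cm.pow {a b : G5 F} {c : Fˣ} (h : Cm a b c) (n : ℕ) : Cm (a ^ n) b (c ^ n) := by
  induction n with
  | zero => simp [Cm]
  | succ n ih => rw [pow_succ, pow_succ]; exact ih.mul h

theorem Cm.symm {a b : G5 F} {c : Fˣ} (h : Cm a b c) : Cm b a c⁻¹ := by
  rw [Cm, h, map_inv, inv_mul_cancel_left]

theorem Cm.uniq {a b : G5 F} {c d : Fˣ} (h : Cm a b c) (h' : Cm a b d) : c = d :=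
  sc_injective (mul_right_cancel (Eq.trans (Eq.symm h) h'))

theorem Cm.conj {a b : G5 F} {c : Fˣ} (h : Cm a b c) (g : G5 F) : Cm (g * a * g⁻¹) (g * b * g⁻¹) c := by
  have : g * (a * b) * g⁻¹ = _ := congrArg (g * · * g⁻¹) h
  rw [conj_sc_mul] at this
  rw [Cm, conj_mul, conj_mul, this]

theorem Cm.pp (h : Cm x y ω) (a b c d : ℕ) :
    Cm (x ^ a * y ^ b) (x ^ c * y ^ d) (ω ^ (a * d) * (ω ^ (b * c))⁻¹) := by
  have h1 : Cm (x ^ c * y ^ d) x (1 ^ c * ω⁻¹ ^ d) := ((cm_one.2 rfl).pow c).mul (h.symm.pow d)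
  have h2 : Cm (x ^ c * y ^ d) y (ω ^ c * 1 ^ d) := (h.pow c).mul ((cm_one.2 rfl).pow d)
  convert (h1.symm.pow a).mul (h2.symm.pow b) using 1
  simp [← pow_mul, mul_comm]

theorem cm_iff {c : Fˣ} : Cm x y c ↔ ⁅x, y⁆ = 𝐬 c := by
  rw [Cm, commutatorElement_def, mul_inv_eq_iff_eq_mul, mul_inv_eq_iff_eq_mul, mul_assoc]

theorem Cm.five {c : Fˣ} (h : Cm x y c) : c ^ 5 = 1 := Units.ext (by
  rw [Units.val_pow_eq_pow_val, ← det_sc, ← cm_iff.1 h]
  exact mem_SL.1 (show GeneralLinearGroup.det ⁅x, y⁆ = 1 by simp [commutatorElement_eq_one_iff_mul_comm, mul_comm]))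

theorem π_eq : π x = π y ↔ ∃ c, x = 𝐬 c * y := by
  rw [QuotientGroup.mk'_apply, QuotientGroup.mk'_apply, eq_comm, QuotientGroup.eq]
  exact ⟨fun h => (exists_sc h).imp fun c e => by rw [sc_comm, ← e, mul_inv_cancel_left],
    fun ⟨c, e⟩ => by rw [e, sc_comm, inv_mul_cancel_left]; exact sc_mem c⟩

theorem Cm.of_π {x' y' : G5 F} {c : Fˣ} (h : Cm x y c) (h1 : π x' = π x) (h2 : π y' = π y) : Cm x' y' c := by
  obtain ⟨a, rfl⟩ := π_eq.1 h1
  obtain ⟨b, rfl⟩ := π_eq.1 h2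
  rw [Cm, sc_mul_mul, sc_mul_mul, h, mul_comm b, ← mul_assoc, ← mul_assoc (𝐬 c), ← map_mul, ← map_mul, mul_comm c]

theorem ord5 (h5 : ω ^ 5 = 1) (h1 : ω ≠ 1) : orderOf ω = 5 :=
  haveI := Fact.mk Nat.prime_five
  orderOf_eq_prime h5 h1

theorem root5 (h1 : ω ≠ 1) (h5 : ω ^ 5 = 1) {c : Fˣ} (hc : c ^ 5 = 1) : ∃ a, c = ω ^ a := by
  obtain ⟨i, -, e⟩ := (ord5 h5 h1 ▸ IsPrimitiveRoot.orderOf ω).eq_pow_of_mem_rootsOfUnity ((mem_rootsOfUnity 5 c).2 hc)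
  exact ⟨i, e.symm⟩

/-- cyclic shift -/
def X5 : G5 F := pm (finRotate 5)
/-- clock matrix -/
def Y5 (ω : Fˣ) : G5 F := dg fun i => ω ^ i.1
/-- a diagonal element of the normalizer -/
def E5 (ω : Fˣ) : G5 F := dg fun i => ω ^ i.1 ^ 2
/-- the permutation `i ↦ -i` -/
def t5 : Equiv.Perm (Fin 5) := Equiv.swap 1 4 * Equiv.swap 2 3
/-- monomial matrices with entries powers of `ω` -/
def mw (ω : Fˣ) (e : Fin 5 → ℕ) (s : Equiv.Perm (Fin 5)) : G5 F := monoU (fun i => ω ^ e i) s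

theorem mw_mul (e e' : Fin 5 → ℕ) (s s' : Equiv.Perm (Fin 5)) :
    mw ω e s * mw ω e' s' = mw ω (fun j => e (s' j) + e' j) (s * s') := by
  simp only [mw, monoU_mul, pow_add]

theorem pm_mw (ω : Fˣ) (s : Equiv.Perm (Fin 5)) : pm s = mw ω 0 s := congrArg (monoU · s) (funext fun _ => (pow_zero ω).symm)
theorem sc_mw : 𝐬 ω = mw ω 1 1 := (sc_eq_dg ω).trans (congrArg (monoU · 1) (funext fun _ => (pow_one ω).symm))
theorem Y5_mw : Y5 ω = mw ω (·.1) 1 := rfl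
theorem E5_mw : E5 ω = mw ω (·.1 ^ 2) 1 := rfl

/-- the Heisenberg group -/
def R0 (ω : Fˣ) : Subgroup (G5 F) := Subgroup.closure {X5, Y5 ω}

theorem X5_R0 : X5 ∈ R0 ω := Subgroup.subset_closure (.inl rfl)
theorem Y5_R0 : Y5 ω ∈ R0 ω := Subgroup.subset_closure (.inr rfl)
theorem R0_le (h1 : X5 ∈ M) (h2 : Y5 ω ∈ M) : R0 ω ≤ M := by simp [R0, Set.insert_subset_iff, h1, h2]

theorem X5_pow : (X5 : G5 F) ^ 5 = 1 := by rw [X5, ← map_pow, show finRotate 5 ^ 5 = 1 by decide, map_one]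

theorem t5_X : pm t5 * X5 * (pm t5)⁻¹ = (X5 : G5 F)⁻¹ := by
  rw [X5, ← map_inv, ← map_inv, ← map_mul, ← map_mul]; exact congrArg _ (by decide)

theorem E5_Y : E5 ω * Y5 ω * (E5 ω)⁻¹ = Y5 ω := by rw [E5, Y5, ← map_inv, ← map_mul, ← map_mul, mul_inv_cancel_comm]

section
variable (h5 : ω ^ 5 = 1)
include h5

theorem mw_congr {e e' : Fin 5 → ℕ} {s s' : Equiv.Perm (Fin 5)} (h : (∀ i, e i % 5 = e' i % 5) ∧ s = s') :
    mw ω e s = mw ω e' s' := by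
  rw [mw, mw, h.2]; congr 1; ext1 i; rw [pow_eq_pow_mod _ h5, h.1, ← pow_eq_pow_mod _ h5]

theorem Y5_pow : Y5 ω ^ 5 = 1 := by
  rw [Y5, ← map_pow, ← map_one dg]; congr 1; ext1 i; rw [Pi.pow_apply, ← pow_mul, mul_comm, pow_mul, h5, one_pow]; rfl

theorem cm_YX : Cm (Y5 ω) X5 ω := by
  simp only [Cm, X5, pm_mw ω, sc_mw, Y5_mw, mw_mul]; exact mw_congr h5 (by decide)

theorem t5_Y : pm t5 * Y5 ω * (pm t5)⁻¹ = (Y5 ω)⁻¹ := by
  rw [eq_inv_iff_mul_eq_one, ← map_inv, ← map_one pm]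
  simp only [pm_mw ω, Y5_mw, mw_mul]; exact mw_congr h5 (by decide)

theorem E5_X : E5 ω * X5 * (E5 ω)⁻¹ = 𝐬 ω * (Y5 ω ^ 2 * X5) * 𝐬 ω ^ 3 := by
  rw [mul_inv_eq_iff_eq_mul]
  simp only [pow_succ, pow_zero, one_mul, X5, pm_mw ω, sc_mw, Y5_mw, E5_mw, mw_mul]; exact mw_congr h5 (by decide)

theorem sc_R0 : 𝐬 ω ∈ R0 ω :=
  cm_iff.1 (cm_YX h5) ▸ Subgroup.commutator_le_self _ (Subgroup.commutator_mem_commutator Y5_R0 X5_R0)

theorem Has.R0 (h : Has S (.zpowers ω)) : R0 ω ≤ S :=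
  R0_le (h.pm _ (by decide)) (h.dg _ (fun _ => pow_mem (Subgroup.mem_zpowers ω) _) (by
    rw [Finset.prod_pow_eq_pow_sum, show ∑ i : Fin 5, i.1 = 5 * 2 by decide, pow_mul, h5, one_pow]))

theorem Has.E5 (h : Has S (.zpowers ω)) : E5 ω ∈ S :=
  h.dg _ (fun _ => pow_mem (Subgroup.mem_zpowers ω) _) (by
    rw [Finset.prod_pow_eq_pow_sum, show ∑ i : Fin 5, i.1 ^ 2 = 5 * 6 by decide, pow_mul, h5, one_pow])

/-- coordinates on `R₀ / Z` -/
def eb : Multiplicative (Fin 2 → ZMod 5) →* G5 F ⧸ scalars (Fin 5) F :=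
  .mk' (fun v => π (Y5 ω ^ (v.toAdd 0).val * X5 ^ (v.toAdd 1).val)) fun v w => by
    have : Commute (π X5) (π (Y5 ω)) := by rw [Commute, SemiconjBy, ← map_mul, ← map_mul, eq_comm, π_eq]; exact ⟨ω, cm_YX h5⟩
    simp only [toAdd_mul, Pi.add_apply, ZMod.val_add, ← pow_eq_pow_mod _ X5_pow, ← pow_eq_pow_mod _ (Y5_pow h5),
      pow_add, map_mul, map_pow]
    exact (this.symm.pow_pow _ _).mul_mul_mul_comm ..

theorem eb_apply (v : Fin 2 → ZMod 5) : eb h5 (.ofAdd v) = π (Y5 ω ^ (v 0).val * X5 ^ (v 1).val) := rfl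

theorem eb_Y : π (Y5 ω) = eb h5 (.ofAdd ![1, 0]) := congrArg π (by simp [show (1 : ZMod 5).val = 1 from rfl])
theorem eb_X : π X5 = eb h5 (.ofAdd ![0, 1]) := congrArg π (by simp [show (1 : ZMod 5).val = 1 from rfl])

theorem eb_of_mem (h : x ∈ R0 ω) : ∃ v, π x = eb h5 (.ofAdd v) :=
  (R0_le (M := (eb h5).range.comap π) ⟨_, (eb_X h5).symm⟩ ⟨_, (eb_Y h5).symm⟩ h).elim fun _ e => ⟨_, e.symm⟩

/-- `g` induces the matrix `A` on `R₀ / Z` -/
def Act (g : G5 F) (A : Matrix (Fin 2) (Fin 2) (ZMod 5)) : Prop :=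
  ∀ v, π g * eb h5 (.ofAdd v) * (π g)⁻¹ = eb h5 (.ofAdd (A *ᵥ v))

variable {h5} {A C : Matrix (Fin 2) (Fin 2) (ZMod 5)}

theorem act_of {v w : Fin 2 → ZMod 5} (h1 : π (g * Y5 ω * g⁻¹) = eb h5 (.ofAdd v)) (h2 : π (g * X5 * g⁻¹) = eb h5 (.ofAdd w)) :
    Act h5 g !![v 0, w 0; v 1, w 1] := fun z => by
  rw [eb_apply, ← map_inv, ← map_mul, ← map_mul, ← conj_mul, ← conj_pow, ← conj_pow, map_mul, map_pow, map_pow, h1, h2,
    ← map_pow (eb h5), ← map_pow (eb h5), ← map_mul, ← ofAdd_nsmul, ← ofAdd_nsmul, ← ofAdd_add]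
  congr 2; rw [← Nat.cast_smul_eq_nsmul (ZMod 5), ← Nat.cast_smul_eq_nsmul (ZMod 5)]
  ext i; fin_cases i <;> simp [vecHead, vecTail] <;> ring

theorem Act.mul (h : Act h5 g A) (h' : Act h5 u C) : Act h5 (g * u) (A * C) := fun v => by
  rw [← mulVec_mulVec, ← h, ← h', map_mul]; group

theorem Act.pow (h : Act h5 g A) (n : ℕ) : Act h5 (g ^ n) (A ^ n) := by
  induction n with
  | zero => intro v; simp
  | succ n ih => rw [pow_succ, pow_succ]; exact ih.mul h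

variable (h1 : ω ≠ 1)
include h1

omit h5 in
theorem alg_R0 (h5 : ω ^ 5 = 1) : alg (R0 ω) = ⊤ := by
  refine eq_top_of_mono (fun i j e => ⟨_, dg_val (F := F) _ ▸ mem_alg Y5_R0, fun a => e (Fin.ext ?_)⟩) fun i j => ?_
  · exact pow_injOn_Iio_orderOf (by simp [ord5 h5 h1]) (by simp [ord5 h5 h1]) (Units.ext a)
  · obtain ⟨n, e⟩ := (by decide : ∀ i j : Fin 5, ∃ n : Fin 5, (finRotate 5 ^ n.1) j = i) i j
    exact ⟨1, _, mem_alg (x := pm _) (by rw [map_pow]; exact pow_mem X5_R0 n), e⟩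

theorem eb_det {v w : Fin 2 → ZMod 5} {n : ℕ} (hx : π x = eb h5 (.ofAdd v)) (hy : π y = eb h5 (.ofAdd w))
    (h : Cm x y (ω ^ n)) : v 0 * w 1 - w 0 * v 1 = n := by
  have := (((cm_YX h5).pp _ _ _ _).of_π hx hy).uniq h
  rw [mul_inv_eq_iff_eq_mul, ← pow_add, pow_eq_pow_iff_modEq, ord5 h5 h1, ← ZMod.natCast_eq_natCast_iff] at this
  simpa [sub_eq_iff_eq_add, mul_comm] using this

theorem eb_inj {v w : Fin 2 → ZMod 5} (h : eb h5 (.ofAdd v) = eb h5 (.ofAdd w)) : v = w := by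
  refine Multiplicative.ofAdd.injective ((injective_iff_map_eq_one _).2 (fun z e => ?_) h)
  have a := fun w => eb_det h1 (v := z.toAdd) (n := 0) (e.symm ▸ map_one π) (eb_apply h5 w).symm (by simp [Cm])
  ext i; fin_cases i
  exacts [by simpa using a ![0, 1], by simpa using a ![1, 0]]

omit h5 in
theorem triv_of (h5 : ω ^ 5 = 1) {c d : Fˣ} (c2 : Cm g (Y5 ω) c) (d2 : Cm g X5 d) : ∃ c a b, g = 𝐬 c * (Y5 ω ^ a * X5 ^ b) := by
  obtain ⟨j, rfl⟩ := root5 h1 h5 c2.five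
  obtain ⟨i, rfl⟩ := root5 h1 h5 d2.five
  have e := cm_YX h5
  have a1 := (c2.mul (e.symm.pow j)).mul ((cm_one.2 rfl : Cm (Y5 ω) _ 1).pow (4 * i))
  have a2 := (d2.mul ((cm_one.2 rfl : Cm X5 _ 1).pow j)).mul (e.pow (4 * i))
  rw [one_pow, mul_one, inv_pow, mul_inv_cancel, cm_one] at a1
  rw [one_pow, mul_one, ← pow_add, show i + 4 * i = 5 * i by ring, pow_mul ω, h5, one_pow, cm_one] at a2
  obtain ⟨c, e⟩ := exists_sc (mem_scalars_of_comm (alg_R0 h1 h5) fun y hy => (Subgroup.mem_centralizer_singleton_iff.1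
    (R0_le (Subgroup.mem_centralizer_singleton_iff.2 a2.symm) (Subgroup.mem_centralizer_singleton_iff.2 a1.symm) hy)).symm)
  refine ⟨c, i, 4 * j, ?_⟩
  rw [← e, mul_assoc, ← mul_assoc (Y5 ω ^ _), ← pow_add, show 4 * i + i = 5 * i by ring, pow_mul, Y5_pow h5, one_pow, one_mul,
    mul_assoc, ← pow_add, show j + 4 * j = 5 * j by ring, pow_mul, X5_pow, one_pow, mul_one]

theorem Act.five (h : Act h5 g 1) : g ^ 5 ∈ scalars _ F := by
  have k : ∀ v y, π y = eb h5 (.ofAdd v) → ∃ c, Cm g y c := fun v y e => by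
    have := h v
    rw [one_mulVec, ← e, mul_inv_eq_iff_eq_mul, ← map_mul, ← map_mul] at this
    exact π_eq.1 this
  obtain ⟨c, c2⟩ := k _ _ (eb_Y h5)
  obtain ⟨d, d2⟩ := k _ _ (eb_X h5)
  obtain ⟨c, a, b, e⟩ := triv_of h1 h5 c2 d2
  obtain ⟨v, e'⟩ := eb_of_mem h5 (mul_mem (pow_mem Y5_R0 a) (pow_mem X5_R0 b))
  rw [← QuotientGroup.eq_one_iff, ← QuotientGroup.mk'_apply, map_pow, π_eq.2 ⟨c, e⟩, e', ← map_pow, ← ofAdd_nsmul,
    ← map_one (eb h5)]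
  congr 2; ext i; simp [show (5 : ZMod 5) = 0 from rfl]

variable (h5) in
theorem act_ex (hg : g ∈ subgroupNormalizer (R0 ω)) : ∃ A, A.det = 1 ∧ Act h5 g A := by
  obtain ⟨v, a⟩ := eb_of_mem h5 ((hg _).1 Y5_R0)
  obtain ⟨w, b⟩ := eb_of_mem h5 ((hg _).1 X5_R0)
  exact ⟨_, by simpa using eb_det h1 (n := 1) a b (by simpa using (cm_YX h5).conj g), act_of a b⟩

theorem Act.invol (h : Act h5 g A) (hA : A.det = 1) (hg : g * g = 1) : g ∈ scalars _ F ∨ A = -1 := by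
  have a : A * A = 1 := toLin'.injective (LinearMap.ext fun v => eb_inj h1 (by
    rw [toLin'_apply, ← h.mul h, hg]; simp))
  refine ((by decide +kernel : ∀ a b c d : ZMod 5, !![a, b; c, d].det = 1 → !![a, b; c, d] * !![a, b; c, d] = 1 →
    !![a, b; c, d] = 1 ∨ !![a, b; c, d] = -1) _ _ _ _ (eta_fin_two A ▸ hA) (eta_fin_two A ▸ a)).imp (fun e => ?_) (eta_fin_two A).trans
  have b := Act.five h1 (((eta_fin_two A).trans e) ▸ h)
  rwa [pow_succ, show 4 = 2 * 2 from rfl, pow_mul, sq g, hg, one_pow, one_mul] at b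

omit h5 in
theorem R0_eq (h5 : ω ^ 5 = 1) (hX : X5 ∈ R) (hY : Y5 ω ∈ R) (he : ∀ r ∈ R, r ^ 5 = 1)
    (hc : ∀ r ∈ R, ∀ s ∈ R, ⁅r, s⁆ ∈ scalars _ F) : R = R0 ω := by
  refine le_antisymm (fun r hr => ?_) (R0_le hX hY)
  obtain ⟨c, c2⟩ := exists_sc (hc r hr _ hY)
  obtain ⟨d, d2⟩ := exists_sc (hc r hr _ hX)
  obtain ⟨c, a, b, rfl⟩ := triv_of h1 h5 (cm_iff.2 c2) (cm_iff.2 d2)
  have := he _ ((R.mul_mem_cancel_right (mul_mem (pow_mem hY a) (pow_mem hX b))).1 hr)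
  rw [← map_pow] at this
  obtain ⟨n, rfl⟩ := root5 h1 h5 (sc_eq_one this)
  exact mul_mem (map_pow 𝐬 ω n ▸ pow_mem (sc_R0 h5) n) (mul_mem (pow_mem Y5_R0 a) (pow_mem X5_R0 b))

omit h5 in
theorem R0_congr (h5 : ω ^ 5 = 1) {ω' : Fˣ} (h1' : ω' ≠ 1) (h5' : ω' ^ 5 = 1) : R0 ω' = R0 ω := by
  have : ∀ {a b : Fˣ}, a ≠ 1 → a ^ 5 = 1 → b ^ 5 = 1 → R0 b ≤ R0 a := fun {a} _ h1 h2 h3 => by
    obtain ⟨i, rfl⟩ := root5 h1 h2 h3
    refine R0_le X5_R0 ?_
    convert pow_mem (Y5_R0 (ω := a)) i using 1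
    rw [Y5, Y5, ← map_pow]; congr 1; ext1 j; rw [Pi.pow_apply, ← pow_mul, ← pow_mul, mul_comm]
  exact (this h1 h5 h5').antisymm (this h1' h5' h5)

omit h5 in
theorem E5_comm (h5 : ω ^ 5 = 1) : X5 * (E5 ω * X5 * (E5 ω)⁻¹) ≠ E5 ω * X5 * (E5 ω)⁻¹ * X5 := fun e => by
  have a := ((cm_YX h5).pp 2 1 0 1).of_π (x' := E5 ω * X5 * (E5 ω)⁻¹) (y' := X5) (π_eq.2 ⟨ω * ω ^ 3, by
    rw [E5_X h5, ← map_pow, ← sc_comm, ← mul_assoc, ← map_mul, mul_comm _ ω, pow_one]⟩) (by simp)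
  have b := orderOf_dvd_of_pow_eq_one (by simpa using a.uniq (cm_one.2 e.symm) : ω ^ 2 = 1)
  rw [ord5 h5 h1] at b
  omega

variable [Finite F]

omit h5 h1 in
theorem mem_norm (hY : g * Y5 ω * g⁻¹ ∈ R0 ω) (hX : g * X5 * g⁻¹ ∈ R0 ω) : g ∈ subgroupNormalizer (R0 ω) :=
  Subgroup.mem_normalizer_fintype fun _ h => R0_le (M := cjP g (R0 ω)) hX hY h

omit h5 h1 in
theorem E5_norm (h5 : ω ^ 5 = 1) : E5 ω ∈ subgroupNormalizer (R0 ω) :=
  mem_norm (E5_Y (ω := ω).symm ▸ Y5_R0) (E5_X h5 ▸ mul_mem (mul_mem (sc_R0 h5) (mul_mem (pow_mem Y5_R0 2) X5_R0))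
    (pow_mem (sc_R0 h5) 3))

omit h5 h1 in
theorem t5_norm (h5 : ω ^ 5 = 1) : pm t5 ∈ subgroupNormalizer (R0 ω) :=
  mem_norm (t5_Y h5 ▸ inv_mem Y5_R0) (t5_X (F := F) ▸ inv_mem X5_R0)

end

/-- absolutely irreducible groups of order 125 -/
structure C6 (R : Subgroup (G5 F)) : Prop where
  E : EData 5 R
  exp : ∀ x ∈ R, x ^ 5 = 1

open Subgroup in
theorem c6_of [Finite F] (h : IsSymplecticTypeGroup 5 R) (hi : ActsAbsolutelyIrreducibly (matrixSet R)) : C6 R := by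
  have ha := C6.alg_of_abs hi
  have he : ∀ x ∈ R, x ^ 5 = 1 := fun x hx =>
    congrArg Subtype.val (show (⟨x, hx⟩ : R) ^ 5 = 1 from Monoid.exponent_dvd_iff_forall_pow_eq_one.1 h.exponent_eq.dvd _)
  haveI := Fact.mk Nat.prime_five
  obtain ⟨E, C, h1, h2, h3, h5⟩ := H4.hall_symplectic h.pGroup h.cyclic_of_characteristic
  have hC : IsCyclic C := h5.resolve_right fun e => absurd e.1 (by decide)
  have cC : C ≤ center R := fun c hc => mem_center_iff.2 fun g => (mem_centralizer_singleton_iff.1 (show g ∈ _ from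
    (h2.ge.trans (sup_le (fun e he => mem_centralizer_singleton_iff.2 (h1 e he c hc)) fun d hd =>
      mem_centralizer_singleton_iff.2 (congrArg Subtype.val (IsCyclic.commGroup.mul_comm (⟨d, hd⟩ : C) ⟨c, hc⟩))))
      (mem_top g)))
  have cE : ∀ e : E, e ∈ center E → e.1 ∈ center R := fun e he => mem_center_iff.2 fun g =>
    (mem_centralizer_singleton_iff.1 (show g ∈ _ from (h2.ge.trans (sup_le (fun d hd => mem_centralizer_singleton_iff.2
      (congrArg Subtype.val (mem_center_iff.1 he ⟨d, hd⟩))) fun d hd =>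
        mem_centralizer_singleton_iff.2 (h1 _ e.2 d hd).symm)) (mem_top g)))
  have k : ∀ e ∈ E, ∀ d ∈ E, ⁅e, d⁆ ∈ center R := fun e he => by
    rcases h3 with rfl | h3
    · obtain rfl := mem_bot.1 he
      simp
    · exact fun d hd => cE ⁅(⟨e, he⟩ : E), ⟨d, hd⟩⁆ (h3.1.2.2.le (commutator_mem_commutator (mem_top _) (mem_top _)))
  haveI : C.Normal := ⟨fun c hc g => by rwa [mem_center_iff.1 (cC hc), mul_inv_cancel_right]⟩
  have dec : ∀ x : R, ∃ e ∈ E, ∃ c ∈ C, e * c = x := fun x => mem_sup_of_normal_right.1 (h2.ge (mem_top x))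
  rw [center_eq ha] at k cC
  refine ⟨⟨by simp, Nat.prime_five, ha, fun x hx y hy => ?_, fun x hx => he x hx ▸ one_mem _⟩, he⟩
  obtain ⟨e, he, c, hc, rfl⟩ := dec ⟨x, hx⟩ |>.imp fun e h => h.imp_right fun h => h.imp fun c h =>
    h.imp_right (congrArg Subtype.val)
  obtain ⟨d, hd, c', hc', rfl⟩ := dec ⟨y, hy⟩ |>.imp fun e h => h.imp_right fun h => h.imp fun c h =>
    h.imp_right (congrArg Subtype.val)
  convert (show ⁅e.1, d.1⁆ ∈ scalars _ F from k e he d hd) using 1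
  simp only [coe_mul, commutatorElement_def, _root_.mul_inv_rev]
  rw [mul_assoc e.1, scalars_comm (g := c.1) (cC hc)]
  simp only [mul_assoc, mul_inv_cancel_left]
  rw [← mul_assoc c'.1, scalars_comm (g := c'.1) (cC hc')]
  group

theorem conj_of_cols {a : G5 F} (h : ∀ i, x.val *ᵥ B.val *ᵥ Pi.single i 1 = B.val *ᵥ a.val *ᵥ Pi.single i 1) :
    B⁻¹ * x * B = a := by
  rw [mul_assoc, inv_mul_eq_iff_eq_mul]
  refine Units.ext (Matrix.ext fun i j => ?_)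
  have := congrFun (h j) i
  rw [mulVec_mulVec, mulVec_mulVec, mulVec_single_one, mulVec_single_one] at this
  exact this

namespace C6
variable (h : C6 R)
include h

theorem nf (hx : x ∈ R) (h0 : x ∉ scalars _ F) :
    ∃ (ω : Fˣ) (B : G5 F), ω ≠ 1 ∧ ω ^ 5 = 1 ∧ B⁻¹ * x * B = X5 ∧ cjP B R = R0 ω := by
  obtain ⟨y, hy, hxy⟩ : ∃ y ∈ R, x * y ≠ y * x := by
    by_contra! e
    exact h0 (mem_scalars_of_comm h.E.top e)
  obtain ⟨ω, e, h5, h1⟩ := h.E.exists_comm hy hx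
  replace h1 : ω ≠ 1 := fun a => hxy (h1 a).symm
  replace e := cm_iff.2 e
  have t : ∀ n, 0 < n → n < 5 → (y ^ n).val.trace = 0 := fun n a b => h.E.trace_eq_zero (pow_mem hy n) fun c =>
    absurd (orderOf_dvd_of_pow_eq_one ((e.pow n).uniq (cm_one.2 (scalars_comm c x)))) (by
      rw [ord5 h5 h1]; exact Nat.not_dvd_of_pos_of_lt a b)
  obtain ⟨u, hu⟩ : ∃ u, (1 + y.val + (y ^ 2).val + (y ^ 3).val + (y ^ 4).val) *ᵥ u ≠ 0 := by
    by_contra! a
    have := congrArg trace (ext_mulVec (b := 0) fun u => (a u).trans (zero_mulVec u).symm)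
    simp only [trace_add, t 2 two_pos (by decide), t 3 (by decide) (by decide), t 4 (by decide) (by decide),
      pow_one y ▸ t 1 one_pos (by decide), add_zero, trace_one, trace_zero] at this
    exact h.E.card_ne_zero this
  have hv : y.val *ᵥ (1 + y.val + (y ^ 2).val + (y ^ 3).val + (y ^ 4).val) *ᵥ u =
      (1 + y.val + (y ^ 2).val + (y ^ 3).val + (y ^ 4).val) *ᵥ u := by
    rw [mulVec_mulVec]
    simp only [mul_add, mul_one, ← Units.val_mul, ← pow_succ', ← sq y, h.exp y hy, Units.val_one]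
    congr 1; abel
  generalize (1 + y.val + (y ^ 2).val + (y ^ 3).val + (y ^ 4).val) *ᵥ u = v at hu hv
  have k : ∀ n, y.val *ᵥ (x ^ n).val *ᵥ v = (ω ^ n).1 • (x ^ n).val *ᵥ v := fun n => by
    have := (e.symm.pow n).symm
    rw [inv_pow, inv_inv] at this
    rw [mulVec_mulVec, ← Units.val_mul, this, Units.val_mul, Units.val_mul, sc_val, smul_mul_assoc, one_mul, smul_mulVec,
      ← mulVec_mulVec, hv]
  obtain ⟨B, hB⟩ := exists_basis (v := fun i => (x ^ i.1).val *ᵥ v) (End.eigenvectors_linearIndependent' (toLin' y.val)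
    (fun i : Fin 5 => (ω ^ i.1).1) (fun i j a => Fin.ext (pow_injOn_Iio_orderOf (by simp [ord5 h5 h1]) (by simp [ord5 h5 h1])
      (Units.ext a))) _ fun i => ⟨End.mem_eigenspace_iff.2 (by rw [toLin'_apply]; exact k i), (mulVec_eq_zero_iff _).not.2 hu⟩)
  have b1 : B⁻¹ * x * B = X5 := conj_of_cols fun i => by
    rw [show (X5 : G5 F).val *ᵥ Pi.single i 1 = Pi.single (finRotate 5 i) 1 by
      rw [X5, pm_mulVec]; ext j; simp only [Pi.single_apply, Equiv.Perm.inv_eq_iff_eq], hB, hB, mulVec_mulVec,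
      ← Units.val_mul, ← pow_succ', pow_eq_pow_mod _ (h.exp x hx)]
    fin_cases i <;> rfl
  have b2 : B⁻¹ * y * B = Y5 ω := conj_of_cols fun i => by
    rw [show (Y5 ω).val *ᵥ Pi.single i 1 = (ω ^ i.1).1 • Pi.single i 1 by
      rw [Y5, dg_mulVec]; ext j; by_cases a : j = i <;> simp [a], mulVec_smul, hB, k]
  refine ⟨ω, B, h1, h5, b1, R0_eq h1 h5 (b1 ▸ mem_cjP'.2 hx) (b2 ▸ mem_cjP'.2 hy) (fun r hr => ?_) fun r hr s hs => ?_⟩
  · simpa using h.exp _ hr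
  · convert scalars_normal.conj_mem _ (h.E.comm _ hr _ hs) B⁻¹ using 1
    simp [commutatorElement_def, mul_assoc]

theorem nf' : ∃ (ω : Fˣ) (B : G5 F), ω ≠ 1 ∧ ω ^ 5 = 1 ∧ cjP B R = R0 ω := by
  obtain ⟨x, hx, y, -, e⟩ := exists_noncomm h.E.two h.E.top
  obtain ⟨ω, B, a, b, -, c⟩ := h.nf hx fun a => e (scalars_comm a y)
  exact ⟨ω, B, a, b, c⟩

theorem pow (hg : g ∈ subgroupNormalizer R) (hd : g.val.det = 1) : g ^ 3000 = 1 := by
  obtain ⟨ω, B, h1, h5, e⟩ := h.nf'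
  obtain ⟨A, hA, a⟩ := act_ex h5 h1 (e ▸ cjP_norm B R ▸ mem_cjP'.2 hg)
  haveI := Fact.mk Nat.prime_five
  have b := a.pow 120
  have c := congrArg Subtype.val (pow_card_eq_one' (G := SL(2, ZMod 5)) (x := ⟨A, hA⟩))
  rw [H11.card_sl_two, ZMod.card] at c
  rw [show A ^ 120 = 1 from c] at b
  have := five_of_scalar (b.five h1) (det_pow' (det_pow' (det_cj hd) _) _)
  refine (MulAut.conj B⁻¹).injective ?_
  rwa [map_pow, map_one, show 3000 = 120 * 5 * 5 from rfl, pow_mul, pow_mul, MulAut.conj_apply, inv_inv]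

theorem four {s t : G5 F} (hs : s ∈ subgroupNormalizer R) (ht : t ∈ subgroupNormalizer R)
    (s2 : s * s = 1) (t2 : t * t = 1) (st : s * t * (s * t) = 1) :
    s ∈ scalars _ F ∨ t ∈ scalars _ F ∨ s * t ∈ scalars _ F := by
  obtain ⟨ω, B, h1, h5, e⟩ := h.nf'
  have k : ∀ {g A}, g * g = 1 → Act h5 (B⁻¹ * g * B) A → A.det = 1 → g ∈ scalars _ F ∨ A = -1 := fun b h hA =>
    (h.invol h1 hA (by rw [conj_mul'', b]; simp)).imp_left fun c => by
      simpa [mul_assoc] using scalars_normal.conj_mem _ c B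
  obtain ⟨A, hA, a⟩ := act_ex h5 h1 (e ▸ cjP_norm B R ▸ mem_cjP'.2 hs)
  obtain ⟨A', hA', a'⟩ := act_ex h5 h1 (e ▸ cjP_norm B R ▸ mem_cjP'.2 ht)
  refine (k s2 a hA).imp_right fun c => (k t2 a' hA').imp_right fun b => ?_
  exact (k st (conj_mul'' B s t ▸ a.mul a') (by simp [hA, hA'])).resolve_right (by rw [c, b]; decide)

theorem not_has {A : Subgroup Fˣ} (hM : Has M A) : ¬ M ≤ subgroupNormalizer R := fun e => by
  have k : ∀ s : Equiv.Perm (Fin 5), (pm s : G5 F) ∈ scalars _ F → s = 1 := fun s a => by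
    obtain ⟨c, a⟩ := exists_sc a
    exact (monoU_inj (a.trans (sc_eq_dg c))).2
  have m : ∀ s : Equiv.Perm (Fin 5), s * s = 1 → (pm s : G5 F) * pm s = 1 := fun s a => by rw [← map_mul, a, map_one]
  rcases h.four (e (hM.pm (Equiv.swap 0 1 * Equiv.swap 2 3) (by decide))) (e (hM.pm (Equiv.swap 0 2 * Equiv.swap 1 3) (by decide)))
    (m _ (by decide)) (m _ (by decide)) (by rw [← map_mul]; exact m _ (by decide)) with a | a | a
  exacts [absurd (k _ a) (by decide), absurd (k _ a) (by decide), absurd (k _ (by rwa [← map_mul] at a)) (by decide)]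

theorem quad {Φ : Frm (Fin 5) (.id F)} : ¬ R ≤ similarityGroup Φ.f := fun e => by
  obtain ⟨x, hx, y, hy, a⟩ := exists_noncomm h.E.two h.E.top
  obtain ⟨c, b1, b2, b3⟩ := h.E.exists_comm hx hy
  have := Φ.sc_mem_iso.1 (b1 ▸ Φ.comm_mem_iso (e hx) (e hy))
  exact a (b3 ((pow_eq_one_iff_of_coprime (by decide : Nat.Coprime 2 5)).1 ⟨Units.ext (by simpa [sq] using this), b2⟩))

variable [Finite F]

theorem cardZ : Nat.card ((scalars _ F).subgroupOf R) = 5 :=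
  center_eq h.E.top ▸ Nat.dvd_antisymm (h.E.card_center_dvd fun _ => h.E.pow_eq_one_of h.exp) h.E.dvd_card_center

theorem card : Nat.card R = 125 := by rw [h.E.card_eq, center_eq h.E.top, h.cardZ]; rfl

end C6

/-- the ambient group is compatible with the normal form -/
def Amb (S R : Subgroup (G5 F)) : Prop :=
  ∀ ω B, ω ≠ 1 → ω ^ 5 = 1 → cjP B R = R0 ω → cjP B S = S ∧ Has S (.zpowers ω)

theorem has_SL (A : Subgroup Fˣ) : Has SL5 A := ⟨fun _ => pm_mem, fun _ _ => dg_mem⟩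

theorem amb_SL : Amb SL5 R := fun _ B _ _ _ => ⟨cjP_SL B, has_SL _⟩

namespace C6
variable (h : C6 R)
include h

theorem amb_SU [Fintype F] (hF : Fintype.card F = q ^ 2) (hR : R ≤ similarityGroup (hermForm 5 F q)) : Amb (SU5 F q) R := by
  intro ω B h1 h5 e
  have a := h.E.le_iso_odd (by decide) h.exp (suΦ_f hF ▸ hR)
  have b := (suΦ hF 5).sc_mem_iso.1 (a (by
    have := mem_cjP.1 (e ▸ sc_R0 h5)
    rwa [← sc_comm, mul_inv_cancel_right] at this))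
  have c : Has (SU5 F q) (.zpowers ω) := SU5_eq hF ▸ has_SI (by
    rintro _ ⟨k, rfl⟩
    rw [norm_one] at b ⊢
    rw [← zpow_natCast, ← _root_.zpow_mul, mul_comm, _root_.zpow_mul, zpow_natCast, b, _root_.one_zpow])
  refine ⟨cjP_SU_of hF (alg_R0 h1 h5) (c.R0 h5) ?_, c⟩
  rw [cjP_inf, cjP_SL, ← suΦ_iso hF]
  exact le_inf (e ▸ cjP_mono B a) ((has_SL _).R0 h5)

variable (a : Amb S R)
include a

theorem le : R ≤ subgroupNormalizer R ⊓ S := by
  obtain ⟨ω, B, h1, h5, e⟩ := h.nf'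
  obtain ⟨b, c⟩ := a ω B h1 h5 e
  exact le_inf Subgroup.le_normalizer fun x hx => mem_cjP'.1 (b.ge (c.R0 h5 (e ▸ mem_cjP'.2 hx)))

theorem same {R' : Subgroup (G5 F)} (h' : C6 R') (a' : Amb S R') :
    Nat.card (subgroupNormalizer R' ⊓ S :) ≤ Nat.card (subgroupNormalizer R ⊓ S :) := by
  obtain ⟨ω, B, h1, h5, e⟩ := h.nf'
  obtain ⟨ω', B', h1', h5', e'⟩ := h'.nf'
  rw [card_cj_inf (M := subgroupNormalizer R) (a _ _ h1 h5 e).1, card_cj_inf (M := subgroupNormalizer R') (a' _ _ h1' h5' e').1,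
    cjP_norm, cjP_norm, e, e', R0_congr h1 h5 h1' h5']

variable [Fintype F]

theorem dec {D : Fin 5 → Submodule F (Fin 5 → F)} (hD : IsMDecomposition 1 D) :
    ¬ subgroupNormalizer R ⊓ S ≤ decompositionStabilizer D := fun e => by
  obtain ⟨r, hr, r0, b⟩ := dec_ker hD e (h.le a) h.card h.cardZ
  obtain ⟨ω, B, h1, h5, c, d⟩ := h.nf hr r0
  obtain ⟨f, f'⟩ := a ω B h1 h5 d
  have := b _ (mem_cjP.1 (show E5 ω ∈ cjP B (_ ⊓ _) by rw [cjP_inf, cjP_norm, d, f]; exact ⟨E5_norm h5, f'.E5 h5⟩))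
  refine E5_comm h1 h5 ((MulAut.conj B).injective ?_)
  simpa [← c, mul_assoc] using this

theorem fld {K : Subalgebra F (M5 F)} (hK : IsFieldSubalgebra 5 K) : ¬ subgroupNormalizer R ⊓ S ≤ subalgebraNormalizer K :=
  fun e => by
  obtain ⟨ω, B, h1, h5, d⟩ := h.nf'
  obtain ⟨f, f'⟩ := a ω B h1 h5 d
  exact fld_pm hK B (s := t5) (by decide) (by decide) (e (mem_cjP.1 (show pm t5 ∈ cjP B (_ ⊓ _) by
    rw [cjP_inf, cjP_norm, d, f]; exact ⟨t5_norm h5, f'.pm _ (by decide)⟩)))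

end C6

end H11.G5
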