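import Cfsg.Agent.H11.TMO
import Cfsg.Agent.H11.Gen6
import Cfsg.Agent.H11.MinO2
import Cfsg.Agent.H11.OmegaBridge

/-! # Two-generation of the orthogonal groups of minus type -/

set_option autoImplicit false
set_option linter.unusedSectionVars false
set_option maxHeartbeats 400000

namespace H11.TM

open Subgroup H14 H14.RootSys H14.PreSt H14.St H14.St.Tw H11.Mn H11.Mn.TD Cfsg H8.OmT Matrix H11.Md H11.G3 Polynomial
open scoped commutatorElement

section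
variable {ι κ : Type*} [Fintype κ] [DecidableEq κ] [Fintype ι] [DecidableEq ι] {R : RootSys ι κ}
variable {C : Chev R} {K G : Type*} [Field K] [Group G] {S : St C K G} {T : S.Tw} {N : ℕ} {φ : K →+* K}

theorem OD.two_core [Finite K] (D : OD T N φ) {i : κ} (hr : T.ρ (R.simple i) ≠ R.simple i) {w : Equiv.Perm ι} (hw : w ∈ T.W1)
    {ζ : K} (h0 : ζ ≠ 0) (hs : Function.Surjective (aeval (ζ ^ 2) : ℤ[X] → K)) (c1 : ζ ^ 2 ≠ 1)
    (c2 : ∏ k ∈ Finset.range N, φ^[k] (ζ ^ R.pair ((T.ρ ^ k) (R.simple i)) (w⁻¹ (R.simple i))) ≠ 1) :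
    ∃ a ∈ T.gen, ∃ b ∈ T.gen, ∀ M, a ∈ M → b ∈ M → S.U (O T (R.simple i)) ⊓ T.fix ≤ M ∧
      ∀ r, S.U (O T r) ⊓ T.fix ≤ M → S.U (O T (w r)) ⊓ T.fix ≤ M := by
  obtain ⟨n, n1, n2⟩ := big_gen.exists_rep D.ex hw
  have a1 : ∀ t, gt (T := T) N (S.x (R.simple i) t) ∈ T.gen := fun t =>
    (big_gen i).1 (by rw [Up, ← D.O_simple]; exact D.gt_O (x_mem_U (mem_O _) t))
  have a2 : ∀ t, gt (T := T) N (S.x (R.neg (R.simple i)) t) ∈ T.gen := fun t =>
    (big_gen i).2 (by rw [Um, ← D.O_neg_simple]; exact D.gt_O (x_mem_U (mem_O _) t))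
  let X : K → S.U {R.simple i, R.neg (R.simple i)} := fun t => ⟨S.x _ t, x_mem_U (.inl rfl) t⟩
  let Y : K → S.U {R.simple i, R.neg (R.simple i)} := fun t => ⟨S.x _ t, x_mem_U (.inr rfl) t⟩
  have a3 := D.gt_h (R.simple i) h0
  refine ⟨gt (T := T) N (S.h (R.simple i) ζ), ?_, _, mul_mem (a1 1) n1.1, fun M h1 h2 => ?_⟩
  · change D.gtH _ (D.pm hr) (X ζ * Y (-ζ⁻¹) * X ζ * (X (-1) * Y (-(-1)⁻¹) * X (-1))) ∈ _
    simp only [map_mul]
    exact mul_mem (mul_mem (mul_mem (a1 _) (a2 _)) (a1 _)) (mul_mem (mul_mem (a1 _) (a2 _)) (a1 _))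
  obtain ⟨a4, a5⟩ := G2.extract (X := fun t => gt (T := T) N (S.x (R.simple i) t)) (D.gt_add (R.simple i)) (fun t => by rw [conj_gt a3.2, (D.act_sq hr h0).conj]) (fun t => by
    obtain ⟨d, d0, hd⟩ := NW.act n2 (w⁻¹ (R.simple i))
    have := D.act_gt (R.simple i) (w⁻¹ (R.simple i)) h0
    obtain ⟨t, rfl⟩ : ∃ u, t = d * u := ⟨_, (mul_div_cancel₀ t d0).symm⟩
    simp only [show w (w⁻¹ (R.simple i)) = R.simple i by simp, ← mul_inv_eq_iff_eq_mul] at hd
    beta_reduce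
    rw [conj_gt (mul_mem (mul_mem n1.2 a3.2) (inv_mem n1.2)), mul_left_comm _ d, ← hd, ← hd, ← this.conj]
    congr 1
    group) ((hmul_of_finite S).comm _ a3.1 _ (N_conj_mem_H (NW.mem_N n2) a3.1)) c1 c2 hs h1 h2
  refine ⟨fun g hg => ?_, fun r hr g hg => ?_⟩
  · obtain ⟨t, rfl⟩ := D.exists_gt hg
    exact a4 t
  · have := hr ⟨by simpa using NW_O (NW.inv n2) (inv_mem n1.2) hg.1, mul_mem (mul_mem (T.fix.inv_mem n1.2) hg.2) n1.2⟩
    rwa [mul_mem_cancel_right a5, mul_mem_cancel_left (inv_mem a5)] at this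

end

namespace OM

variable {m : ℕ} {hm : 2 ≤ m + 1} {K G : Type*} [Field K] [Fintype K] [Group G] {S : St (wbD _ hm).C K G} {T : S.Tw}
  {φ : K →+* K} {q : ℕ}

theorem Cx.two_gen (X : Cx (.inl (Fin.last m)) T φ q) : ∃ a ∈ T.gen, ∃ b ∈ T.gen, ∀ M, a ∈ M → b ∈ M → T.Big M := by
  have hR : HR (wbD _ hm) := .of μ2_sur
  have h3 := X.h3
  let c : Fin (m + 1) := ⟨m - 1, by omega⟩
  set z := Fin.last m with hz
  have cz : c < z := by rw [Fin.lt_def]; simp [c, z]; omega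
  have z0 : 0 ≠ z := (Fin.zero_le c |>.trans_lt cz).ne
  obtain ⟨w, hW, hw⟩ := hR.cyc c (hR.sign2 z0)
  have e0 : c.cycleRange z = z := Fin.cycleRange_of_gt cz
  have hw1 : w ∈ T.W1 := mem_W1.2 ⟨hW, Equiv.ext fun r => Subtype.ext (by
    rw [X.e]
    change ρ0 (w r).1 = (w (ρ hm r)).1
    rw [hw, hw]
    funext j
    change _ = _ * ρ0 _ _
    simp only [ρ0, cyc, Equiv.Perm.inv_eq_iff_eq, ← hz, e0]
    split_ifs <;> simp)⟩
  have e1 : (wbD _ hm).R.simple c = rt hm (.inl c) (.inr z) := Subtype.ext (funext fun k => by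
    rw [simple_apply, rt_val cz.ne, Pi.add_apply, μ2_inl, μ2_inr, if_pos (show (c : ℕ) < m by simp [c]; omega),
      show (c : ℕ) + 1 = z by simp [c, z]; omega])
  have e2 : ∀ a b, ix a ≠ z → ix b ≠ z → ∀ y, ix y = z → μ2 b = G3.ee (c.cycleRange (ix a))
      ((if c.cycleRange (ix a) = 0 ∨ c.cycleRange (ix a) = z then -1 else 1) * sg a) → w (rt hm a y) = rt hm b y.swap :=
    fun a b ha hb y hy e => Subtype.ext (by
      rw [hw, rt_val (hy ▸ ha), rt_val (by simpa [hy]), cyc_add, e, μ2_swap, μ2, μ2, cyc_ee, cyc_ee, hy, e0]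
      simp [Pi.single_neg])
  obtain ⟨ζ, z1, z2, z3⟩ := exists_gen K
  have q4 : 4 ≤ q ^ 2 := Nat.pow_le_pow_left X.hq 2
  have z4 : ∀ k, 0 < k → k < q ^ 2 - 1 → ζ ^ k ≠ 1 := fun k a b e => by
    have := Nat.le_of_dvd a ((z3 k).1 e)
    rw [Nat.card_eq_fintype_card, X.hK] at this
    omega
  have e3 : ∀ i : Fin (m + 1), i < c → c.cycleRange i = i + 1 ∧ i + 1 ≠ 0 ∧ i + 1 ≠ z ∧ ((i + 1 : Fin (m + 1)) : ℕ) = i + 1 := fun i h => by
    have := Fin.val_add_one_of_lt (h.trans cz)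
    refine ⟨Fin.cycleRange_of_lt h, ?_, ?_, this⟩ <;> rw [Ne, Fin.ext_iff, this] <;> simp [Fin.lt_def, c, z] at h ⊢
    omega
  obtain ⟨a, ha, b, hb, h⟩ := X.D.two_core (i := c) (e1 ▸ X.swap.f_ne ⟨cz.ne, cz.ne'⟩) hw1 z1 (surj_sq z1 z3)
    (z4 2 two_pos (by omega)) (by
      let d : Fin (m + 1) := ⟨m - 2, by omega⟩
      have dc : d < c := by rw [Fin.lt_def]; simp [c, d]; omega
      have d1 : d + 1 = c := Fin.ext ((e3 d dc).2.2.2.trans (by simp [c, d]; omega))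
      have := e2 (.inl d) (.inl c) (dc.trans cz).ne cz.ne (.inl z) rfl (by have := e3 d dc; rw [d1] at this; simp [this, μ2])
      rw [e1, show w⁻¹ (rt hm (.inl c) (.inr z)) = rt hm (.inl d) (.inl z) from Equiv.Perm.inv_eq_iff_eq.2 this.symm]
      have f := X.swap.f_s (a := .inl c) cz.ne
      simp only [Sum.swap_inl, Sum.swap_inr] at f
      have := X.hq
      have a1 := z4 (q - 1) (by omega) (by rw [sq]; have := Nat.mul_le_mul_right q this; omega)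
      simp only [Finset.prod_range_succ, Finset.prod_range_zero, pow_zero, pow_one, Equiv.Perm.one_apply, f, zero_add,
        pair_rt (a := .inl c) (b := .inr z) (c := .inl d) (d := .inl z) cz.ne (dc.trans cz).ne,
        pair_rt (a := .inl c) (b := .inl z) (c := .inl d) (d := .inl z) cz.ne (dc.trans cz).ne, dot_eq]
      simpa [dc.ne', cz.ne, (dc.trans cz).ne', X.hφ, inv_mul_eq_one₀ z1, pow_sub₀ ζ z1 (show 1 ≤ q by omega),
        mul_inv_eq_one₀ z1, eq_comm] using a1)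
  refine ⟨a, ha, b, hb, fun M h1 h2 => ?_⟩
  obtain ⟨h3, h4⟩ := h M h1 h2
  let P := fun a => S.U (O T (rt hm a (.inl z))) ⊓ T.fix ≤ M
  have zz : ∀ a, ix a ≠ z → ix a ≠ ix (.inl z) ∧ ix (.inl z) ≠ ix a := fun a h => ⟨h, h.symm⟩
  have p1 : ∀ a b, ix a ≠ z → ix b ≠ z → μ2 b = G3.ee (c.cycleRange (ix a))
      ((if c.cycleRange (ix a) = 0 ∨ c.cycleRange (ix a) = z then -1 else 1) * sg a) → P a → P b := fun a b ha hb e h => by
    have := h4 _ h
    rwa [e2 a b ha hb (.inl z) rfl e, O_eq (X.mem_swap (zz b hb))] at this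
  have p2 : ∀ f : Fin (m + 1) → Fin (m + 1) ⊕ Fin (m + 1), (∀ i, ix (f i) = i) → (∀ i, sg (f i) = sg (f 0)) → P (f 0) →
      ∀ i ≤ c, P (f i) := fun f f1 f2 h i => by
    induction i using Fin.induction with
    | zero => exact fun _ => h
    | succ i ih =>
      intro hi
      have hi' : i.castSucc < c := i.castSucc_lt_succ.trans_le hi
      have := e3 _ hi'
      rw [Fin.coeSucc_eq_succ] at this
      exact p1 _ _ (by rw [f1]; exact (hi'.trans cz).ne) (by rw [f1]; exact (hi.trans_lt cz).ne)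
        (by simp [μ2, f1, f2, this]) (ih hi'.le)
  have p3 : P (.inl c) := by
    rw [e1, ← Sum.swap_inl, O_eq (X.mem_swap (zz (.inl c) cz.ne))] at h3
    exact h3
  have p4 := p2 .inr (fun _ => rfl) (fun _ => rfl) (p1 (.inl c) _ cz.ne z0 (by simp [μ2]) p3)
  have p5 := p2 .inl (fun _ => rfl) (fun _ => rfl) (p1 (.inr c) _ cz.ne z0 (by simp [μ2]) (p4 c le_rfl))
  have p6 : ∀ a, ix a ≠ z → P a := fun a h => by
    have : ix a ≤ c := by
      have := (ix a).2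
      simp only [Fin.le_def, Ne, Fin.ext_iff, c, z, Fin.val_last] at h ⊢; omega
    cases a
    exacts [p5 _ this, p4 _ this]
  have p7 : ∀ r, S.U (O T r) ⊓ T.fix ≤ M := fun r => by
    rcases X.cases_O r with ⟨a, b, h, ha, hb, rfl⟩ | ⟨a, ha, h⟩
    · intro g hg
      obtain ⟨x, hx, y, hy, rfl⟩ := X.D.dec_free (dec a b h ha hb) (X.D.cond_fixed (X.f_ll h ha hb) (dec a b h ha hb)
        (X.f_ne ha)) g hg
      rw [O_eq (X.mem_swap hb)] at hy
      exact commutator_le_self _ (commutator_mem_commutator (p6 a ha.1 hx) (p6 b hb.1 hy))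
    · rw [← O_eq h]; exact p6 a ha.1
  exact fun i => ⟨by rw [Up, ← X.D.O_simple]; exact p7 _, by rw [Um, ← X.D.O_neg_simple]; exact p7 _⟩

end OM

end H11.TM
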