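/-
S5815, pieces TR and W7: tori and weights.
-/
import Cfsg.Agent.H26.O7A

set_option autoImplicit false

open Module QuadraticMap H12 Cfsg Subgroup H26.O7
namespace H11.O7
universe u v
attribute [-simp] H11.coe_qOdd

section
variable {K : Type u} [Field K] {G : Type v} [Group G]

theorem det_sq (h2 : (2 : K) ≠ 0) (g : orth (Q K)) :
    LinearMap.det (g.1 : V K →ₗ[K] V K) = 1 ∨ LinearMap.det (g.1 : V K →ₗ[K] V K) = -1 := by
  have := MonoidHom.eq_of_eqOn_dense (closure_reflSet (Q_nd h2) (notExc_of_two_ne_zero h2))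
    (f := (powMonoidHom 2).comp (LinearEquiv.det.comp (orth (Q K)).subtype)) (g := 1) (by
      rintro _ ⟨u, hu, rfl⟩
      exact Units.ext (by simp [LinearEquiv.coe_det, det_refl hu]))
  rw [← LinearEquiv.coe_det, ← sq_eq_one_iff, ← Units.val_pow_eq_pow_val]
  exact congrArg Units.val (DFunLike.congr_fun this g)

theorem odd_one {c : K} {n : ℕ} (hn : Odd n) (h : c ^ n = 1) (h' : c * c = 1) : c = 1 := by
  obtain ⟨m, rfl⟩ := hn
  rwa [pow_succ, pow_mul, pow_two, h', one_pow, one_mul] at h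

theorem polar_single (j : Fin 3 ⊕ Fin 3) (y : V K) : polar (Q K) (Pi.single (.inr j) 1) y = y (.inr j.swap) := by
  rcases j with i | i <;> fin_cases i <;> simp [polar, Q_apply] <;> ring

variable (R : Rp K G) (A : Subgroup G)

/-- common eigenvectors -/
def Ev (x : V K) : Prop := ∀ a ∈ A, ∃ c : K, R.ρ a x = c • x

/-- invariant nondegenerate subspaces spanned by eigenvectors -/
structure Gd (W : Submodule K (V K)) : Prop where
  nd : (CForm.ofQuad (Q K)).NondegOn W
  sp : W ≤ Submodule.span K {x | x ∈ W ∧ Ev R A x}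

/-- a hyperbolic pair of eigenvectors -/
structure Hp (e f : V K) : Prop where
  qe : Q K e = 0
  qf : Q K f = 0
  ef : polar (Q K) e f = 1
  ev : ∀ a ∈ A, ∃ c : K, c ≠ 0 ∧ R.ρ a e = c • e ∧ R.ρ a f = c⁻¹ • f

variable {R A} {n : ℕ}

theorem eig_pow {g : G} {x : V K} {c : K} (h : R.ρ g x = c • x) (m : ℕ) : R.ρ (g ^ m) x = c ^ m • x := by
  induction m with
  | zero => simp
  | succ m ih => rw [pow_succ, R.ρ_mul, h, map_smul, ih, smul_smul, pow_succ']

theorem eig_one {g : G} {x : V K} {c : K} (h : R.ρ g x = c • x) (x0 : x ≠ 0) (e : g ^ n = 1) : c ^ n = 1 := by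
  have := eig_pow h n
  rw [e, map_one, LinearEquiv.coe_one, id] at this
  exact (smul_left_injective K x0 (by simpa using this)).symm

theorem gd_top [IsAlgClosed K] (hn : (n : K) ≠ 0) (he : ∀ a ∈ A, a ^ n = 1) (hc : ∀ a ∈ A, ∀ b ∈ A, a * b = b * a) :
    Gd R A ⊤ := by
  let L : G →* End K (V K) := LinearEquiv.automorphismGroup.toLinearMapMonoidHom.comp R.ρ
  have h1 := End.iSup_iInf_maxGenEigenspace_eq_top_of_iSup_maxGenEigenspace_eq_top_of_commute (fun a : A => L a)
    (fun i j _ => Commute.map (hc _ i.2 _ j.2) L) fun i => End.iSup_maxGenEigenspace_eq_top _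
  have h2 : ∀ (i : A) μ, (L i).maxGenEigenspace μ = (L i).eigenspace μ := fun i μ => by
    refine (End.isSemisimple_of_squarefree_aeval_eq_zero
      (Polynomial.separable_X_pow_sub_C 1 hn one_ne_zero).squarefree ?_).isFinitelySemisimple.maxGenEigenspace_eq_eigenspace μ
    rw [map_sub, map_pow, Polynomial.aeval_X, ← map_pow, he _ i.2]; simp
  simp only [h2] at h1
  refine ⟨CForm.nondegOn_top _ |>.2 (Q_nd R.two), h1.ge.trans (iSup_le fun χ v hv => Submodule.subset_span
    ⟨trivial, fun a ha => ⟨χ ⟨a, ha⟩, End.mem_eigenspace_iff.1 ((Submodule.mem_iInf _).1 hv ⟨a, ha⟩)⟩⟩)⟩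

theorem Gd.hp [IsAlgClosed K] (ho : Odd n) (he : ∀ a ∈ A, a ^ n = 1) {W : Submodule K (V K)} (h : Gd R A W)
    (hd : 2 ≤ finrank K W) : ∃ e ∈ W, ∃ f ∈ W, Hp R A e f := by
  by_cases H : ∀ x ∈ W, Ev R A x → ∀ a ∈ A, R.ρ a x = x
  · have H : ∀ a ∈ A, ∀ x ∈ W, R.ρ a x = x := fun a ha x hx =>
      mem_fix.1 ((h.sp.trans (Submodule.span_le.2 fun y hy => mem_fix.2 (H y hy.1 hy.2 a ha))) hx)
    obtain ⟨y, hy, y0⟩ := (Submodule.ne_bot_iff W).1 (Submodule.one_le_finrank_iff.1 (by omega))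
    obtain ⟨x, hx, x0⟩ := SetLike.not_le_iff_exists.1 (show ¬ W ≤ K ∙ y from fun e => by
      have := Submodule.finrank_mono e
      rw [finrank_span_singleton y0] at this
      omega)
    obtain ⟨e, he, e0, qe⟩ : ∃ e ∈ W, e ≠ 0 ∧ Q K e = 0 := by
      by_cases q : Q K y = 0
      · exact ⟨y, hy, y0, q⟩
      have : NeZero (2 : K) := ⟨R.two⟩
      obtain ⟨c, hc⟩ := exists_quadratic_eq_zero q (IsAlgClosed.exists_eq_mul_self (discrim (Q K y) (polar (Q K) y x) (Q K x)))
      refine ⟨c • y + x, add_mem (W.smul_mem _ hy) hx, fun e => x0 ?_, ?_⟩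
      · rw [eq_neg_of_add_eq_zero_right e]
        exact neg_mem (Submodule.smul_mem _ _ (Submodule.mem_span_singleton_self y))
      · rw [Q_add, Q_smul, polar_smul_left, smul_eq_mul]; linear_combination hc
    obtain ⟨f, hf, ef⟩ := h.nd.exists_eq he e0 1
    have ef : polar (Q K) e f = 1 := ef
    have m := sub_mem hf (W.smul_mem (Q K f) he)
    exact ⟨e, he, _, m, qe, by rw [Q_sub, Q_smul, qe, polar_smul_right, polar_comm, ef]; simp,
      by rw [polar_sub_right, polar_smul_right, polar_self', qe, ef]; simp,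
      fun a ha => ⟨1, one_ne_zero, by rw [H a ha e he, one_smul], by rw [H a ha _ m, inv_one, one_smul]⟩⟩
  push Not at H
  obtain ⟨e, he', ev, a, ha, ne⟩ := H
  have e0 : e ≠ 0 := by rintro rfl; simp at ne
  obtain ⟨f, hf, fv, ef⟩ : ∃ f ∈ W, Ev R A f ∧ polar (Q K) e f ≠ 0 := by
    by_contra! H
    exact e0 (h.nd e he' fun y hy => (h.sp.trans ((Submodule.span_le (p := LinearMap.ker (polarBilin (Q K) e))).2
      fun z hz => H z hz.1 hz.2)) hy)
  have k : ∀ a ∈ A, ∃ c : K, c ≠ 0 ∧ R.ρ a e = c • e ∧ R.ρ a f = c⁻¹ • f := fun a ha => by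
    obtain ⟨c, hc⟩ := ev a ha
    obtain ⟨d, hd⟩ := fv a ha
    have := R.polar_ρ a e f
    rw [hc, hd, polar_smul_left, polar_smul_right, smul_smul, smul_eq_mul, mul_eq_right₀ ef] at this
    exact ⟨c, left_ne_zero_of_mul_eq_one this, hc, by rw [hd, eq_inv_of_mul_eq_one_right this]⟩
  obtain ⟨c, c0, h1, h3⟩ := k a ha
  have cc : c * c ≠ 1 := fun e => ne (by rw [h1, odd_one ho (eig_one h1 e0 (he a ha)) e, one_smul])
  refine ⟨e, he', _, W.smul_mem (polar (Q K) e f)⁻¹ hf, ?_, ?_, by rw [polar_smul_right, smul_eq_mul, inv_mul_cancel₀ ef],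
    fun a ha => (k a ha).imp fun c hc => ⟨hc.1, hc.2.1, by rw [map_smul, hc.2.2, smul_comm]⟩⟩
  · have := R.Q_ρ a e
    rw [h1, Q_smul] at this
    exact by_contra fun q => cc (mul_eq_right₀ q |>.1 this)
  · have := R.Q_ρ a f
    rw [h3, Q_smul, ← mul_inv] at this
    rw [Q_smul, show Q K f = 0 from by_contra fun q => cc (inv_eq_one.1 (mul_eq_right₀ q |>.1 this)), mul_zero]

theorem Gd.step {W : Submodule K (V K)} (h : Gd R A W) {e f : V K} (he : e ∈ W) (hf : f ∈ W) (p : Hp R A e f) :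
    ∃ W' ≤ W, Gd R A W' ∧ finrank K W ≤ finrank K W' + 2 ∧ ∀ x ∈ W', polar (Q K) e x = 0 ∧ polar (Q K) f x = 0 := by
  let π : V K →ₗ[K] V K := LinearMap.id - (polarBilin (Q K) f).smulRight e - (polarBilin (Q K) e).smulRight f
  have π0 : ∀ x, π x = x - polar (Q K) f x • e - polar (Q K) e x • f := fun x => rfl
  let W' := W ⊓ (LinearMap.ker (polarBilin (Q K) e) ⊓ LinearMap.ker (polarBilin (Q K) f))
  have m : ∀ x, x ∈ W' ↔ x ∈ W ∧ polar (Q K) e x = 0 ∧ polar (Q K) f x = 0 := fun x => Iff.rfl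
  have π1 : ∀ x ∈ W, π x ∈ W' := fun x hx => (m _).2 ⟨sub_mem (sub_mem hx (W.smul_mem _ he)) (W.smul_mem _ hf), by
    simp [π0, p.qe, p.ef], by simp [π0, p.qf, polar_comm _ f e, p.ef]⟩
  have π2 : ∀ x ∈ W', π x = x := fun x hx => by simp [π0, ((m x).1 hx).2]
  refine ⟨W', inf_le_left, ⟨fun x hx k => h.nd x hx.1 fun y hy => ?_, fun x hx => ?_⟩, ?_, fun x hx => ((m x).1 hx).2⟩
  · have : polar (Q K) x (π y) = 0 := k _ (π1 y hy)
    simpa [π0, polar_comm _ x e, polar_comm _ x f, ((m x).1 hx).2] using this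
  · rw [← π2 x hx]
    refine ((Submodule.span_le (p := (Submodule.span K {x | x ∈ W' ∧ Ev R A x}).comap π)).2 fun y hy =>
      Submodule.subset_span ⟨π1 y hy.1, fun a ha => ?_⟩) (h.sp hx.1)
    obtain ⟨c, c0, h1, h3⟩ := p.ev a ha
    obtain ⟨d, hd⟩ := hy.2 a ha
    have a1 := R.polar_ρ a e y
    have a2 := R.polar_ρ a f y
    rw [hd, polar_smul_right] at a1 a2
    rw [h1, polar_smul_left, smul_eq_mul, smul_eq_mul] at a1
    rw [h3, polar_smul_left, smul_eq_mul, smul_eq_mul] at a2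
    refine ⟨d, ?_⟩
    rw [π0, map_sub, map_sub, map_smul, map_smul, hd, h1, h3, smul_sub, smul_sub, smul_smul, smul_smul, smul_smul, smul_smul,
      show polar (Q K) f y * c = d * polar (Q K) f y by field_simp at a2; linear_combination -a2,
      show polar (Q K) e y * c⁻¹ = d * polar (Q K) e y by field_simp; linear_combination -a1]
  · classical
    have : W ≤ W' ⊔ Submodule.span K {e, f} := fun x hx => by
      rw [show x = π x + (polar (Q K) f x • e + polar (Q K) e x • f) by rw [π0]; abel]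
      exact Submodule.add_mem_sup (π1 x hx) (Submodule.mem_span_pair.2 ⟨_, _, rfl⟩)
    have := Submodule.finrank_mono this
    have := Submodule.finrank_add_le_finrank_add_finrank W' (Submodule.span K {e, f})
    have := finrank_span_le_card (R := K) ({e, f} : Set (V K))
    have := Finset.card_le_two (a := e) (b := f)
    simp only [Set.toFinset_insert, Set.toFinset_singleton] at *
    omega

theorem Hp.q {e f y : V K} (p : Hp R A e f) (h : polar (Q K) e y = 0 ∧ polar (Q K) f y = 0) (a b : K) :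
    Q K (a • e + b • f + y) = a * b + Q K y := by
  simp [Q_add, Q_smul, p.qe, p.qf, p.ef, h, mul_comm]

theorem tr1 [IsAlgClosed K] (ho : Odd n) (hn : (n : K) ≠ 0) (he : ∀ a ∈ A, a ^ n = 1)
    (hc : ∀ a ∈ A, ∀ b ∈ A, a * b = b * a) : ∃ h ∈ orth (Q K), LinearMap.det (h : V K →ₗ[K] V K) = 1 ∧ ∃ t : G → Fin 3 → K,
      ∀ a ∈ A, (∀ i, t a i ^ n = 1) ∧ (∀ b ∈ A, t (a * b) = t a * t b) ∧ ∀ x, R.ρ a (h x) = h (tor (t a) x) := by
  have g0 := gd_top (R := R) hn he hc
  have d0 : finrank K (⊤ : Submodule K (V K)) = 7 := by rw [finrank_top, finrank_V]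
  obtain ⟨e0, a0, f0, b0, p0⟩ := g0.hp ho he (by omega)
  obtain ⟨W1, -, g1, d1, c1⟩ := g0.step a0 b0 p0
  obtain ⟨e1, a1, f1, b1, p1⟩ := g1.hp ho he (by omega)
  obtain ⟨W2, l2, g2, d2, c2⟩ := g1.step a1 b1 p1
  obtain ⟨e2, a2, f2, b2, p2⟩ := g2.hp ho he (by omega)
  obtain ⟨W3, l3, g3, d3, c3⟩ := g2.step a2 b2 p2
  obtain ⟨u, hu, u0⟩ := exists_nonsingular g3.nd (Submodule.one_le_finrank_iff.1 (by omega))
  obtain ⟨c, hc'⟩ := IsAlgClosed.exists_eq_mul_self (Q K u)⁻¹
  have v1 : Q K (c • u) = 1 := by rw [Q_smul, ← hc', inv_mul_cancel₀ u0]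
  have hv := W3.smul_mem c hu
  generalize c • u = v at v1 hv
  let b : ι → V K := Sum.elim (fun _ => v) (Sum.elim ![e0, e1, e2] ![f0, f1, f2])
  have hb : ∀ x : V K, Fintype.linearCombination K b x = x (.inr (.inl 0)) • e0 + x (.inr (.inr 0)) • f0 +
      (x (.inr (.inl 1)) • e1 + x (.inr (.inr 1)) • f1 + (x (.inr (.inl 2)) • e2 + x (.inr (.inr 2)) • f2 + x (.inl ()) • v)) :=
    fun x => by simp [Fintype.linearCombination_apply, b, Fin.sum_univ_three]; abel
  have hq : ∀ x, Q K (Fintype.linearCombination K b x) = Q K x := fun x => by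
    have m3 := W3.smul_mem (x (.inl ())) hv
    have m2 := add_mem (add_mem (W2.smul_mem (x (.inr (.inl 2))) a2) (W2.smul_mem (x (.inr (.inr 2))) b2)) (l3 m3)
    rw [hb, p0.q (c1 _ (add_mem (add_mem (W1.smul_mem _ a1) (W1.smul_mem _ b1)) (l2 m2))), p1.q (c2 _ m2), p2.q (c3 _ m3),
      Q_smul, v1, Q_apply]
    ring
  obtain ⟨h, hh, h0⟩ := (Q_nd R.two).exists_isom (Fintype.linearCombination K b) ⟨fun x y => by
    change polar (Q K) _ _ = polar (Q K) _ _
    simp only [polar, ← map_add, hq], hq⟩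
  have hs : ∀ i, h (Pi.single i 1) = b i := fun i => by rw [h0, Fintype.linearCombination_apply_single, one_smul]
  have k : ∀ a ∈ A, ∀ i, ∃ c : K, c ≠ 0 ∧ R.ρ a (b (.inr (.inl i))) = c • b (.inr (.inl i)) ∧
      R.ρ a (b (.inr (.inr i))) = c⁻¹ • b (.inr (.inr i)) := fun a ha i => by
    fin_cases i
    exacts [p0.ev a ha, p1.ev a ha, p2.ev a ha]
  have b0 : ∀ i, b i ≠ 0 := fun i e => by simpa using congrFun (h.injective ((hs i).trans (e.trans (map_zero h).symm))) i
  choose! t t0 t1 t2 using k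
  have t3 : ∀ a ∈ A, R.ρ a v = v := fun a ha => by
    obtain ⟨y, hy⟩ := h.surjective (R.ρ a v)
    have z : ∀ (j : Fin 3 ⊕ Fin 3) (c : K), c ≠ 0 → R.ρ a (b (.inr j)) = c • b (.inr j) →
        polar (Q K) (Pi.single (.inr j) 1) y = 0 := fun j c c0 e => by
      have := R.polar_ρ a (b (.inr j)) (b (.inl ()))
      rw [e, polar_smul_left, ← hs, ← hs, show h (Pi.single (.inl ()) 1) = v from hs _, ← hy, ← show h (Pi.single (.inl ()) 1) = v
        from hs _, orth_polar ⟨h, hh⟩, orth_polar ⟨h, hh⟩, polar_single, polar_single] at this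
      simpa [c0, polar_single] using this
    have : R.ρ a v = y (.inl ()) • v := by
      rw [← hy, h0, hb]
      have z1 := fun i => (polar_single _ _).symm.trans (z (.inl i) _ (t0 a ha i) (t1 a ha i))
      have z2 := fun i => (polar_single _ _).symm.trans (z (.inr i) _ (inv_ne_zero (t0 a ha i)) (t2 a ha i))
      simp only [Sum.swap_inl, Sum.swap_inr] at z1 z2
      simp [z1, z2]
    have q := R.Q_ρ a v
    rw [this, Q_smul, v1, mul_one] at q
    rw [this, odd_one ho (eig_one this (b0 (.inl ())) (he a ha)) q, one_smul]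
  have key : ∀ a ∈ A, ∀ x, R.ρ a (h x) = h (tor (t a) x) := fun a ha x => by
    rw [h0, h0, Fintype.linearCombination_apply, Fintype.linearCombination_apply, map_sum]
    refine Finset.sum_congr rfl ?_
    rintro (_ | i | i) - <;> rw [map_smul]
    · exact congrArg _ (t3 a ha)
    · rw [t1 a ha, smul_smul, mul_comm]; rfl
    · rw [t2 a ha, smul_smul, mul_comm]; rfl
  have k2 : ∀ a ∈ A, (∀ i, t a i ^ n = 1) ∧ ∀ b ∈ A, t (a * b) = t a * t b := fun a ha =>
    ⟨fun i => eig_one (t1 a ha i) (b0 _) (he a ha), fun a' ha' => funext fun i => smul_left_injective K (b0 (.inr (.inl i))) (by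
      dsimp only
      rw [← t1 _ (mul_mem ha ha'), R.ρ_mul, t1 _ ha', map_smul, t1 _ ha, smul_smul, mul_comm]; rfl)⟩
  rcases det_sq R.two ⟨h, hh⟩ with d | d
  · exact ⟨h, hh, d, t, fun a ha => ⟨(k2 a ha).1, (k2 a ha).2, key a ha⟩⟩
  · refine ⟨LinearEquiv.neg K * h, mem_orth.2 fun x => (QuadraticMap.map_neg _ _).trans (mem_orth.1 hh x), ?_, t,
      fun a ha => ⟨(k2 a ha).1, (k2 a ha).2, fun x => (map_neg _ _).trans (congrArg Neg.neg (key a ha x))⟩⟩
    rw [show ((LinearEquiv.neg K * h : Au K (V K)) : V K →ₗ[K] V K) = (-1 : K) • (h : V K →ₗ[K] V K) from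
      LinearMap.ext fun x => (neg_one_smul K _).symm, LinearMap.det_smul, finrank_V, show LinearMap.det (h : V K →ₗ[K] V K) = -1 from d]
    norm_num
end

theorem tr : TR.{u, v} := fun K _ _ => ⟨fun _ _ _ _ _ ho hn he hc => tr1 ho hn he hc, fun g t δ t0 hδ hg => by
  have := t0 0; have := t0 1; have := t0 2
  have δ0 : δ ≠ 0 := by rintro rfl; simp_all [eq_comm]
  let f : S K →ₗ[K] S K := ⟨⟨torS t δ, fun x y => by
    refine H8.fin8_ext ?_ ?_ ?_ ?_ ?_ ?_ ?_ ?_ <;> simp [torS, mul_add]⟩, fun c x => by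
    refine H8.fin8_ext ?_ ?_ ?_ ?_ ?_ ?_ ?_ ?_ <;> simp [torS, mul_left_comm]⟩
  have n : ∀ s, Nm K (f s) = Nm K s := fun s => by
    change Nm K (torS t δ s) = _
    simp only [Nm_apply, torS, Matrix.cons_val]
    field_simp
  obtain ⟨b, -, hb⟩ := Nm_nd.exists_isom f ⟨fun x y => by
    change polar (Nm K) _ _ = polar (Nm K) _ _
    simp only [polar, ← map_add, n], n⟩
  refine ⟨b, ⟨fun x s => ?_, fun s => hb s ▸ n s⟩, hb⟩
  rw [hb, hb, hg]
  change torS t δ _ = L _ (torS t δ s)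
  refine H8.fin8_ext ?_ ?_ ?_ ?_ ?_ ?_ ?_ ?_ <;>
    simp only [H26.O7.L_apply, zm0, zm1, zm2, zm3, zm4, zm5, zm6, zm7, torS, tor, Matrix.cons_val] <;> field_simp <;>
    (try rw [hδ]) <;> ring⟩

theorem w7 : W7.{u, v} := by
  intro K _ _ G _ _ R
  refine ⟨fun A n ho hn he hc => ?_, fun x y c l hl l3 l0 cl c1 cx cy e => ?_⟩
  · obtain ⟨h, -, -, t, ht⟩ := tr1 (R := R) ho hn he hc
    have n0 : 0 < n := ho.pos
    have inj : ∀ a ∈ A, ∀ b ∈ A, t a = t b → a = b := fun a ha b hb e => R.inj (LinearEquiv.ext fun x => by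
      obtain ⟨x, rfl⟩ := h.surjective x
      rw [(ht a ha).2.2, (ht b hb).2.2, e])
    have t0 : ∀ a ∈ A, ∀ i, t a i ≠ 0 := fun a ha i e => by simpa [e, n0.ne'] using (ht a ha).1 i
    have t1 : t 1 = 1 := funext fun i => by
      simpa [t0 1 (one_mem A) i] using congrFun ((ht 1 (one_mem A)).2.1 1 (one_mem A)) i
    refine ⟨?_, fun A0 g ε hε hg => ?_⟩
    · classical
      refine (Nat.card_le_card_of_injective (β := Fin 3 → Polynomial.nthRootsFinset n (1 : K)) (fun (a : A) i => ⟨t a i,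
        (Polynomial.mem_nthRootsFinset n0 _).2 ((ht a a.2).1 i)⟩) fun a b e => Subtype.ext (inj _ a.2 _ b.2
          (funext fun i => congrArg Subtype.val (congrFun e i)))).trans ?_
      rw [Nat.card_fun, Nat.card_fin, Nat.card_eq_fintype_card, Fintype.card_coe]
      exact Nat.pow_le_pow_left ((Multiset.toFinset_card_le _).trans (Polynomial.card_nthRoots n 1)) 3
    obtain ⟨⟨a, ha⟩, a1⟩ := ne_bot_iff_exists_ne_one.1 A0
    obtain ⟨i, hi⟩ : ∃ i, t a i ≠ 1 := by
      by_contra! k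
      exact a1 (Subtype.ext (inj a ha 1 (one_mem A) ((funext k).trans t1.symm)))
    let _ : CommGroup A := { (inferInstance : Group A) with mul_comm := fun a b => Subtype.ext (hc _ a.2 _ b.2) }
    let c : Fin 7 → A →* A := fun j => (zpowGroupHom (ε j)).comp
      (((MulAut.conj (g j)).toMonoidHom.comp A.subtype).codRestrict A fun a => hg j a a.2)
    have cv : ∀ j b, (c j b : G) = (g j * b * (g j)⁻¹) ^ ε j := fun _ _ => by simp [c]
    let χ : A →* K := ⟨⟨fun b => t b i, congrFun t1 i⟩, fun a b => congrFun ((ht a a.2).2.1 b b.2) i⟩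
    have cs : ∀ j, Function.Surjective (c j) := fun j => Finite.injective_iff_surjective.1
      ((injective_iff_map_eq_one _).2 fun b e => by
        have := (cv j b).symm.trans (congrArg Subtype.val e)
        rcases hε j with k | k <;> simpa [k, -mul_inv_rev] using this)
    have k : ∀ j, ∃ m : Fin 3 ⊕ Fin 3, ∀ b : A, χ (c j b) = tor (t b) 1 (.inr m) := fun j => by
      obtain ⟨m, hm⟩ : ∃ m : ι, ∀ b : A, R.ρ (g j * b * (g j)⁻¹) (h (Pi.single m 1)) = χ (c j b) • h (Pi.single m 1) := by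
        rcases hε j with k | k
        · refine ⟨.inr (.inl i), fun b => ?_⟩
          rw [(ht _ (hg j b b.2)).2.2, ← map_smul]
          refine congrArg h (funext ?_)
          rintro (_ | l | l) <;> simp [tor, χ, cv, k, Pi.single_apply]
          split_ifs with q <;> simp [q]
        · refine ⟨.inr (.inr i), fun b => ?_⟩
          rw [(ht _ (hg j b b.2)).2.2, ← map_smul, ← inv_inv (c j b), map_inv]
          refine congrArg h (funext ?_)
          rintro (_ | l | l) <;> simp [tor, χ, cv, k, Pi.single_apply]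
          split_ifs with q <;> simp [q]
      obtain ⟨y, hy⟩ := h.surjective (R.ρ (g j)⁻¹ (h (Pi.single m 1)))
      have y1 : ∀ b : A, tor (t b) y = χ (c j b) • y := fun b => h.injective (by
        rw [← (ht b b.2).2.2, map_smul, hy, ← map_smul, ← hm, ← R.ρ_mul, ← R.ρ_mul]; group)
      obtain ⟨l, hl⟩ : ∃ l, y l ≠ 0 := by
        by_contra! k
        rw [show y = 0 from funext k, map_zero, eq_comm, map_eq_zero_iff _ (R.ρ _).injective,
          map_eq_zero_iff _ h.injective] at hy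
        simpa using congrFun hy m
      rcases l with l | l
      · obtain ⟨b, hb⟩ := cs j ⟨a, ha⟩
        have := congrFun (y1 b) (.inl l)
        rw [hb] at this
        exact (hi ((mul_eq_right₀ hl).1 this.symm)).elim
      · refine ⟨l, fun b => mul_right_cancel₀ hl ((congrFun (y1 b) (.inr l)).symm.trans ?_)⟩
        rcases l with l | l <;> simp [tor]
    choose m hm using k
    obtain ⟨j, l, jl, e⟩ := Fintype.exists_ne_map_eq_of_card_lt m (by simp)
    have : ¬ Function.Injective (c j / c l) := fun k => by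
      obtain ⟨b, hb⟩ := Finite.injective_iff_surjective.1 k ⟨a, ha⟩
      have := congrArg χ hb
      rw [MonoidHom.div_apply, map_div, hm, e, ← hm, div_self (show χ (c l b) ≠ 0 from t0 _ (c l b).2 i)] at this
      exact hi this.symm
    rw [injective_iff_map_eq_one] at this
    push Not at this
    obtain ⟨b, hb, b1⟩ := this
    exact ⟨j, l, jl, b, b.2, fun e => b1 (Subtype.ext e), by rw [← cv, ← cv, div_eq_one.1 hb]⟩
  · have ho := hl.odd_of_ne_two (by omega)
    obtain ⟨h, -, -, t, ht⟩ := tr1 (R := R) (A := zpowers c) ho l0 (by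
      rintro _ ⟨m, rfl⟩; rw [← zpow_natCast, ← zpow_mul, mul_comm, zpow_mul, zpow_natCast, cl, one_zpow]) (by
      rintro _ ⟨m, rfl⟩ _ ⟨m', rfl⟩; exact zpow_mul_comm _ _ _)
    obtain ⟨t1, -, t2⟩ := ht c (mem_zpowers c)
    obtain ⟨i, hi⟩ : ∃ i, t c i ≠ 1 := by
      by_contra! k
      refine c1 (R.inj (LinearEquiv.ext fun x => ?_))
      obtain ⟨x, rfl⟩ := h.surjective x
      rw [t2, map_one]
      refine congrArg h (funext ?_)
      rintro (_ | l | l) <;> simp [tor, k]
    have inv : ∀ z, Commute c z → ∀ v ∈ Eg (R.ρ c) (t c i), (R.ρ z : V K →ₗ[K] V K) v ∈ Eg (R.ρ c) (t c i) :=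
      fun z hz v hv => mem_Eg.2 ((R.ρ_comm hz v).trans (by rw [mem_Eg.1 hv, map_smul]; rfl))
    have d1 := two_mul_finrank_le_of_singular (Q_nd R.two) (W := Eg (R.ρ c) (t c i)) fun v hv => by
      have := R.Q_ρ c v
      rw [mem_Eg.1 hv, Q_smul] at this
      exact by_contra fun q => hi (odd_one ho (t1 i) ((mul_eq_right₀ q).1 this))
    have d2 : 1 ≤ finrank K (Eg (R.ρ c) (t c i)) := Submodule.one_le_finrank_iff.2 ((Submodule.ne_bot_iff _).2
      ⟨h (Pi.single (.inr (.inl i)) 1), mem_Eg.2 (by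
        rw [t2, ← map_smul]
        refine congrArg h (funext ?_)
        rintro (_ | l | l) <;> simp [tor, Pi.single_apply]
        split_ifs with q <;> simp [q]), fun e => by simpa using congrFun (h.injective (e.trans (map_zero h).symm)) (.inr (.inl i))⟩)
    have d0 : ∀ z hz, LinearMap.det ((R.ρ z : V K →ₗ[K] V K).restrict (inv z hz)) ≠ 0 := fun z hz =>
      (LinearMap.isUnit_det _ ((LinearMap.isUnit_iff_ker_eq_bot _).2 (LinearMap.ker_eq_bot.2
        fun a b e => Subtype.ext ((R.ρ z).injective (congrArg Subtype.val e))))).ne_zero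
    have : (R.ρ x : V K →ₗ[K] V K).restrict (inv x cx) * (R.ρ y : V K →ₗ[K] V K).restrict (inv y cy) =
        t c i • ((R.ρ y : V K →ₗ[K] V K).restrict (inv y cy) * (R.ρ x : V K →ₗ[K] V K).restrict (inv x cx)) :=
      LinearMap.ext fun v => Subtype.ext (by
        change R.ρ x (R.ρ y v) = t c i • R.ρ y (R.ρ x v)
        rw [← R.ρ_mul, e, R.ρ_mul, R.ρ_mul]
        exact mem_Eg.1 (inv y cy _ (inv x cx _ v.2)))
    have := congrArg LinearMap.det this
    rw [LinearMap.det_smul, map_mul, map_mul, mul_comm, eq_comm, mul_eq_right₀ (mul_ne_zero (d0 _ cy) (d0 _ cx))] at this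
    rw [finrank_V] at d1
    have := Fact.mk hl
    exact Nat.not_dvd_of_pos_of_lt d2 (by omega) (orderOf_eq_prime (t1 i) hi ▸ orderOf_dvd_of_pow_eq_one ‹_›)

end H11.O7
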