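/-
S5815, pieces BC and MO: extension of scalars, monomial 2-groups.
-/
import Cfsg.Agent.H11.O7c
import Cfsg.Agent.H27.C6b

set_option autoImplicit false

open Module QuadraticMap H12 Cfsg Subgroup H26.O7 Matrix
namespace H11.O7
universe u v
attribute [-simp] H11.coe_qOdd

theorem rank_map {F K : Type*} [Field F] [Field K] (f : F →+* K) (M : Matrix ι ι F) : (M.map f).rank = M.rank := by
  obtain ⟨L, L', D, rfl⟩ := Matrix.Pivot.exists_list_transvec_mul_diagonal_mul_list_transvec M
  have := fun L : List (Matrix.TransvectionStruct ι F) => f.map_det (L.map Matrix.TransvectionStruct.toMatrix).prod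
  simp only [Matrix.TransvectionStruct.det_toMatrix_prod, map_one, RingHom.mapMatrix_apply] at this
  rw [Matrix.map_mul, Matrix.map_mul, Matrix.rank_mul_eq_left_of_isUnit_det _ _ (by simp [← this]),
    Matrix.rank_mul_eq_right_of_isUnit_det _ _ (by simp [← this]), Matrix.rank_mul_eq_left_of_isUnit_det _ _ (by simp),
    Matrix.rank_mul_eq_right_of_isUnit_det _ _ (by simp), Matrix.diagonal_map (by simp)]
  classical
  simp [Matrix.rank_diagonal]

theorem rk_gl {F : Type u} [Field F] (g : GL ι F) : rk (H12.glEquiv ι F g) = (g.1 - 1).rank := by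
  rw [rk, Matrix.rank, ← Matrix.toLin'_apply', map_sub, Matrix.toLin'_one]; rfl

theorem bc : BC.{u, v} := by
  intro F K _ _ _
  have mv : ∀ (M : Matrix ι ι F) (x : V F), M.map (algebraMap F K) *ᵥ (fun i => algebraMap F K (x i)) =
      fun i => algebraMap F K ((M *ᵥ x) i) := fun M x => funext fun i => ((algebraMap F K).map_mulVec M x i).symm
  have sg : ∀ i : ι, (Pi.single i 1 : V K) = fun j => algebraMap F K ((Pi.single i 1 : V F) j) := fun i => funext fun j => by
    simp [Pi.single_apply]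
  refine ⟨fun G _ R => ?_, fun H P h => ?_⟩
  · have h2 : (2 : K) ≠ 0 := by rw [← map_ofNat (algebraMap F K)]; exact (map_ne_zero _).2 R.two
    let ρ := (H12.glEquiv ι K).toMonoidHom.comp ((GeneralLinearGroup.map (algebraMap F K)).comp
      ((H12.glEquiv ι F).symm.toMonoidHom.comp R.ρ))
    have b : ∀ g x, ρ g (fun i => algebraMap F K (x i)) = fun i => algebraMap F K (R.ρ g x i) := fun g x =>
      (mv _ x).trans (by rw [← H12.glEquiv_symm_mulVec]; rfl)
    have q : ∀ x y : V F, polar (Q K) (fun i => algebraMap F K (x i)) (fun i => algebraMap F K (y i)) =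
        algebraMap F K (polar (Q F) x y) := fun x y => by simp [polar, Q_apply]
    refine ⟨⟨ρ, h2, fun g => mem_orth.2 fun x => mul_left_cancel₀ h2 ?_, fun g => ?_, (injective_iff_map_eq_one _).2
      fun g e => R.inj (LinearEquiv.ext fun x => funext fun i => (algebraMap F K).injective ?_)⟩, b, fun g => ?_⟩
    · rw [← polar_self', ← polar_self']
      refine LinearMap.congr_fun₂ (LinearMap.ext_basis (Pi.basisFun K ι) (Pi.basisFun K ι) fun i j => ?_ :
        (polarBilin (Q K)).compl₁₂ (ρ g : V K →ₗ[K] V K) (ρ g) = polarBilin (Q K)) x x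
      change polar (Q K) (ρ g _) (ρ g _) = polar (Q K) _ _
      rw [Pi.basisFun_apply, Pi.basisFun_apply, sg, sg, b, b, q, q, R.polar_ρ]
    · refine (H12.det_glEquiv _).trans (((algebraMap F K).map_det _).symm.trans ?_)
      rw [← map_one (algebraMap F K), ← R.det g, ← (H12.glEquiv ι F).apply_symm_apply (R.ρ g), H12.det_glEquiv]; rfl
    · rw [← congrFun (b g x) i, e, map_one]; rfl
    · refine (rk_gl _).trans ?_
      rw [Rp.r, ← (H12.glEquiv ι F).apply_symm_apply (R.ρ g), rk_gl, ← rank_map (algebraMap F K), Matrix.map_sub _ (map_sub _),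
        Matrix.map_one _ (map_zero _) (map_one _)]; rfl
  have e : (Geo.scalars ι F).subgroupOf P = ⊥ := eq_bot_iff.2 fun g hg => by
    obtain ⟨c, hc⟩ := (Geo.mem_scalars_iff _).1 hg
    have a : ∀ x, h.rp.ρ g x = (c : F) • x := fun x => by rw [h.rp_apply, show g.1.1 = _ from hc, smul_mulVec, one_mulVec]
    have q := h.rp.Q_ρ g (Pi.single (.inl ()) 1)
    have d := h.rp.det g
    rw [show (h.rp.ρ g : V F →ₗ[F] V F) = (c : F) • LinearMap.id from LinearMap.ext a, LinearMap.det_smul, finrank_V,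
      LinearMap.det_id, mul_one] at d
    rw [a, Q_smul, Q_apply] at q
    exact h.rp.inj (LinearEquiv.ext fun x => by rw [a, odd_one (by decide) d (by simpa using q), one_smul, map_one]; rfl)
  have f : P ⧸ (Geo.scalars ι F).subgroupOf P ≃* P := (QuotientGroup.quotientMulEquivOfEq e).trans QuotientGroup.quotientBot
  have := h.core.simple
  refine ⟨fun R' hR W hW => or_iff_not_imp_left.2 fun W0 => ?_, f.symm.isSimpleGroup, fun c => h.core.nonabelian
    ⟨⟨fun a b => f.injective (by rw [map_mul, map_mul, c.1.1])⟩⟩, ⟨f⟩⟩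
  obtain ⟨w, hw, w0⟩ := (Submodule.ne_bot_iff W).1 W0
  obtain ⟨j, hj⟩ := Function.ne_iff.1 w0
  have k : ∀ M ∈ Submodule.span F (Geo.matrixSet P), M.map (algebraMap F K) *ᵥ w ∈ W := fun M hM => by
    induction hM using Submodule.span_induction with
    | mem M hM =>
      obtain ⟨g, hg, rfl⟩ := hM
      convert hW ⟨g, hg⟩ w hw
      refine LinearMap.congr_fun ((Pi.basisFun K ι).ext fun i => ?_ : Matrix.toLin' _ = (R'.ρ ⟨g, hg⟩ : V K →ₗ[K] V K)) w
      rw [Pi.basisFun_apply, sg, Matrix.toLin'_apply, mv]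
      exact (hR ⟨g, hg⟩ _).symm
    | zero => simp
    | add M N _ _ a b => rw [Matrix.map_add _ (map_add _), add_mulVec]; exact add_mem a b
    | smul c M _ a =>
      rw [show (c • M).map (algebraMap F K) = algebraMap F K c • M.map (algebraMap F K) from by ext; simp, smul_mulVec]
      exact W.smul_mem _ a
  rw [H27.Asch.span_eq_top_of_alg (H27.C6.alg_of_abs h.core.absIrred)] at k
  refine eq_top_iff.2 ((Pi.basisFun K ι).span_eq.ge.trans (Submodule.span_le.2 ?_))
  rintro _ ⟨i, rfl⟩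
  have := W.smul_mem (w j)⁻¹ (k (Matrix.single i j 1) trivial)
  rw [Matrix.map_single _ _ _ _, map_one, Matrix.single_mulVec] at this
  refine Set.mem_of_eq_of_mem (funext fun l => ?_) this
  by_cases e : l = i <;> simp_all

section
variable {F : Type u} [Field F]

theorem Mon.mul {g h : Au F (V F)} (a : Mon g) (b : Mon h) : Mon (g * h) := fun j => by
  obtain ⟨k, c, e⟩ := b j
  obtain ⟨l, d, e'⟩ := a k
  exact ⟨l, c * d, by change g (h _) = _; rw [e, map_smul, e', smul_smul]⟩

variable (F) in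
/-- monomial isometries -/
def Mo : Subgroup (orth (Q F)) where
  carrier := {g | Mon g.1 ∧ Mon g⁻¹.1}
  one_mem' := ⟨fun j => ⟨j, 1, by simp⟩, fun j => ⟨j, 1, by simp⟩⟩
  mul_mem' := fun a b => ⟨Mon.mul a.1 b.1, by rw [_root_.mul_inv_rev]; exact Mon.mul b.2 a.2⟩
  inv_mem' := fun a => ⟨a.2, by rw [inv_inv]; exact a.1⟩

variable (F) in
/-- diagonal isometries -/
def Dg : Subgroup (orth (Q F)) where
  carrier := {g | ∀ i, ∃ c : F, g.1 (Pi.single i 1) = c • (Pi.single i 1 : V F)}
  one_mem' := fun i => ⟨1, by simp⟩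
  mul_mem' := fun {g h} a b i => by
    obtain ⟨c, e⟩ := a i
    obtain ⟨d, e'⟩ := b i
    exact ⟨d * c, by rw [orth_mul_apply, e', map_smul, e, smul_smul]⟩
  inv_mem' := fun {g} a i => by
    obtain ⟨c, e⟩ := a i
    have c0 : c ≠ 0 := by
      rintro rfl
      simpa using congrFun (g.1.injective (e.trans (by simp : _ = g.1 0))) i
    exact ⟨c⁻¹, g.1.injective (by rw [orth_inv_apply, map_smul, e, smul_smul, inv_mul_cancel₀ c0, one_smul])⟩

/-- the Weyl group -/
def Wy : Subgroup (Equiv.Perm (Fin 3 ⊕ Fin 3)) where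
  carrier := {σ | ∀ j, σ j.swap = (σ j).swap}
  one_mem' := fun _ => rfl
  mul_mem' := fun {σ τ} a b j => by rw [Equiv.Perm.mul_apply, b, a]; rfl
  inv_mem' := fun {σ} a j => σ.injective (by rw [a]; simp)

theorem card_Wy : Nat.card Wy = 48 :=
  (Nat.card_eq_fintype_card (α := {σ : Equiv.Perm (Fin 3 ⊕ Fin 3) // ∀ j, σ j.swap = (σ j).swap})).trans (by decide +kernel)

theorem Q_sum (h2 : (2 : F) ≠ 0) (x : V F) : Q F x = x (.inl ()) ^ 2 + 2⁻¹ * ∑ j : Fin 3 ⊕ Fin 3, x (.inr j) * x (.inr j.swap) := by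
  simp only [Q_apply, Fintype.sum_sum_type, Fin.sum_univ_three, Sum.swap_inl, Sum.swap_inr]
  field_simp; ring

/-- permutation isometries -/
noncomputable def pm (h2 : (2 : F) ≠ 0) : Wy →* orth (Q F) := MonoidHom.mk' (fun σ =>
  ⟨LinearEquiv.funCongrLeft F F ((Equiv.refl Unit).sumCongr σ.1⁻¹), mem_orth.2 fun x => by
    rw [Q_sum h2, Q_sum h2, ← Equiv.sum_comp σ.1⁻¹ fun j => x (.inr j) * x (.inr j.swap)]
    exact congrArg (_ + 2⁻¹ * ·) (Finset.sum_congr rfl fun j _ => congrArg (fun k => _ * x (.inr k)) (σ⁻¹.2 j))⟩) fun _ _ => orth_ext fun _ => funext (by rintro (_ | _) <;> rfl)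

theorem pm_single (h2 : (2 : F) ≠ 0) (σ : Wy) (i : ι) :
    (pm h2 σ).1 (Pi.single i 1) = Pi.single ((Equiv.refl Unit).sumCongr σ.1 i) 1 := funext fun j => by
  change (Pi.single i 1 : V F) (((Equiv.refl Unit).sumCongr σ.1).symm j) = _
  simp only [Pi.single_apply, Equiv.symm_apply_eq]

/-- the torus -/
noncomputable def tm : (Fin 3 → Fˣ) × ℤˣ →* Dg F := MonoidHom.mk' (fun c =>
  ⟨⟨LinearEquiv.piCongrRight fun i => LinearEquiv.smulOfUnit
    (Sum.elim (fun _ => Units.map (Int.castRingHom F).toMonoidHom c.2) (Sum.elim c.1 c.1⁻¹) i), mem_orth.2 fun x => by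
      rcases Int.units_eq_one_or c.2 with e | e <;> simp [Q_apply, e, LinearEquiv.smulOfUnit, Units.smul_def] <;> field_simp⟩,
    fun i => ⟨(Sum.elim (fun _ => Units.map (Int.castRingHom F).toMonoidHom c.2) (Sum.elim c.1 c.1⁻¹) i : Fˣ), funext fun j => by
      by_cases e : j = i <;> simp [e, LinearEquiv.smulOfUnit, Units.smul_def]⟩⟩)
  fun _ _ => Subtype.ext (orth_ext fun _ => funext (by
    rintro (_ | _ | _) <;> simp [LinearEquiv.smulOfUnit, Units.smul_def, mul_left_comm, mul_assoc]))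
end

theorem mo : MO.{u, v} := by
  intro F _ _ G _ _ R hq hG
  have h2 := R.two
  have : Finite (Au F (V F)) := Finite.of_injective (fun g : Au F (V F) => (g : V F → V F)) DFunLike.coe_injective
  have := Fact.mk Nat.prime_two
  have ti : Function.Injective (tm (F := F)) := (injective_iff_map_eq_one _).2 fun c e => by
    have k := fun i => congrFun (congrArg (fun g : Dg F => g.1.1 1) e) i
    refine Prod.ext (funext fun i => Units.ext (by simpa [tm, LinearEquiv.smulOfUnit, Units.smul_def] using k (.inr (.inl i))))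
      ((Int.units_eq_one_or c.2).resolve_right fun a => h2 ?_)
    have := k (.inl ())
    simp [tm, LinearEquiv.smulOfUnit, a] at this
    linear_combination -this
  have sg : ∀ {i j : ι} {c : F}, Pi.single i 1 = c • (Pi.single j 1 : V F) → i = j := fun {i j c} e =>
    by_contra fun n => by simpa [n] using congrFun e i
  have a1 : Dg F ⊓ (pm h2).range = ⊥ := eq_bot_iff.2 (by
    rintro _ ⟨hd, σ, rfl⟩
    rw [show σ = 1 from Subtype.ext (Equiv.ext fun j => (hd (.inr j)).elim fun c e =>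
      Sum.inr_injective (sg ((pm_single h2 σ (.inr j)).symm.trans e))), map_one]
    exact one_mem _)
  have a2 : Function.Injective (pm h2) := (injective_iff_map_eq_one _).2 fun σ e => Subtype.ext (Equiv.ext fun j =>
    Sum.inr_injective (sg (c := 1) ((pm_single h2 σ (.inr j)).symm.trans (by rw [e, one_smul]; rfl))))
  have a3 := H19.card_sup_mul_inf (A := Dg F) (B := (pm h2).range) (by
    have : ∀ σ, ∀ g ∈ Dg F, pm h2 σ * g * (pm h2 σ)⁻¹ ∈ Dg F := fun σ g hg i => by
      obtain ⟨c, e⟩ := hg ((Equiv.refl Unit).sumCongr σ⁻¹.1 i)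
      refine ⟨c, ?_⟩
      rw [← map_inv, orth_mul_apply, orth_mul_apply, pm_single, e, map_smul, ← pm_single h2, ← orth_mul_apply, ← map_mul,
        mul_inv_cancel, map_one, orth_one_apply]
    rintro _ ⟨σ, rfl⟩ g
    exact ⟨this σ g, fun hg => by simpa [mul_assoc] using this σ⁻¹ _ hg⟩)
  obtain ⟨k, hk⟩ := card_dvd_of_injective _ ti
  rw [a1, card_bot, mul_one, ← Nat.card_congr (MonoidHom.ofInjective a2).toEquiv, card_Wy, hk, Nat.card_prod, Nat.card_fun,
    Nat.card_units, Nat.card_fin, Nat.card_eq_fintype_card (α := ℤˣ), Fintype.card_units_int, Nat.card_eq_fintype_card (α := F)] at a3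
  have a4 : ¬ 2 ∣ (Dg F ⊔ (pm h2).range).index := by
    rintro ⟨l, hl⟩
    have := (Dg F ⊔ (pm h2).range).card_mul_index
    rw [a3, hl, ← Nat.card_congr (H11.isometryEquivIsom (Q F)).toEquiv, H11.coe_qOdd, H11.card_O_odd h2] at this
    obtain ⟨m, hm⟩ : ∃ m, Fintype.card F = 4 * m + 1 := ⟨Fintype.card F / 4, by omega⟩
    have m0 : 0 < m := by have := Fintype.one_lt_card (α := F); omega
    simp only [hm, Finset.prod_range_succ, Finset.prod_range_zero] at this
    have e : 2 * (3 * k * l) = (4 * m + 1) ^ 9 * (2 * m + 1) ^ 3 * (2 * (4 * m ^ 2 + 2 * m) + 1) *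
        ((4 * m + 1) ^ 2 * (2 * (8 * m ^ 2 + 4 * m + 1)) + 1) := by
      refine Nat.eq_of_mul_eq_mul_left (show 0 < 2048 * m ^ 3 by positivity) ?_
      zify [Nat.one_le_pow _ _ (Nat.succ_pos (4 * m)), Nat.le_add_left 1] at this ⊢
      linear_combination this
    refine (Nat.not_even_iff_odd.2 ?_) (e ▸ even_two_mul _)
    exact ((Odd.pow ⟨2 * m, by ring⟩).mul (odd_two_mul_add_one m).pow |>.mul (odd_two_mul_add_one _)).mul
      (((even_two_mul _).mul_left _).add_one)
  obtain ⟨P⟩ : Nonempty (Sylow 2 ↥(Dg F ⊔ (pm h2).range)) := inferInstance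
  let P' := (P.2.map (Subgroup.subtype _)).toSylow (by
    rw [index_map_subtype]; exact Nat.prime_two.not_dvd_mul P.not_dvd_index a4)
  obtain ⟨T, hT⟩ := (hG.of_surjective _ (R.ρ.codRestrict _ R.iso).rangeRestrict_surjective).exists_le_sylow
  obtain ⟨h, hh⟩ := MulAction.exists_smul_eq (orth (Q F)) P' T
  have l : Dg F ⊔ (pm h2).range ≤ Mo F := sup_le (fun g hg => ⟨fun j => ⟨j, hg _⟩, fun j => ⟨j, inv_mem hg _⟩⟩) (by
    rintro _ ⟨σ, rfl⟩
    exact ⟨fun j => ⟨σ.1 j, 1, by rw [pm_single, one_smul]; rfl⟩, fun j => ⟨σ⁻¹.1 j, 1, by rw [← map_inv, pm_single, one_smul]; rfl⟩⟩)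
  refine ⟨h, h.2, fun g => ?_⟩
  obtain ⟨x, hx, e⟩ := (hh ▸ hT) ⟨g, rfl⟩
  have := (l (map_subtype_le _ hx)).1
  rwa [show x.1 = h⁻¹ * R.ρ g * h by rw [show R.ρ g = h * x * h⁻¹ from (congrArg Subtype.val e).symm]; simp [mul_assoc]] at this

end H11.O7
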