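/-
S5815: spinors, and normal subgroups of `G₂`.
-/
import Cfsg.Agent.H11.O7a
import Cfsg.Agent.H11.O7d
import Cfsg.Agent.H11.LS3
import Cfsg.Agent.H11.SL
import Cfsg.Agent.H8.EAG2b
import Cfsg.Agent.S0205

set_option autoImplicit false

open Module QuadraticMap H12 Cfsg Subgroup H26.O7 H8 Cfsg.Lie
open scoped MatrixGroups commutatorElement
namespace H11.O7
universe u v
attribute [-simp] H11.coe_qOdd

section
variable {K : Type u} [Field K]

theorem ex_ann {s : S K} (h : Nm K s = 0) : LinearMap.ker (L.flip s : V K →ₗ[K] S K) ≠ ⊥ := fun e => by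
  have a := LinearMap.finrank_range_add_finrank_ker (L.flip s : V K →ₗ[K] S K)
  have b := CForm.Nondeg.finrank_add_finrank_perp (C := CForm.ofQuad (Nm K)) Nm_nd (LinearMap.range (L.flip s : V K →ₗ[K] S K))
  have c := Submodule.finrank_mono (show LinearMap.range (L.flip s : V K →ₗ[K] S K) ≤ (CForm.ofQuad (Nm K)).perp
      (LinearMap.range (L.flip s : V K →ₗ[K] S K)) by
    rintro _ ⟨x, rfl⟩ _ ⟨y, rfl⟩
    exact (polar_LL y x s).trans (by rw [h, mul_zero]))
  rw [e, finrank_bot, finrank_V] at a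
  rw [finrank_S] at b
  omega

theorem L_inj' (h2 : (2 : K) ≠ 0) {s : S K} (h : Nm K s ≠ 0) {x : V K} (e : L x s = 0) : x = 0 := Q_nd h2 x fun y => by
  have := polar_LL x y s
  rw [e, polar_zero_left, eq_comm, mul_eq_zero, neg_eq_zero] at this
  exact this.resolve_right h

theorem dec (h2 : (2 : K) ≠ 0) {s : S K} (h : Nm K s ≠ 0) (t : S K) : ∃ (c : K) (x : V K), c • s + L x s = t := by
  let f : (K × V K) →ₗ[K] S K := (LinearMap.toSpanSingleton K _ s).coprod (L.flip s)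
  obtain ⟨y, hy⟩ := (LinearMap.injective_iff_surjective_of_finrank_eq_finrank (f := f) (by simp)).1
    ((injective_iff_map_eq_zero _).2 fun y (e : y.1 • s + L y.2 s = 0) => by
      have := congrArg (polar (Nm K) · s) e
      simp only [polar_add_left, polar_L_self, polar_smul_left, polar_self', polar_zero_left, add_zero, smul_eq_mul,
        mul_eq_zero, h2, h, or_false] at this
      rw [this, zero_smul, zero_add] at e
      exact Prod.ext this (L_inj' h2 h e)) t
  exact ⟨y.1, y.2, hy⟩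

theorem Nm_one' : Nm K (oneZ K) ≠ 0 := by rw [Nm_one]; exact one_ne_zero

theorem lift_orth {g : Au K (V K)} {b : Au K (S K)} (h : Lift g b) : g ∈ orth (Q K) := mem_orth.2 fun x => by
  have := h.2 (L x (oneZ K))
  rw [h.1, Nm_L, Nm_L, h.2, Nm_one] at this
  simpa using this

theorem Sim.cj {γ g : Au K (V K)} {b β : Au K (S K)} {μ : Kˣ} (h : Sim γ b μ) (l : Lift g β) :
    Lift (γ * g * γ⁻¹) (b * β * b⁻¹) :=
  ⟨fun x s => by
    change b (β (b⁻¹ _)) = L (γ (g (γ⁻¹ x))) (b (β (b⁻¹ s)))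
    rw [h.inv.1, l.1, h.1, map_smul g, map_smul γ, smul_smul, map_inv, Units.mul_inv, one_smul],
   fun s => by
    change Nm K (b (β (b⁻¹ s))) = _
    rw [h.2, l.2, h.inv.2, Units.mul_inv_cancel_left]⟩

theorem same_line {G : Type v} [Group G] {R : Rp K G} (hi : R.Irr) (hp : commutator G = ⊤) {s s' : S K} (h0 : Nm K s ≠ 0)
    (h : ∀ g, g ∈ R.Fx s) (h' : ∀ g, g ∈ R.Fx s') : ∃ c : K, s' = c • s := by
  obtain ⟨c, x, rfl⟩ := dec R.two h0 s'
  have k : ∀ g, ∃ b, Lift (R.ρ g) b ∧ b s = s ∧ ∃ ε : K, ε * ε = 1 ∧ b (c • s + L x s) = ε • (c • s + L x s) := fun g => by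
    obtain ⟨b, b1, b2⟩ := h g
    obtain ⟨b', b3, b4⟩ := h' g
    rcases lift_uniq R.two b3 b1 with e | e
    exacts [⟨b, b1, b2, 1, one_mul _, by rw [e, b4, one_smul]⟩,
      ⟨b, b1, b2, -1, by simp, by rw [e, neg_one_smul]; exact congrArg Neg.neg b4⟩]
  have : commutator G ≤ R.St x := commutator_le.2 fun g _ g' _ => by
    obtain ⟨b, b1, b2, ε, b3, b4⟩ := k g
    obtain ⟨b', c1, c2, ε', c3, c4⟩ := k g'
    have i : ∀ {b : Au K (S K)} {t : S K} {ε : K}, ε * ε = 1 → b t = ε • t → b⁻¹ t = ε • t := fun {b t ε} e h =>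
      b.injective (by rw [map_smul, h, smul_smul, e, one_smul]; exact b.apply_symm_apply t)
    have l := ((b1.mul c1).mul b1.inv).mul c1.inv
    have e1 : (b * b' * b⁻¹ * b'⁻¹) s = s := by
      simp only [LinearEquiv.mul_apply, i (one_mul 1) (b2.trans (one_smul _ _).symm), i (one_mul 1) (c2.trans (one_smul _ _).symm),
        one_smul, b2, c2]
    have e2 : (b * b' * b⁻¹ * b'⁻¹) (c • s + L x s) = c • s + L x s := by
      simp only [LinearEquiv.mul_apply, i b3 b4, i c3 c4, map_smul, b4, c4, smul_smul]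
      rw [show ε' * (ε * (ε' * ε)) = 1 by linear_combination ε' * ε' * b3 + c3, one_smul]
    rw [map_add, map_smul, l.1, e1, add_right_inj, ← sub_eq_zero, ← LinearMap.sub_apply, ← map_sub] at e2
    rw [Rp.mem_St, commutatorElement_def, map_mul, map_mul, map_mul, map_inv, map_inv]
    exact sub_eq_zero.1 (L_inj' R.two h0 e2)
  rw [hi.fixed fun g => this (hp ▸ mem_top g)]
  exact ⟨c, by simp⟩

theorem zorn_sq (x : S K) : zornMul x x = (x 0 + x 7) • x - Nm K x • oneZ K := by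
  apply fin8_ext <;> simp [zornMul_eq, oneZ, Nm_apply] <;> ring

theorem aut_inv (g : autZ K) (x : S K) : g.1 x 0 + g.1 x 7 = x 0 + x 7 ∧ Nm K (g.1 x) = Nm K x := by
  have h := autZ_mul g x x
  rw [zorn_sq, zorn_sq, map_sub, map_smul, map_smul, autZ_one] at h
  by_cases e : g.1 x 0 + g.1 x 7 = x 0 + x 7
  · exact ⟨e, by simpa [e, oneZ] using congrFun h.symm 0⟩
  have : g.1 x = ((Nm K (g.1 x) - Nm K x) / (g.1 x 0 + g.1 x 7 - (x 0 + x 7))) • oneZ K := by
    rw [div_eq_inv_mul, mul_smul, eq_inv_smul_iff₀ (sub_ne_zero.2 e)]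
    linear_combination (norm := module) -h
  rw [← autZ_one g, ← map_smul, g.1.injective.eq_iff] at this
  rw [this, map_smul, autZ_one]
  exact ⟨rfl, rfl⟩

theorem ex_Φ : ∃ Φ : autZ K →* Au K (V K), ∀ θ, Lift (Φ θ) θ.1 := by
  have : ∀ θ : autZ K, ∃ g, Lift g θ.1 := fun θ => by
    let p : S K →ₗ[K] V K := LinearMap.funLeft K K (Sum.elim (fun _ => 0) (Sum.elim ![1, 2, 3] ![4, 5, 6]))
    let f := p ∘ₗ θ.1.toLinearMap ∘ₗ L.flip (oneZ K)
    have e : ∀ x, emb (f x) = θ.1 (emb x) := fun x => by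
      have := (aut_inv θ (emb x)).1
      rw [show f x = p (θ.1 (L x (oneZ K))) from rfl, L_one]
      exact fin8_ext rfl rfl rfl rfl rfl rfl rfl (by change -θ.1 (emb x) 0 = _; simp [emb] at this ⊢; linear_combination -this)
    exact ⟨LinearEquiv.ofInjectiveEndo f fun x y h => emb_inj (θ.1.injective (by rw [← e, ← e, h])),
      fun x s => (autZ_mul θ _ _).trans (by rw [← e]; rfl), fun s => (aut_inv θ s).2⟩
  choose Φ h using this
  exact ⟨MonoidHom.mk' Φ fun a b => (h (a * b)).eq ((h a).mul (h b)), h⟩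

theorem mem_autZ (h2 : (2 : K) ≠ 0) {g : Au K (V K)} {b : Au K (S K)} (h : Lift g b) (e : b (oneZ K) = oneZ K) : b ∈ autZ K :=
  fun s t => by
    have : ∀ (c : K) x t, zornMul (c • oneZ K + L x (oneZ K)) t = c • t + L x t := fun c x t => by
      rw [L_one, H26.O7.L_apply]
      apply fin8_ext <;> simp only [zornMul_eq, oneZ, Pi.add_apply, Pi.smul_apply, smul_eq_mul, Matrix.cons_val] <;> ring
    obtain ⟨c, x, rfl⟩ := dec h2 Nm_one' s
    rw [this, map_add, map_add, map_smul, map_smul, h.1, h.1, e, this]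

/-- long root elements -/
def trL (u w : Fin 3 → K) : S K →ₗ[K] S K where
  toFun x := ![x 0, x 1 + (w 0 * x 1 + w 1 * x 2 + w 2 * x 3) * u 0, x 2 + (w 0 * x 1 + w 1 * x 2 + w 2 * x 3) * u 1,
    x 3 + (w 0 * x 1 + w 1 * x 2 + w 2 * x 3) * u 2, x 4 - (u 0 * x 4 + u 1 * x 5 + u 2 * x 6) * w 0,
    x 5 - (u 0 * x 4 + u 1 * x 5 + u 2 * x 6) * w 1, x 6 - (u 0 * x 4 + u 1 * x 5 + u 2 * x 6) * w 2, x 7]
  map_add' x y := by apply fin8_ext <;> simp <;> ring
  map_smul' c x := by apply fin8_ext <;> simp <;> ring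

theorem trL_apply (u w : Fin 3 → K) (x : S K) : trL u w x =
  ![x 0, x 1 + (w 0 * x 1 + w 1 * x 2 + w 2 * x 3) * u 0, x 2 + (w 0 * x 1 + w 1 * x 2 + w 2 * x 3) * u 1,
    x 3 + (w 0 * x 1 + w 1 * x 2 + w 2 * x 3) * u 2, x 4 - (u 0 * x 4 + u 1 * x 5 + u 2 * x 6) * w 0,
    x 5 - (u 0 * x 4 + u 1 * x 5 + u 2 * x 6) * w 1, x 6 - (u 0 * x 4 + u 1 * x 5 + u 2 * x 6) * w 2, x 7] := rfl

theorem exists_tr (u w : Fin 3 → K) (h : u 0 * w 0 + u 1 * w 1 + u 2 * w 2 = 0) :
    ∃ g : MulAction.stabilizer (autZ K) (e0 K), ∀ x, g.1.1 x = trL u w x :=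
  have k : ∀ u : Fin 3 → K, u 0 * w 0 + u 1 * w 1 + u 2 * w 2 = 0 → ∀ x, trL u w (trL (-u) w x) = x := fun u h x => by
    apply fin8_ext <;> simp [trL_apply] <;> grind
  ⟨⟨⟨LinearEquiv.ofLinear (trL u w) (trL (-u) w) (LinearMap.ext (k u h))
    (LinearMap.ext fun x => by simpa using k (-u) (by simp; grind) x), fun x y => by
    change trL u w _ = zornMul (trL u w x) (trL u w y)
    apply fin8_ext <;> simp [trL_apply, zornMul_eq] <;> grind⟩, by
    change trL u w _ = _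
    apply fin8_ext <;> simp [trL_apply, e0]⟩, fun _ => rfl⟩

theorem stabSL_surj : Function.Surjective (stabSL K) := MonoidHom.range_eq_top.1 (sl_subgroup_eq_top _ fun i j ij a => by
  obtain ⟨g, hg⟩ := exists_tr (Pi.single i a) (Pi.single j 1) (by
    fin_cases i <;> fin_cases j <;> simp at ij ⊢)
  refine ⟨g, Subtype.ext (Matrix.ext fun k l => ?_)⟩
  change pr3 (g.1.1 (in3 _)) k = _
  rw [hg]
  fin_cases i <;> fin_cases j <;> simp at ij <;> fin_cases k <;> fin_cases l <;>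
    simp [trL_apply, in3_apply, pr3_apply, Matrix.SpecialLinearGroup.transvection, Matrix.transvection])

theorem tr_xv (v u w : Fin 3 → K) (e : u 0 * w 0 + u 1 * w 1 + u 2 * w 2 = 0) (x : S K) :
    trL u w (xvL v x) = xvL (v + (w 0 * v 0 + w 1 * v 1 + w 2 * v 2) • u) (trL u w x) := by
  apply fin8_ext <;> simp only [trL_apply, xvL_apply, Pi.add_apply, Pi.smul_apply, smul_eq_mul, Matrix.cons_val] <;> grind

theorem xv_mem (h2 : (2 : K) ≠ 0) {N : Subgroup (autZ K)} [hN : N.Normal] (h : MulAction.stabilizer _ (e0 K) ≤ N)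
    (v : Fin 3 → K) : xv v ∈ N := by
  let m := QuotientGroup.mk' N
  have a : ∀ v u w : Fin 3 → K, u 0 * w 0 + u 1 * w 1 + u 2 * w 2 = 0 →
      m (xv v) = m (xv (v + (w 0 * v 0 + w 1 * v 1 + w 2 * v 2) • u)) := fun v u w e => by
    obtain ⟨g, hg⟩ := exists_tr u w e
    have : g.1 * xv v = xv (v + (w 0 * v 0 + w 1 * v 1 + w 2 * v 2) • u) * g.1 := Subtype.ext (LinearEquiv.ext fun x =>
      (hg _).trans ((tr_xv v u w e x).trans (congrArg _ (hg _).symm)))
    simpa [show m g.1 = 1 from (QuotientGroup.eq_one_iff _).2 (h g.2)] using congrArg m this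
  have b : ∀ v : Fin 3 → K, v 0 ≠ 0 → m (xv v) = m (xv ![0, 1, 0]) := fun v v0 => by
    rw [a v ![0, (1 - v 1) / v 0, -v 2 / v 0] ![1, 0, 0] (by simp), a _ ![-v 0, 0, 0] ![0, 1, 0] (by simp)]
    congr 2
    funext i; fin_cases i <;> simp [field, Matrix.vecHead, Matrix.vecTail]
  have c : m (xv ![0, 1, 0]) = 1 := by
    have : xv ![2, 0, 0] = xv ![1, 0, 0] * xv (F := K) ![1, 0, 0] := Subtype.ext (LinearEquiv.ext fun x => by
      change xvL _ _ = xvL _ (xvL _ _)
      apply fin8_ext <;> simp only [xvL_apply, Matrix.cons_val] <;> ring)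
    have := congrArg m this
    rwa [map_mul, b ![2, 0, 0] h2, b ![1, 0, 0] one_ne_zero, left_eq_mul] at this
  refine (QuotientGroup.eq_one_iff _).1 (show m _ = 1 from ?_)
  by_cases v0 : v 0 = 0
  · by_cases v1 : v 1 = 0
    · by_cases v2 : v 2 = 0
      · rw [show xv v = 1 from Subtype.ext (LinearEquiv.ext fun x => by
          change xvL _ _ = x
          apply fin8_ext <;> simp [xvL_apply, v0, v1, v2]), map_one]
      · rw [a v ![1, 0, 0] ![0, 0, 1] (by simp), b _ (by simpa [v0]), c]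
    · rw [a v ![1, 0, 0] ![0, 1, 0] (by simp), b _ (by simpa [v0]), c]
  · rw [b v v0, c]

theorem orb_aux {x : S K} (h0 : x 0 = 1) (h7 : x 7 = 0) (h : x 1 * x 4 + x 2 * x 5 + x 3 * x 6 = 0) :
    swL (xvL ![-x 4, -x 5, -x 6] (swL (xvL ![-x 1, -x 2, -x 3] x))) = e0 K := by
  apply fin8_ext <;> simp only [xvL_apply, swL_apply, e0, Matrix.cons_val] <;> grind

theorem top_of_stab (h2 : (2 : K) ≠ 0) {N : Subgroup (autZ K)} [hN : N.Normal] (h : MulAction.stabilizer _ (e0 K) ≤ N) :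
    N = ⊤ := by
  have d := xv_mem h2 h
  have ss : sw K * sw K = 1 := Subtype.ext (LinearEquiv.ext swL_swL)
  have e : sw K ∈ N := by
    have := hN.conj_mem _ (d ![1, 0, 0]) (sw K)
    rw [inv_eq_of_mul_eq_one_right ss] at this
    refine (N.mul_mem_cancel_right (mul_mem (mul_mem (d ![1, 0, 0]) this) (d ![1, 0, 0]))).1
      (h (MulAction.mem_stabilizer_iff.2 ?_))
    change swL (xvL _ (swL (xvL _ (swL (xvL _ (e0 K)))))) = e0 K
    apply fin8_ext <;> simp [xvL_apply, swL_apply, e0]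
  have f : ∀ x : S K, Idem x → x 7 = 0 → ∃ g ∈ N, g • x = e0 K := fun x hx h7 =>
    ⟨_, mul_mem (mul_mem (mul_mem e (d ![-x 4, -x 5, -x 6])) e) (d ![-x 1, -x 2, -x 3]),
      orb_aux (by simpa [h7] using hx.1) h7 (by simpa [h7] using hx.2.symm)⟩
  have f' : ∀ x : S K, Idem x → ∀ n ∈ N, (n • x) 7 = 0 → ∃ g ∈ N, g • x = e0 K := fun x hx n hn h7 =>
    let ⟨g, hg, e⟩ := f _ (idem_smul n hx) h7
    ⟨g * n, mul_mem hg hn, (mul_smul _ _ _).trans e⟩
  refine eq_top_iff.2 fun g _ => ?_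
  obtain ⟨n, hn, k⟩ : ∃ n ∈ N, n • g • e0 K = e0 K := by
    have hx := idem_smul g (x := e0 K) (by simp [Idem, e0])
    generalize g • e0 K = x at hx
    by_cases h4 : x 4 = 0
    · by_cases h5 : x 5 = 0
      · by_cases h6 : x 6 = 0
        · rcases mul_eq_zero.1 (hx.2.trans (by simp [h4, h5, h6])) with h0 | h0
          exacts [f' x hx _ e h0, f x hx h0]
        · exact f' x hx _ (d ![0, 0, -x 7 / x 6]) (by change xvL _ x 7 = 0; simp [xvL_apply, field])
      · exact f' x hx _ (d ![0, -x 7 / x 5, 0]) (by change xvL _ x 7 = 0; simp [xvL_apply, field])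
    · exact f' x hx _ (d ![-x 7 / x 4, 0, 0]) (by change xvL _ x 7 = 0; simp [xvL_apply, field])
  exact (N.mul_mem_cancel_left hn).1 (h ((mul_smul _ _ _).trans k))

theorem top_of_inv [Finite K] (h2 : (2 : K) ≠ 0) {N : Subgroup (autZ K)} (hN : N.Normal) {t : autZ K} (ht : t ∈ N)
    (tt : t * t = 1) (t1 : t ≠ 1) : N = ⊤ := by
  obtain ⟨Φ, hΦ⟩ := ex_Φ (K := K)
  have l := hΦ t
  have gg : ∀ x, Φ t (Φ t x) = x := fun x => by rw [← LinearEquiv.mul_apply, ← map_mul, tt, map_one]; rfl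
  have r : finrank K (Ng (Φ t)) ≤ 4 := by
    by_cases e : Ng (Φ t) = ⊥
    · rw [e, finrank_bot]; omega
    obtain ⟨a, ha, a0⟩ := exists_nonsingular (nd_Ng' h2 (Q_nd h2) (lift_orth l) gg) e
    have k : ∀ (f : V K →ₗ[K] S K) (U : Submodule K (S K)), Function.Injective f → (∀ x ∈ Ng (Φ t), f x ∈ U) →
        finrank K (Ng (Φ t)) ≤ finrank K U := fun f U i h =>
      (Submodule.equivMapOfInjective f i _).finrank_eq.le.trans (Submodule.finrank_mono (Submodule.map_le_iff_le_comap.2 h))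
    have i : Function.Injective (L.flip (oneZ K) : V K →ₗ[K] S K) := (injective_iff_map_eq_zero _).2 fun x => L_inj' h2 Nm_one'
    have k1 := k _ (Ng t.1) i fun x hx => mem_Ng.2 (by rw [LinearMap.flip_apply, l.1, autZ_one, mem_Ng.1 hx]; simp)
    have k2 := k (L a ∘ₗ L.flip (oneZ K)) (fix t.1) ((L_inj a0).comp i) fun x hx => mem_fix.2 (by
      rw [LinearMap.comp_apply, LinearMap.flip_apply, l.1, l.1, autZ_one, mem_Ng.1 hx, mem_Ng.1 ha]; simp)
    have := (add_le_add (k1.trans (finrank_Ng (a := t.1) h2 fun x => LinearEquiv.congr_fun (congrArg Subtype.val tt) x).le)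
      k2).trans ((rk_add_fix t.1).trans finrank_S).le
    omega
  have := rk_add_fix (Φ t)
  rw [finrank_V, ← finrank_Ng h2 gg] at this
  obtain ⟨x, hx, q⟩ := exists_Q_eq_of_nondegOn (Q_nd h2) (nd_fix' h2 (Q_nd h2) (lift_orth l) gg) (by omega) one_ne_zero
  obtain ⟨g, hg⟩ := (mem_orbit_iff_idem (x := (2 : K)⁻¹ • (oneZ K + L x (oneZ K)))).2 (by
    rw [L_one, Q_apply] at *
    constructor <;> simp [oneZ, emb, field]
    · ring
    · linear_combination -q)
  have m : g⁻¹ * t * g ∈ MulAction.stabilizer _ (e0 K) := by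
    rw [MulAction.mem_stabilizer_iff, mul_smul, mul_smul, inv_smul_eq_iff, show g • e0 K = _ from hg]
    change t.1 _ = _
    rw [map_smul, map_add, l.1, autZ_one, mem_fix.1 hx]
  have := (hN.subgroupOf (MulAction.stabilizer _ (e0 K))).map _ stabSL_surj
  refine top_of_stab h2 fun y hy => ?_
  rcases LS.le_center_or (sl_commutator_eq_top (by simp)) (psl_simple (by simp)) ((N.subgroupOf _).map (stabSL K)) with c | c
  · obtain ⟨r, r3, e⟩ := Matrix.SpecialLinearGroup.mem_center_iff.1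
      (c (mem_map_of_mem _ (show ⟨_, m⟩ ∈ N.subgroupOf _ from hN.conj_mem' _ ht g)))
    have e2 : (⟨_, m⟩ : MulAction.stabilizer _ (e0 K)) * ⟨_, m⟩ = 1 := Subtype.ext (by simp [mul_assoc, ← mul_assoc t, tt])
    have := congrArg (fun z => (stabSL K z).1 0 0) e2
    simp only [map_mul, map_one, Matrix.SpecialLinearGroup.coe_mul, ← e] at this
    have r1 : r = 1 := odd_one (n := 3) (by decide) r3 (by simpa using this)
    have := congrArg Subtype.val (stabSL_inj (Subtype.ext (e.symm.trans (by simp [r1] : _ = (stabSL K 1).1))))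
    exact (t1 (by simpa [mul_assoc, inv_mul_eq_iff_eq_mul] using this)).elim
  · obtain ⟨z, hz, e⟩ := c.ge (mem_top (stabSL K ⟨y, hy⟩))
    rwa [stabSL_inj e] at hz
end

end H11.O7
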