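/-
S5815, pieces G2S KL1 KL2: the stabiliser of a spinor is `G₂`.
-/
import Cfsg.Agent.H11.O7e

set_option autoImplicit false

open Module QuadraticMap H12 Cfsg Subgroup H26.O7 H8 Cfsg.Lie Matrix
open scoped MatrixGroups commutatorElement
namespace H11.O7
universe u v
attribute [-simp] H11.coe_qOdd

theorem ex_inv {G : Type*} [Group G] [Finite G] (hp : commutator G = ⊤) [Nontrivial G] : ∃ t : G, t * t = 1 ∧ t ≠ 1 := by
  have := Fact.mk Nat.prime_two
  obtain ⟨t, ht⟩ := exists_prime_orderOf_dvd_card' (G := G) 2 (even_iff_two_dvd.1 (Nat.not_odd_iff_even.1 fun e => by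
    have := Cfsg.Agent.S0205.result e
    exact (Group.IsSolvable.commutator_lt_top_of_nontrivial G).ne hp))
  exact ⟨t, by rw [← pow_two, ← ht, pow_orderOf_eq_one], fun e => by simp [e] at ht⟩

theorem two_of_odd {F : Type*} [Field F] [Fintype F] (h : Odd (Fintype.card F)) : (2 : F) ≠ 0 := fun e => by
  have : CharP F 2 := (CharP.charP_iff_prime_eq_zero Nat.prime_two).2 e
  exact Nat.not_odd_iff.2 (FiniteField.even_card_iff_char_two.1 (ringChar.eq F 2)) h

theorem g2s : G2S.{u} := fun F _ _ h => by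
  refine ⟨?_, fun N hN t ht => top_of_inv (two_of_odd h) hN ht⟩
  let f := (MulAction.stabilizer (autZ F) (e0 F)).subtype.comp (MulEquiv.ofBijective _ ⟨stabSL_inj, stabSL_surj⟩).symm.toMonoidHom
  refine top_of_stab (two_of_odd h) fun g hg => ?_
  have : stabSL F ⟨g, hg⟩ ∈ (commutator (autZ F)).comap f := map_le_iff_le_comap.1
    (by rw [map_commutator_eq]; exact commutator_mono le_top le_top) ((sl_commutator_eq_top (by simp)).ge (mem_top _))
  rwa [mem_comap, show f (stabSL F ⟨g, hg⟩) = g from congrArg Subtype.val (MulEquiv.symm_apply_apply _ (⟨g, hg⟩ : MulAction.stabilizer _ _))] at this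

theorem kl1' {F K : Type u} [Field F] [Field K] [Algebra F K] {G : Type v} [Group G] (R : Rp F G) (R' : Rp K G)
    (hb : R.Bc R') (hp : commutator G = ⊤) (hi : R'.Irr) (hr : R'.Red) : ∃ s, Nm F s ≠ 0 ∧ ∀ g, g ∈ R.Fx s := by
  obtain ⟨s, s0, hs⟩ := hr
  let a : F →+* K := algebraMap F K
  have sg : ∀ {κ : Type} [DecidableEq κ] (i : κ), (Pi.single i 1 : κ → K) = fun j => a ((Pi.single i 1 : κ → F) j) :=
    fun i => funext fun j => by simp [Pi.single_apply]
  have aL : ∀ x (t : S F), L (fun i => a (x i)) (fun i => a (t i)) = fun i => a (L x t i) := fun x t => by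
    refine fin8_ext ?_ ?_ ?_ ?_ ?_ ?_ ?_ ?_ <;> simp only [H26.O7.L_apply, zm0, zm1, zm2, zm3, zm4, zm5, zm6, zm7,
      map_add, map_sub, map_mul, map_neg]
  have aN : ∀ t : S F, Nm K (fun i => a (t i)) = a (Nm F t) := fun t => by simp [Nm_apply]
  have k : ∀ g, ∃ b, Lift (R.ρ g) b ∧ ∃ B : S K →ₗ[K] S K, (∀ x t, B (L x t) = L (R'.ρ g x) (B t)) ∧
      (∀ t, B (fun i => a (t i)) = fun i => a (b t i)) ∧ B s = s ∧
      ∀ (r : K →ₗ[F] F) (t : S K), b (r ∘ t) = r ∘ B t := fun g => by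
    have k : ∀ b, Lift (R.ρ g) b → ∃ B : S K →ₗ[K] S K, (∀ x t, B (L x t) = L (R'.ρ g x) (B t)) ∧
        (∀ t, B (fun i => a (t i)) = fun i => a (b t i)) ∧ ∀ (r : K →ₗ[F] F) (t : S K), b (r ∘ t) = r ∘ B t := fun b l => by
      let B := toLin' ((LinearMap.toMatrix' (b : S F →ₗ[F] S F)).map a)
      have e : ∀ t, B (fun i => a (t i)) = fun i => a (b t i) := fun t => funext fun i =>
        (a.map_mulVec _ t i).symm.trans (by rw [LinearMap.toMatrix'_mulVec]; rfl)
      refine ⟨B, fun x t => LinearMap.congr_fun₂ (LinearMap.ext_basis (Pi.basisFun K ι) (Pi.basisFun K (Fin 8)) fun i j => ?_ :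
        L.compr₂ B = L.compl₁₂ (R'.ρ g : V K →ₗ[K] V K) B) x t, e, fun r t => funext fun i => ?_⟩
      · change B (L _ _) = L (R'.ρ g _) (B _)
        rw [Pi.basisFun_apply, Pi.basisFun_apply, sg, sg, aL, e, e, hb, aL, l.1]
      · rw [← LinearEquiv.coe_coe, ← LinearMap.toMatrix'_mulVec]
        simp [B, mulVec, dotProduct, a, ← Algebra.smul_def]
    obtain ⟨b, l⟩ := lift_om R.two ((mem_OmegaV (g := ⟨R.ρ g, R.iso g⟩)).2 (map_le_iff_le_comap.1
      (show (commutator G).map (R.ρ.codRestrict _ R.iso) ≤ commutator _ by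
        rw [map_commutator_eq]; exact commutator_mono le_top le_top) (hp.ge (mem_top g))))
    obtain ⟨β, l', e⟩ := hs g
    obtain ⟨B, b1, b2, -⟩ := k b l
    obtain ⟨c, hc⟩ := comm_scalar R'.two ((β⁻¹ : Au K (S K)) ∘ₗ B) fun x t => β.injective (by
      rw [l'.1]; exact (β.apply_symm_apply _).trans ((b1 x t).trans (congrArg _ (β.apply_symm_apply _).symm)))
    replace hc : ∀ t, B t = c • β t := fun t => by rw [← map_smul, ← hc]; exact (β.apply_symm_apply _).symm
    have := aN (b (oneZ F))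
    rw [← b2, hc, Q_smul, l'.2, aN, l.2, Nm_one, map_one, mul_one, mul_self_eq_one_iff] at this
    have u : ∀ (b' : Au F (S F)) (B' : S K →ₗ[K] S K), (∀ t : S F, B' (fun i => a (t i)) = fun i => a (b' t i)) → ∀ ε : F, (∀ t, b' t = ε • b t) → B' = a ε • B :=
      fun b' B' h ε e => (Pi.basisFun K _).ext fun i => by
        rw [Pi.basisFun_apply, sg, LinearMap.smul_apply, h, b2, e]; ext; simp
    rcases this with rfl | rfl
    · obtain ⟨B', c1, c2, c3⟩ := k b l
      exact ⟨b, l, B', c1, c2, by rw [u b B' c2 1 (by simp), LinearMap.smul_apply, hc, e]; simp, c3⟩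
    · obtain ⟨B', c1, c2, c3⟩ := k _ l.neg
      exact ⟨_, l.neg, B', c1, c2, by rw [u _ B' c2 (-1) (by simp), LinearMap.smul_apply, hc, e]; simp, c3⟩
  obtain ⟨i, hi0⟩ := Function.ne_iff.1 s0
  obtain ⟨r, hr⟩ := Module.Projective.exists_dual_ne_zero F hi0
  refine ⟨r ∘ s, fun n => ?_, fun g => let ⟨b, l, B, _, _, e, h⟩ := k g; ⟨b, l, by rw [h, e]⟩⟩
  have := (hi _ fun g x hx => ?_).resolve_left (ex_ann (s := fun i => a (r (s i))) ((aN _).trans (by rw [← map_zero a, ← n]; rfl)))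
  · have := L_inj (K := K) (u := Pi.single (.inl ()) 1) (by simp [Q_apply]) (a₁ := fun i => a (r (s i)))
      ((this.ge trivial).trans (map_zero _).symm)
    exact hr (a.injective ((congrFun this i).trans (map_zero a).symm))
  obtain ⟨b, l, B, b1, b2, e, h⟩ := k g
  have := b1 x fun i => a (r (s i))
  rw [show L x (fun i => a (r (s i))) = 0 from hx, map_zero, show B (fun i => a (r (s i))) = _ from b2 (r ∘ s), h, e] at this
  exact this.symm

theorem kl1 : KL1.{u} := fun _ _ _ _ _ => kl1'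

theorem kl2 : KL2.{u} := by
  intro F _ _ H P h s s0 hs
  have h2 := h.two
  obtain ⟨hi, hS, hn, -⟩ := (bc.{u, u} F F).2 H P h
  replace hi := hi h.rp fun _ _ => rfl
  have pf : commutator P = ⊤ := map_injective P.subtype_injective (by
    rw [map_subtype_commutator, h.core.perfect, ← MonoidHom.range_eq_map, range_subtype])
  obtain ⟨γ, hγ, b, μ, c, hb, c0, e⟩ : ∃ γ ∈ orth (Q F), ∃ b μ, ∃ c : F, Sim γ b μ ∧ c ≠ 0 ∧ b (oneZ F) = c • s := by
    obtain ⟨c, x, rfl⟩ := dec h2 Nm_one' s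
    obtain ⟨a, ha, a0⟩ : ∃ a ∈ LinearMap.ker (polarBilin (Q F) x), Q F a ≠ 0 := by
      by_contra! k
      have := two_mul_finrank_le_of_singular (Q_nd h2) k
      have := (polarBilin (Q F) x).finrank_range_add_finrank_ker
      have := (LinearMap.range (polarBilin (Q F) x)).finrank_le
      rw [finrank_V, finrank_self] at *
      omega
    obtain ⟨d, y, e⟩ := dec h2 Nm_one' (L a (c • oneZ F + L x (oneZ F)))
    have := congrArg (polar (Nm F) · (oneZ F)) e
    simp only [polar_add_left, polar_L_self, polar_smul_left, polar_self', map_add, map_smul, polar_L_skew a (L x _), polar_LL,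
      show polar (Q F) x a = 0 from ha, Nm_one] at this
    rw [show d = 0 by simpa [h2] using this, zero_smul, zero_add] at e
    have y0 : Q F y ≠ 0 := fun k => by
      have := congrArg (Nm F) e
      rw [Nm_L, Nm_L, k] at this
      simp [a0, s0] at this
    have sm : ∀ {u} (hu : Q F u ≠ 0), Sim (refl (Q F) u).1 (Le hu) (Units.mk0 _ (neg_ne_zero.2 hu)) := fun hu =>
      ⟨fun x s => by rw [LinearEquiv.coe_det, det_refl hu, neg_one_smul]; exact L_refl hu x s, fun s => Nm_L _ s⟩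
    exact ⟨_, mul_mem (refl _ a).2 (refl _ y).2, _, _, _, (sm a0).mul (sm y0), a0, (congrArg (L a) e).trans (L_L _ _)⟩
  obtain ⟨Φ, hΦ⟩ := ex_Φ (K := F)
  let Ψ := (MulAut.conj γ).toMonoidHom.comp Φ
  have m : ∀ g, g ∈ Ψ.range ↔ ∃ β, Lift g β ∧ β s = s := fun g => ⟨by
    rintro ⟨θ, rfl⟩
    refine ⟨_, hb.cj (hΦ θ), smul_right_injective _ c0 ?_⟩
    simp only [← map_smul, ← e]
    exact congrArg b ((congrArg θ.1 (b.symm_apply_apply _)).trans (autZ_one θ)), fun ⟨β, l, k⟩ => by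
    have := hb.inv.cj l
    refine ⟨⟨_, mem_autZ h2 this ?_⟩, ?_⟩
    · rw [inv_inv, LinearEquiv.mul_apply, LinearEquiv.mul_apply, e, map_smul, k, ← e]
      exact b.symm_apply_apply _
    · change γ * Φ _ * γ⁻¹ = g
      rw [(hΦ _).eq this]; group⟩
  have i : Function.Injective Ψ := (MulAut.conj γ).injective.comp ((injective_iff_map_eq_one _).2 fun θ e => Subtype.ext
    (LinearEquiv.ext fun t => by
      obtain ⟨c, x, rfl⟩ := dec h2 Nm_one' t
      rw [map_add, map_smul, (hΦ θ).1, autZ_one, e]; rfl))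
  have sl : ∀ γ (b : Au F (S F)) μ, Sim γ b μ → (∀ g : P, γ⁻¹ * h.rp.ρ g * γ ∈ Ψ.range) → ∃ c : F, b s = c • s := fun γ b μ hb k =>
    same_line hi pf s0 hs fun g => by
      obtain ⟨β, l, e⟩ := (m _).1 (k g)
      have := hb.cj l
      refine ⟨b * β * b⁻¹, by simpa [mul_assoc] using this, congrArg b ((congrArg β (b.symm_apply_apply _)).trans e)⟩
  have l : ∀ g ∈ H, H12.glEquiv ι F g ∈ Ψ.range := fun g hg => by
    obtain ⟨β, l⟩ := lift_om h2 (h.om hg)
    obtain ⟨c, hc⟩ := sl _ β 1 ⟨fun x t => by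
      rw [LinearEquiv.coe_det, mem_SLV.1 (OmegaV_le_SLV (h.om hg)), one_smul, l.1], by simpa using l.2⟩ fun x =>
      (m _).2 (by
        obtain ⟨β, k⟩ := hs ⟨_, h.core.normal _ (inv_mem hg) _ x.2⟩
        exact ⟨β, by simpa [Cx.rp] using k⟩)
    have := l.2 s
    rw [hc, Q_smul, mul_eq_right₀ s0, mul_self_eq_one_iff] at this
    rcases this with rfl | rfl
    exacts [(m _).2 ⟨β, l, by simpa using hc⟩, (m _).2 ⟨_, l.neg, by simp [hc]⟩]
  have o : ∀ θ, Ψ θ ∈ orth (Q F) := fun θ => lift_orth (hb.cj (hΦ θ))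
  have cj : ∀ g ∈ orth (Q F), ∀ x ∈ OmegaV (Q F), g * x * g⁻¹ ∈ OmegaV (Q F) := by
    rintro g hg _ ⟨x, hx, rfl⟩
    exact ⟨_, Normal.conj_mem inferInstance x hx ⟨g, hg⟩, rfl⟩
  have := hS.toNontrivial
  have : Finite (GL ι F) := inferInstance
  obtain ⟨t, tt, t1⟩ := ex_inv pf
  obtain ⟨τ, hτ⟩ := l t (h.core.le t.2)
  have tp : ∀ N : Subgroup (Au F (V F)), (∀ θ, ∀ x ∈ N, Ψ θ * x * (Ψ θ)⁻¹ ∈ N) → h.rp.ρ t ∈ N → ∀ θ, Ψ θ ∈ N := fun N hN ht θ =>
    (top_of_inv h2 (N := N.comap Ψ) ⟨fun n hn g => by simpa using hN g _ hn⟩ (t := τ) (by rwa [mem_comap, hτ])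
      (i (by rw [map_mul, hτ, ← map_mul, map_one, ← map_one (H12.glEquiv ι F)]; exact congrArg _ (congrArg Subtype.val tt)))
      (fun e => t1 (h.rp.inj (by rw [map_one, ← map_one Ψ, ← e, hτ]; rfl)))).ge (mem_top θ)
  have om := tp _ (fun θ => cj _ (o θ)) (h.om (h.core.le t.2))
  have oe : ∀ g, g ∈ Geo.omegaGL (quadFormOdd 3 F) ↔ H12.glEquiv ι F g ∈ OmegaV (Q F) := fun g => by
    rw [← H11.coe_qOdd, omegaGL_eq]; rfl
  rcases h.mx.2 (Ψ.range.comap (H12.glEquiv ι F).toMonoidHom) l (by rintro g ⟨θ, e⟩; exact (oe g).2 (e ▸ om θ)) with q | q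
  · have := tp h.rp.ρ.range (by
      rintro θ _ ⟨x, rfl⟩
      obtain ⟨g, hg⟩ := (H12.glEquiv ι F).surjective (Ψ θ)
      exact ⟨⟨_, h.core.normal g (q ▸ ⟨θ, hg.symm⟩) _ x.2⟩, by simp [Cx.rp, hg]⟩) ⟨t, rfl⟩
    exact ⟨(MonoidHom.ofInjective h.rp.inj).trans ((MulEquiv.subgroupCongr (le_antisymm (by
      rintro _ ⟨x, rfl⟩; exact l _ (h.core.le x.2)) (by rintro _ ⟨θ, rfl⟩; exact this θ))).trans
      ((MonoidHom.ofInjective i).symm.trans (g2Equiv F).symm))⟩
  have hu : Q F (Pi.single (.inl ()) 1) ≠ 0 := by simp [Q_apply]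
  obtain ⟨d, hd⟩ := sl (refl (Q F) _).1 (Le hu) (Units.mk0 _ (neg_ne_zero.2 hu)) ⟨fun x s => by
    rw [LinearEquiv.coe_det, det_refl hu, neg_one_smul]; exact L_refl hu x s, fun s => Nm_L _ s⟩ fun x => by
    obtain ⟨g, hg⟩ := (H12.glEquiv ι F).surjective ((refl (Q F) _).1⁻¹ * h.rp.ρ x * (refl (Q F) (Pi.single (.inl ()) 1)).1)
    exact hg ▸ q.ge ((oe g).2 (hg ▸ cj _ (inv_mem (refl _ _).2) _ (h.om (h.core.le x.2))))
  have := polar_L_self (Pi.single (.inl ()) 1) s
  rw [show L _ s = d • s from hd, polar_smul_left, polar_self'] at this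
  rw [show d = 0 by simpa [h2, s0] using this, zero_smul] at hd
  exact (s0 (by rw [(map_eq_zero_iff _ (Le hu).injective).1 hd, map_zero])).elim

end H11.O7
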