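/-
S5806, tool SC: Scott's lemma.
-/
import Cfsg.Agent.H11.SP2

set_option autoImplicit false

open Matrix Cfsg Cfsg.Geo H27.Asch Module H6.SP
namespace H11.SP
universe u v

section
variable {k : Type*} [Field k] {G : Type*} [Group G] {P : Subgroup (G6 k)} {π : P →* G}

theorem scott {V : Type*} [AddCommGroup V] [Module k V] [FiniteDimensional k V] (X Y : End k V) :
    finrank k (LinearMap.ker (X - 1)) + finrank k (LinearMap.ker (Y - 1)) + finrank k (LinearMap.ker (X * Y - 1)) ≤
      finrank k V + finrank k ↥(LinearMap.ker (X - 1) ⊓ LinearMap.ker (Y - 1)) +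
      finrank k (LinearMap.range (X - 1) ⊔ LinearMap.range (Y - 1)).dualAnnihilator := by
  have := (X - 1).finrank_range_add_finrank_ker
  have := (Y - 1).finrank_range_add_finrank_ker
  have := Subspace.finrank_add_finrank_dualAnnihilator_eq (LinearMap.range (X - 1) ⊔ LinearMap.range (Y - 1))
  have c := Submodule.finrank_sup_add_finrank_inf_eq (LinearMap.range (X - 1)) (LinearMap.range (Y - 1))
  have d := ((Y - 1).domRestrict (LinearMap.ker (X * Y - 1))).finrank_range_add_finrank_ker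
  have e : LinearMap.range ((Y - 1).domRestrict (LinearMap.ker (X * Y - 1))) ≤
      LinearMap.range (X - 1) ⊓ LinearMap.range (Y - 1) := by
    rintro _ ⟨⟨v, h⟩, rfl⟩
    exact ⟨⟨-Y v, by simp [sub_eq_zero] at h; simp [h, neg_add_eq_sub]⟩, v, rfl⟩
  have f : (LinearMap.ker ((Y - 1).domRestrict (LinearMap.ker (X * Y - 1)))).map (Submodule.subtype _) ≤
      LinearMap.ker (X - 1) ⊓ LinearMap.ker (Y - 1) := by
    rintro _ ⟨⟨v, h⟩, k, rfl⟩
    simp [sub_eq_zero] at h k ⊢
    exact ⟨by simpa [k] using h, k⟩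
  have := Submodule.finrank_mono e
  have := Submodule.finrank_mono f
  rw [Submodule.finrank_map_subtype_eq] at this
  omega

theorem mem_ann {V : Type*} [AddCommGroup V] [Module k V] {X Y : End k V} {φ : Dual k V} :
    φ ∈ (LinearMap.range (X - 1) ⊔ LinearMap.range (Y - 1)).dualAnnihilator ↔ (∀ v, φ (X v) = φ v) ∧ ∀ v, φ (Y v) = φ v := by
  simp [Submodule.dualAnnihilator_sup_eq, Submodule.mem_dualAnnihilator, sub_eq_zero]

section
variable {ι : Type} [Fintype ι] [DecidableEq ι]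

omit [DecidableEq ι] in
theorem mem_hm {x : M6 k} {y : Matrix ι ι k} {m : Matrix I6 ι k} : m ∈ hm x y ↔ x * m = m * y := Iff.rfl

/-- the action on homomorphisms -/
def Lh (x : G6 k) (X : GL ι k) : End k (Matrix I6 ι k) :=
  ⟨⟨fun m => x.val * m * (X⁻¹).val, fun a b => by rw [Matrix.mul_add, Matrix.add_mul]⟩, fun c a => by simp⟩
theorem Lh_ap (x : G6 k) (X : GL ι k) (m : Matrix I6 ι k) : Lh x X m = x.val * m * (X⁻¹).val := rfl
theorem Lh_mul (x y : G6 k) (X Y : GL ι k) : Lh x X * Lh y Y = Lh (x * y) (X * Y) :=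
  LinearMap.ext fun m => by simp [Lh_ap, Matrix.mul_assoc, -coe_units_inv]
theorem Lh_ker (x : G6 k) (X : GL ι k) : LinearMap.ker (Lh x X - 1) = hm x.val X.val := by
  ext m
  rw [LinearMap.mem_ker, LinearMap.sub_apply, sub_eq_zero, Lh_ap, mem_hm]
  exact ⟨fun h => by simpa [Matrix.mul_assoc, -coe_units_inv] using congrArg (· * X.val) h,
    fun h => by simp [h, Matrix.mul_assoc, -coe_units_inv]⟩

theorem ex_tr (φ : Dual k (Matrix I6 ι k)) : ∃ n : Matrix ι I6 k, ∀ m, φ m = (n * m).trace :=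
  ⟨of fun j i => φ (single i j 1), fun m => by
    conv_lhs => rw [matrix_eq_sum_single m, map_sum]
    simp only [map_sum, trace, diag, mul_apply, of_apply]
    rw [Finset.sum_comm]
    congr! 2
    rw [mul_comm, ← smul_eq_mul, ← map_smul, smul_single, smul_eq_mul, mul_one]⟩

theorem tr_inv {n : Matrix ι I6 k} {x : G6 k} {X : GL ι k} (h : ∀ m, (n * Lh x X m).trace = (n * m).trace) :
    n * x.val = X.val * n := by
  have : (X⁻¹).val * n * x.val = n := ext_iff_trace_mul_right.2 fun m => by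
    rw [← h m, Lh_ap, ← Matrix.mul_assoc, trace_mul_comm _ (X⁻¹).val]; simp only [Matrix.mul_assoc]
  simpa [← Matrix.mul_assoc, -coe_units_inv] using congrArg (X.val * ·) this

variable {x y : G6 k} (h : Algebra.adjoin k {x.val, y.val} = ⊤)
include h

omit [Fintype ι] [DecidableEq ι] in
theorem irr2 (W : Submodule k (V6 k)) (hx : ∀ w ∈ W, x.val *ᵥ w ∈ W) (hy : ∀ w ∈ W, y.val *ᵥ w ∈ W) : W = ⊥ ∨ W = ⊤ := by
  refine or_iff_not_imp_left.2 fun e => eq_top_iff.2 fun v _ => ?_
  obtain ⟨u, hu, u0⟩ := (Submodule.ne_bot_iff W).1 e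
  obtain ⟨a, rfl⟩ := exists_mulVec_eq u0 v
  have ha : a ∈ Algebra.adjoin k {x.val, y.val} := h ▸ trivial
  refine Algebra.adjoin_induction (p := fun a _ => ∀ w ∈ W, a *ᵥ w ∈ W) (by rintro _ (rfl | rfl) <;> assumption)
    (fun c w hw => by simpa [Algebra.algebraMap_eq_smul_one, smul_mulVec] using W.smul_mem c hw)
    (fun a b _ _ p q w hw => add_mulVec a b w ▸ add_mem (p w hw) (q w hw))
    (fun a b _ _ p q w hw => mulVec_mulVec w a b ▸ p _ (q w hw)) ha u hu

theorem scott_hom (X Y : GL ι k) : dh x.val X.val + dh y.val Y.val + dh (x * y).val (X * Y).val ≤ 6 * Fintype.card ι ∨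
    (∃ m : Matrix I6 ι k, Function.Surjective m.mulVec ∧ x.val * m = m * X.val ∧ y.val * m = m * Y.val) ∨
    ∃ n : Matrix ι I6 k, Function.Injective n.mulVec ∧ n * x.val = X.val * n ∧ n * y.val = Y.val * n := by
  have := scott (Lh x X) (Lh y Y)
  rw [Lh_mul, Lh_ker, Lh_ker, Lh_ker] at this
  by_cases a : hm x.val X.val ⊓ hm y.val Y.val = ⊥
  · by_cases b : (LinearMap.range (Lh x X - 1) ⊔ LinearMap.range (Lh y Y - 1)).dualAnnihilator = ⊥
    · rw [a, b] at this
      exact .inl (by simpa [finrank_matrix, dh] using this)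
    obtain ⟨φ, hφ, φ0⟩ := (Submodule.ne_bot_iff _).1 b
    obtain ⟨n, hn⟩ := ex_tr φ
    simp only [mem_ann, hn] at hφ
    have c : ∀ {x : G6 k} {X : GL ι k}, n * x.val = X.val * n → ∀ w ∈ LinearMap.ker n.mulVecLin,
        x.val *ᵥ w ∈ LinearMap.ker n.mulVecLin := fun e w hw => by
      rw [LinearMap.mem_ker, mulVecLin_apply] at *
      rw [mulVec_mulVec, e, ← mulVec_mulVec, hw, mulVec_zero]
    refine .inr (.inr ⟨n, LinearMap.ker_eq_bot.1 ((irr2 h _ (c (tr_inv hφ.1)) (c (tr_inv hφ.2))).resolve_right fun e => φ0 ?_),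
      tr_inv hφ.1, tr_inv hφ.2⟩)
    exact LinearMap.ext fun m => by simp [hn, show n = 0 from ext_mulVec fun v => by simpa using e.ge (Submodule.mem_top (x := v))]
  obtain ⟨m, hm, m0⟩ := (Submodule.ne_bot_iff _).1 a
  have c : ∀ {x : G6 k} {X : GL ι k}, x.val * m = m * X.val → ∀ w ∈ LinearMap.range m.mulVecLin,
      x.val *ᵥ w ∈ LinearMap.range m.mulVecLin := by
    rintro x X e _ ⟨w, rfl⟩
    exact ⟨X.val *ᵥ w, by simp only [mulVecLin_apply, mulVec_mulVec, e]⟩
  exact .inr (.inl ⟨m, LinearMap.range_eq_top.1 ((irr2 h _ (c hm.1) (c hm.2)).resolve_left fun e =>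
    m0 (ext_mulVec fun v => by simpa using e.le ⟨v, rfl⟩)), hm.1, hm.2⟩)

theorem scott_lt (X Y : GL ι k) (l : Fintype.card ι < 6) :
    dh x.val X.val + dh y.val Y.val + dh (x * y).val (X * Y).val ≤ 6 * Fintype.card ι := by
  rcases scott_hom h X Y with a | ⟨m, a, -⟩ | ⟨n, a, -⟩
  · exact a
  · simpa [l.not_ge] using LinearMap.finrank_le_finrank_of_surjective (f := m.mulVecLin) a
  · simpa [l.not_ge] using LinearMap.finrank_le_finrank_of_injective (f := n.mulVecLin) a
end

theorem dh_one (x : G6 k) : dh x.val (1 : GL (Fin 1) k).val + rk x = 6 := by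
  have := (x.val - 1).mulVecLin.finrank_range_add_finrank_ker
  let e : V6 k ≃ₗ[k] Matrix I6 (Fin 1) k := LinearEquiv.piCongrRight fun _ => (LinearEquiv.funUnique (Fin 1) k k).symm
  rw [(e.ofSubmodules (LinearMap.ker _) (hm x.val (1 : GL (Fin 1) k).val) (by
    ext m
    rw [Submodule.mem_map_equiv, LinearMap.mem_ker, mulVecLin_apply, sub_mulVec, one_mulVec, sub_eq_zero, mem_hm, Units.val_one,
      Matrix.mul_one]
    exact ⟨fun h => Matrix.ext fun i j => by rw [Subsingleton.elim j 0]; exact congrFun h i,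
      fun h => funext fun i => congrFun (congrFun h i) 0⟩)).finrank_eq] at this
  rw [add_comm]
  exact this.trans (by simp)

theorem mem_spL {m : M6 k} : m ∈ spL k ↔ ad m = -m := Iff.rfl

theorem ad_Lh {x : G6 k} (hx : x ∈ S6 k) (m : M6 k) : ad (Lh x x m) = Lh x x (ad m) :=
  (spΦ 3 k).adj_cA ((spΦ 3 k).iso_le_sim hx) m

/-- the adjoint representation -/
def Ad : S6 k →* End k (spL k) where
  toFun x := (Lh x.1 x.1).restrict fun m hm => by rw [mem_spL, ad_Lh x.2, mem_spL.1 hm, map_neg]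
  map_one' := by ext; simp [Lh_ap]
  map_mul' x y := LinearMap.ext fun m => Subtype.ext (LinearMap.congr_fun (Lh_mul x.1 y.1 x.1 y.1).symm m.1)

theorem cs_eq (x : S6 k) : finrank k (LinearMap.ker (Ad x - 1)) = cs x.1 := by
  rw [← Submodule.finrank_map_subtype_eq, cs, ← Lh_ker]
  exact congrArg (fun W : Submodule k (M6 k) => finrank k W) (Submodule.ext fun m =>
    ⟨by rintro ⟨m, h, rfl⟩; exact ⟨congrArg Subtype.val h, m.2⟩, fun h => ⟨⟨m, h.2⟩, Subtype.ext h.1, rfl⟩⟩)

/-- symmetric matrices give the Lie algebra -/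
def sy : (Sym2 I6 → k) →ₗ[k] M6 k :=
  ⟨⟨fun s => J _ k * of fun i j => s s(i, j), fun a b => by rw [← Matrix.mul_add]; rfl⟩, fun c a => by
    rw [RingHom.id_apply, ← Matrix.mul_smul]; rfl⟩

theorem ad_eq (m : M6 k) : ad m = -J _ k * mᵀ * J _ k := rfl

theorem sy_inj : Function.Injective (sy (k := k)) := fun _ _ e => funext (Sym2.ind fun i j =>
  congrFun (congrFun ((spΦ 3 k).G.mul_right_inj.1 e) i) j)

theorem range_sy : LinearMap.range (sy (k := k)) = spL k := by
  ext m
  rw [mem_spL, ad_eq]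
  constructor
  · rintro ⟨s, rfl⟩
    change _ * (J (Fin 3) k * of _)ᵀ * _ = -(J (Fin 3) k * of _)
    rw [transpose_mul, J_transpose, show (of fun i j => s s(i, j))ᵀ = of fun i j => s s(i, j) from
      Matrix.ext fun i j => congrArg s Sym2.eq_swap]
    simp [Matrix.mul_assoc, J_squared, -neg_of]
  · intro h
    have : (-J _ k * m)ᵀ = -J _ k * m := by
      conv_rhs => rw [← neg_neg m, ← h]
      simp [← Matrix.mul_assoc, J_squared]
    refine ⟨Sym2.lift ⟨(-J _ k * m : M6 k), fun i j => (congrFun (congrFun this j) i)⟩, ?_⟩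
    change J _ k * (-J _ k * m) = m
    simp [← Matrix.mul_assoc, J_squared]

theorem finrank_spL : finrank k (spL k) = 21 := by
  rw [← range_sy, LinearMap.finrank_range_of_inj sy_inj, finrank_fintype_fun_eq_card, Sym2.card]; rfl
end

theorem sc : SC.{u} := by
  intro k G _ _ P π h x y g
  have a := gn_adj h g
  refine ⟨?_, ?_, fun h2 => ?_, fun m X Y l => by simpa using scott_lt a X Y (by simpa using l), fun X Y l => ?_⟩
  · have := scott_lt a (1 : GL (Fin 1) k) 1 (by simp)
    have := dh_one x.1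
    have := dh_one y.1
    have := dh_one (x * y).1
    simp only [mul_one, Fintype.card_fin, Subgroup.coe_mul] at *
    omega
  · have := scott (Lh x.1 x.1) (Lh y.1 y.1)
    rw [Lh_mul, Lh_ker, Lh_ker, Lh_ker] at this
    have b := (Submodule.finrank_mono (show hm x.1.val x.1.val ⊓ hm y.1.val y.1.val ≤ k ∙ 1 from fun m hm => by
      obtain ⟨c, rfl⟩ := scalar_of_comm_adjoin a (a := m) (by rintro _ (rfl | rfl); exacts [hm.1.symm, hm.2.symm])
      exact Submodule.smul_mem _ _ (Submodule.mem_span_singleton_self _))).trans (finrank_span_le_card _)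
    have c := (Submodule.finrank_mono (show (LinearMap.range (Lh x.1 x.1 - 1) ⊔ LinearMap.range (Lh y.1 y.1 - 1)).dualAnnihilator ≤
        k ∙ traceLinearMap I6 k k from fun φ hφ => by
      obtain ⟨n, hn⟩ := ex_tr φ
      simp only [mem_ann, hn] at hφ
      obtain ⟨c, rfl⟩ := scalar_of_comm_adjoin a (a := n) (by rintro _ (rfl | rfl); exacts [tr_inv hφ.1, tr_inv hφ.2])
      exact Submodule.mem_span_singleton.2 ⟨c, LinearMap.ext fun m => by simp [hn]⟩)).trans (finrank_span_le_card _)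
    simp only [Set.toFinset_singleton, Finset.card_singleton, finrank_matrix, finrank_self] at b c this
    exact this.trans (add_le_add (add_le_add (by simp) b) c : _ ≤ 36 + 1 + 1)
  · have := scott (Ad ⟨x, h.sp x.2⟩) (Ad ⟨y, h.sp y.2⟩)
    have t : ∀ m ∈ spL k, m.trace = 0 := fun m hm => by
      have := (spΦ 3 k).trace_adj m
      rw [show (spΦ 3 k).adj m = -m from hm, trace_neg, RingHom.id_apply] at this
      exact (mul_eq_zero.1 (by linear_combination -this)).resolve_left h2
    rw [← map_mul, cs_eq, cs_eq, cs_eq, finrank_spL, (Submodule.eq_bot_iff (_ ⊓ _)).2 fun m hm => ?_,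
      (Submodule.eq_bot_iff (Submodule.dualAnnihilator _)).2 fun φ hφ => ?_] at this
    · simpa using this
    · let p : M6 k →ₗ[k] spL k := ⟨⟨fun m => ⟨m - ad m, by simp [mem_spL, ad, Frm.adj_sub]⟩, fun a b => Subtype.ext (by
        simp only [ad, Frm.adj_add, Submodule.coe_add]; abel)⟩, fun c a => Subtype.ext (by simp [ad, Frm.adj_smul, smul_sub])⟩
      obtain ⟨n, hn⟩ := ex_tr (φ ∘ₗ p)
      have e : ∀ x : S6 k, (∀ v, φ (Ad x v) = φ v) → n * x.1.val = x.1.val * n := fun x hx => tr_inv fun m => by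
        rw [← hn, ← hn, LinearMap.comp_apply, LinearMap.comp_apply, ← hx (p m)]
        exact congrArg φ (Subtype.ext (by change Lh x.1 x.1 m - ad (Lh x.1 x.1 m) = Lh x.1 x.1 (m - ad m); rw [ad_Lh x.2, map_sub]))
      obtain ⟨c, rfl⟩ := scalar_of_comm_adjoin a (a := n) (by
        rintro _ (rfl | rfl); exacts [e _ (mem_ann.1 hφ).1, e _ (mem_ann.1 hφ).2])
      refine LinearMap.ext fun m => mul_left_cancel₀ h2 ?_
      have := hn m
      rw [LinearMap.comp_apply, show p m = (2 : k) • m from Subtype.ext (by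
        change _ - ad m.1 = _; rw [mem_spL.1 m.2, sub_neg_eq_add, two_smul]; rfl)] at this
      simpa [t _ m.2] using this
    · obtain ⟨c, e⟩ := scalar_of_comm_adjoin a (a := m.1) (by
        rintro _ (rfl | rfl)
        exacts [((Lh_ker _ _).le (congrArg Subtype.val hm.1)).symm, ((Lh_ker _ _).le (congrArg Subtype.val hm.2)).symm])
      have := mem_spL.1 m.2
      rw [e, ad, Frm.adj_smul, Frm.adj_one] at this
      have := congrFun (congrFun this (.inl 0)) (.inl 0)
      refine Subtype.ext (e.trans ?_)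
      rw [show c = 0 from (mul_eq_zero.1 (by simp at this; linear_combination this)).resolve_left h2, zero_smul]; rfl
  rcases scott_hom a X Y with b | ⟨m, b, c, d⟩ | ⟨n, b, c, d⟩
  · exact (l.not_ge (by simpa using b)).elim
  · obtain ⟨B, rfl⟩ := mulVec_surjective_iff_isUnit.1 b
    exact ⟨B, mul_inv_eq_iff_eq_mul.2 (Units.ext c.symm), mul_inv_eq_iff_eq_mul.2 (Units.ext d.symm)⟩
  · obtain ⟨B, rfl⟩ := mulVec_injective_iff_isUnit.1 b
    exact ⟨B⁻¹, by rw [inv_inv, mul_assoc, inv_mul_eq_iff_eq_mul]; exact Units.ext c.symm,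
      by rw [inv_inv, mul_assoc, inv_mul_eq_iff_eq_mul]; exact Units.ext d.symm⟩

end H11.SP
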