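/-
S5806, tools CS R2: centralisers in the Lie algebra, square roots of two.
-/
import Cfsg.Agent.H11.SP3

set_option autoImplicit false

open Matrix Cfsg Cfsg.Geo H27.Asch Module H6.SP Finset
namespace H11.SP
universe u v

section
variable {k : Type*} [Field k]

/-- the diagonal entries -/
def wt (d : Fin 3 → kˣ) : I6 → kˣ := Sum.elim d d⁻¹
theorem dg_eq (d : Fin 3 → kˣ) : H6.SP.dg d = diagonal fun i => (wt d i : k) := by
  rw [H6.SP.dg]; congr; ext (i | i) <;> rfl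

theorem rk_cj (B x : G6 k) : rk (B⁻¹ * x * B) = rk x := by
  rw [rk, rk, show (B⁻¹ * x * B).val - 1 = (B⁻¹).val * (x.val - 1) * B.val by simp [mul_sub, sub_mul, -coe_units_inv],
    rank_mul_eq_left_of_isUnit_det _ _ (isUnits_det_units B), rank_mul_eq_right_of_isUnit_det _ _ (isUnits_det_units B⁻¹)]
theorem T_cj (B x : G6 k) : T (B⁻¹ * x * B) = T x := by
  rw [T, Units.val_mul, trace_mul_comm, ← Units.val_mul, ← mul_assoc, mul_inv_cancel, one_mul, T]

theorem cs_ge {x B : G6 k} (hB : B ∈ S6 k) {d : Fin 3 → kˣ} (h : (B⁻¹ * x * B).val = H6.SP.dg d) (A : Finset (I6 × I6))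
    (i : Set.InjOn (fun p : I6 × I6 => s(p.1, p.2)) A) (hA : ∀ p ∈ A, wt d p.1 * wt d p.2 = 1) : #A ≤ H6.SP.cs x := by
  classical
  have m : ∀ p ∈ A, Lh B B (sy (Pi.single s(p.1, p.2) 1)) ∈ hm x.val x.val ⊓ spL k := fun p hp => by
    refine ⟨?_, (Ad ⟨B, hB⟩ ⟨_, range_sy.le ⟨_, rfl⟩⟩).2⟩
    have a : (diagonal fun i => (wt d i : k)) * J _ k = J _ k * diagonal fun i => (((wt d i)⁻¹ : kˣ) : k) := by
      ext (i | i) (j | j) <;> simp [J, wt, one_apply] <;> split_ifs with e <;> simp [e]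
    have b : (B⁻¹ * x * B).val * sy (Pi.single s(p.1, p.2) 1) = sy (Pi.single s(p.1, p.2) 1) * (B⁻¹ * x * B).val := by
      rw [h, dg_eq]
      change _ * (J (Fin 3) k * _) = J (Fin 3) k * _ * _
      rw [← Matrix.mul_assoc, a, Matrix.mul_assoc, Matrix.mul_assoc]
      congr 1
      ext i j
      rw [diagonal_mul, mul_diagonal, of_apply, Pi.single_apply]
      split_ifs with e
      · rcases Sym2.eq_iff.1 e with ⟨rfl, rfl⟩ | ⟨rfl, rfl⟩
        exacts [by rw [← eq_inv_of_mul_eq_one_right (hA p hp), mul_comm], by rw [← eq_inv_of_mul_eq_one_left (hA p hp), mul_comm]]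
      · simp
    simpa [mem_hm, Lh_ap, Matrix.mul_assoc, -coe_units_inv] using congrArg (fun m => B.val * m * (B⁻¹).val) b
  have li : LinearIndependent k fun p : A => (⟨_, m p p.2⟩ : ↥(hm x.val x.val ⊓ spL k)) :=
    LinearIndependent.of_comp (Submodule.subtype _) (((Pi.linearIndependent_single_one _ k).comp (fun p : A => s(p.1.1, p.1.2))
      fun a b e => Subtype.ext (i a.2 b.2 e)).map' (Lh B B ∘ₗ sy)
        (LinearMap.ker_eq_bot.2 ((cA B).injective.comp sy_inj)))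
  simpa [H6.SP.cs] using li.fintype_card_le_finrank

/-- the signed exponents -/
def ex {n : ℕ} (a : Fin 3 → ZMod n) : I6 → ZMod n := Sum.elim a (-a)
/-- unordered pairs -/
def UP6 : Finset (I6 × I6) := {p | Sum.elim Fin.val (3 + ·.val) p.1 ≤ Sum.elim Fin.val (3 + ·.val) p.2}
/-- the number of trivial weights on the Lie algebra -/
def cnt {n : ℕ} (a : Fin 3 → ZMod n) : ℕ := #{p ∈ UP6 | ex a p.1 + ex a p.2 = 0}

theorem ex_exp [IsAlgClosed k] (n : ℕ) [NeZero n] (hn : (n : k) ≠ 0) {x : G6 k} (hx : x ∈ S6 k) (e : x ^ n = 1) :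
    ∃ (χ : AddChar (ZMod n) kˣ) (a : Fin 3 → ZMod n), (∀ t, χ t = 1 → t = 0) ∧
      ∃ B ∈ S6 k, (B⁻¹ * x * B).val = H6.SP.dg fun i => χ (a i) := by
  obtain ⟨B, hB, h⟩ := dg' {x} (by simpa) (by simp) (by simpa using ⟨n, hn, e⟩)
  obtain ⟨d, hd⟩ := h x rfl
  have := NeZero.mk hn
  obtain ⟨ζ, hζ⟩ := HasEnoughRootsOfUnity.exists_primitiveRoot k n
  have z := (hζ.isUnit (NeZero.ne n)).unit_spec ▸ hζ
  rw [IsPrimitiveRoot.coe_units_iff] at z
  have : ∀ i, ∃ a : ZMod n, AddChar.zmodChar n z.pow_eq_one a = d i := fun i => by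
    have : (B⁻¹ * x * B) ^ n = 1 := by rw [← inv_inv B, inv_inv B⁻¹, conj_pow, e]; simp
    have := congrArg (fun g : G6 k => g.val (.inl i) (.inl i)) this
    simp only [Units.val_pow_eq_pow_val, hd, H6.SP.dg, diagonal_pow] at this
    obtain ⟨j, -, hj⟩ := hζ.eq_pow_of_pow_eq_one (ξ := (d i : k)) (by simpa using this)
    exact ⟨j, by rw [AddChar.zmodChar_apply']; exact Units.ext (by simpa using hj)⟩
  choose a ha using this
  exact ⟨AddChar.zmodChar n z.pow_eq_one, a, fun t ht => (ZMod.natCast_zmod_val t).symm.trans ((ZMod.natCast_eq_zero_iff _ _).2 (z.dvd_of_pow_eq_one _ ht)),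
    B, hB, by simpa only [ha] using hd⟩

theorem ex_cnt [IsAlgClosed k] (n : ℕ) [NeZero n] (hn : (n : k) ≠ 0) {x : G6 k} (hx : x ∈ S6 k) (e : x ^ n = 1) :
    ∃ a : Fin 3 → ZMod n, cnt a ≤ H6.SP.cs x ∧ rk x = #{i | ex a i ≠ 0} ∧
      (∀ m : ℕ, (2 : k) ≠ 0 → x ^ m = -1 → ∀ i, m * a i ≠ 0) ∧
      ∀ (m : ℕ) t, t + t = 0 → t ≠ 0 → (∀ i, m * a i = t) → x ^ m = -1 := by
  obtain ⟨χ, a, h, B, hB, hd⟩ := ex_exp n hn hx e
  have w : ∀ i, wt (fun i => χ (a i)) i = χ (ex a i) := by rintro (i | i) <;> simp [wt, ex, AddChar.map_neg_eq_inv]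
  have p : ∀ m : ℕ, (B⁻¹ * x ^ m * B).val = diagonal fun i => (χ (m * ex a i) : k) := fun m => by
    rw [← inv_inv B, inv_inv B⁻¹, ← conj_pow, inv_inv, Units.val_pow_eq_pow_val, hd, dg_eq, diagonal_pow]
    congr; ext i; simp [w, ← nsmul_eq_mul, AddChar.map_nsmul_eq_pow]
  refine ⟨a, cs_ge hB hd _ (Set.InjOn.mono (coe_subset.2 (filter_subset _ _)) (by decide +kernel)) fun p hp => by
    rw [w, w, ← AddChar.map_add_eq_mul, (mem_filter.1 hp).2, AddChar.map_zero_eq_one], ?_, fun m h2 e i k => h2 ?_,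
    fun m t t1 t2 e => ?_⟩
  · classical
    rw [← rk_cj B, rk, hd, dg_eq, ← diagonal_one, diagonal_sub, rank_diagonal, Fintype.card_subtype]
    congr! 2 with i
    rw [w, sub_ne_zero, ne_eq, Units.val_eq_one]
    exact ⟨fun a e => a (by rw [e, AddChar.map_zero_eq_one]), fun a e => a (h _ e)⟩
  · have := congrFun (congrFun (p m) (.inl i)) (.inl i)
    simp [e, ex, k] at this
    linear_combination -this
  · have c : (χ t : k) = -1 := (mul_self_eq_one_iff.1 (by rw [← Units.val_mul, ← AddChar.map_add_eq_mul, t1]; simp)).resolve_left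
      fun e => t2 (h t (Units.val_eq_one.1 e))
    have := p m
    rw [show (fun i => (χ (m * ex a i) : k)) = fun _ => -1 from funext (by
      rintro (i | i) <;> simp [ex, e, c, neg_eq_of_add_eq_zero_left t1]), ← diagonal_neg, diagonal_one] at this
    have : B⁻¹ * x ^ m * B = -1 := Units.ext this
    simpa [mul_assoc] using congrArg (fun g => B * g * B⁻¹) this

theorem nil_le {U : Type*} [AddCommGroup U] [Module k U] [FiniteDimensional k U] (N : End k U) (m : ℕ) :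
    finrank k (LinearMap.ker (N ^ m)) ≤ m * finrank k (LinearMap.ker N) := by
  induction m with
  | zero => simp [End.one_eq_id]
  | succ m ih =>
    have := (N.domRestrict (LinearMap.ker (N ^ (m + 1)))).finrank_range_add_finrank_ker
    have := Submodule.finrank_mono (show LinearMap.range (N.domRestrict (LinearMap.ker (N ^ (m + 1)))) ≤ LinearMap.ker (N ^ m) by
      rintro _ ⟨⟨v, h⟩, rfl⟩; rwa [pow_succ] at h)
    have := Submodule.finrank_mono (show (LinearMap.ker (N.domRestrict (LinearMap.ker (N ^ (m + 1))))).map (Submodule.subtype _) ≤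
      LinearMap.ker N by rintro _ ⟨v, h, rfl⟩; exact h)
    rw [Submodule.finrank_map_subtype_eq] at this
    rw [add_mul]
    omega

theorem unip_le {U : Type*} [AddCommGroup U] [Module k U] [FiniteDimensional k U] {p : ℕ} (hp : p.Prime) (h : (p : k) = 0)
    {X : End k U} (e : X ^ p = 1) : finrank k U ≤ p * finrank k (LinearMap.ker (X - 1)) := by
  have := Fact.mk hp
  have := (CharP.charP_iff_prime_eq_zero hp).2 h
  have := nil_le (X - 1) p
  rwa [show (X - 1) ^ p = 0 by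
    simpa [e] using congrArg (Polynomial.aeval X) (sub_pow_char (p := p) (Polynomial.X (R := k)) 1), LinearMap.ker_zero,
    finrank_top] at this

theorem cs_unip {p : ℕ} (hp : p.Prime) (h : (p : k) = 0) {x : G6 k} (hx : x ∈ S6 k) (e : x ^ p = 1) : 21 ≤ p * H6.SP.cs x := by
  have := unip_le hp h (X := Ad ⟨x, hx⟩) (by rw [← map_pow, ← map_one Ad]; exact congrArg _ (Subtype.ext e))
  rwa [finrank_spL, cs_eq] at this

theorem rk_eq_zero {x : G6 k} (h : rk x = 0) : x = 1 := Units.ext (sub_eq_zero.1 (ext_mulVec fun v => by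
  simpa [sub_mulVec] using (Submodule.finrank_eq_zero.1 h).le ⟨v, rfl⟩))
end

theorem cs : CS.{u} := by
  intro K _ _ h2 x hx
  have h4 : ((4 : ℕ) : K) ≠ 0 := by simpa [show (4 : K) = 2 * 2 by norm_num] using h2
  refine ⟨congrArg (fun W : Submodule K (M6 K) => finrank K ↥(W ⊓ spL K)) (by ext; simp [mem_hm]), fun e x1 x2 => ?_, fun e => ?_, fun e => ?_, fun e r h3 => ?_,
    fun e x2 => ?_, fun e => ?_, fun e => ?_, fun e => ?_, fun n hn e => ?_⟩
  · obtain ⟨a, a1, a2, -, a4⟩ := ex_cnt 2 h2 hx e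
    exact le_trans ((by decide +kernel : ∀ a : Fin 3 → ZMod 2, #{i | ex a i ≠ 0} ≠ 0 → (¬ ∀ i, (1 : ℕ) * a i = 1) → 13 ≤ cnt a) a
      (a2 ▸ mt rk_eq_zero x1) fun k => x2 (by simpa using a4 1 1 rfl (by decide) k)) a1
  · obtain ⟨a, a1, -, a3, -⟩ := ex_cnt 4 h4 hx (by rw [show 4 = 2 * 2 from rfl, pow_mul, e]; simp)
    exact le_trans ((by decide +kernel : ∀ a : Fin 3 → ZMod 4, (∀ i, (2 : ℕ) * a i ≠ 0) → 9 ≤ cnt a) a (a3 2 h2 e)) a1
  · by_cases h : ((3 : ℕ) : K) = 0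
    · have := cs_unip Nat.prime_three h hx e; omega
    obtain ⟨a, a1, -⟩ := ex_cnt 3 h hx e
    exact le_trans ((by decide +kernel : ∀ a : Fin 3 → ZMod 3, 7 ≤ cnt a) a) a1
  · obtain ⟨a, a1, a2, -⟩ := ex_cnt 3 h3 hx e
    exact le_trans ((by decide +kernel : ∀ a : Fin 3 → ZMod 3, #{i | ex a i ≠ 0} = 2 → 11 ≤ cnt a) a (a2 ▸ r)) a1
  · obtain ⟨a, a1, -, -, a4⟩ := ex_cnt 4 h4 hx e
    exact le_trans ((by decide +kernel : ∀ a : Fin 3 → ZMod 4, (¬ ∀ i, (2 : ℕ) * a i = 2) → 7 ≤ cnt a) a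
      fun k => x2 (a4 2 2 rfl (by decide) k)) a1
  · obtain ⟨a, a1, -, a3, -⟩ := ex_cnt 8 (by simpa [show (8 : K) = 2 * 2 * 2 by norm_num] using h2) hx
      (by rw [show 8 = 4 * 2 from rfl, pow_mul, e]; simp)
    exact le_trans ((by decide +kernel : ∀ a : Fin 3 → ZMod 8, (∀ i, (4 : ℕ) * a i ≠ 0) → 5 ≤ cnt a) a (a3 4 h2 e)) a1
  · by_cases h : ((5 : ℕ) : K) = 0
    · have := cs_unip Nat.prime_five h hx e; omega
    obtain ⟨a, a1, -⟩ := ex_cnt 5 h hx e
    exact le_trans ((by decide +kernel : ∀ a : Fin 3 → ZMod 5, 5 ≤ cnt a) a) a1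
  · by_cases h : ((7 : ℕ) : K) = 0
    · have := cs_unip Nat.prime_seven h hx e; omega
    obtain ⟨a, a1, -⟩ := ex_cnt 7 h hx e
    exact le_trans ((by decide +kernel : ∀ a : Fin 3 → ZMod 7, 3 ≤ cnt a) a) a1
  obtain ⟨B, hB, h⟩ := dg' {x} (by simpa) (by simp) (by simpa using ⟨n, hn, e⟩)
  obtain ⟨d, hd⟩ := h x rfl
  exact cs_ge hB hd {(.inl 0, .inr 0), (.inl 1, .inr 1), (.inl 2, .inr 2)} (by decide +kernel) (by simp [wt])

theorem three {F K : Type*} [Field F] [Field K] [IsAlgClosed K] (σ : F →+* K) (h2 : (2 : K) ≠ 0) {x : G6 F} (hx : x ∈ S6 F) {m : ℕ}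
    (e : x ^ 2 ^ m = -1) : ∃ l : Fin 3 → K, (∀ i, l i ^ 2 ^ m = -1) ∧ σ (T x) = ∑ i, (l i + (l i)⁻¹) ∧
      ∀ c, (∀ i, l i + (l i)⁻¹ = c) → c ∈ σ.range := by
  have e' : GeneralLinearGroup.map σ x ^ 2 ^ m = -1 := by rw [← map_pow, e, gm_neg, map_one]
  obtain ⟨B, -, h⟩ := dg' {GeneralLinearGroup.map σ x} (by simpa [gm_mem]) (by simp)
    (by simpa using ⟨2 ^ m * 2, by simp [h2], by rw [pow_mul, e']; simp⟩)
  obtain ⟨d, hd⟩ := h _ rfl
  refine ⟨fun i => d i, fun i => ?_, ?_, fun c hc => ⟨(x.val + (x⁻¹).val) (.inl 0) (.inl 0), ?_⟩⟩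
  · have : (B⁻¹ * GeneralLinearGroup.map σ x * B) ^ 2 ^ m = -1 := by rw [← inv_inv B, inv_inv B⁻¹, conj_pow, e']; simp
    have := congrArg (fun g : G6 K => g.val (.inl i) (.inl i)) this
    simp only [Units.val_pow_eq_pow_val, hd, H6.SP.dg, diagonal_pow] at this
    simpa using this
  · rw [← gm_T, ← T_cj B, T, hd, H6.SP.dg]; simp [sum_add_distrib]
  have : (B⁻¹ * GeneralLinearGroup.map σ x * B)⁻¹.val = H6.SP.dg d⁻¹ := Units.inv_eq_of_mul_eq_one_right (by
    rw [hd, dg_eq, dg_eq, diagonal_mul_diagonal, ← diagonal_one]; congr; ext (i | i) <;> simp [wt])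
  have : (B⁻¹).val * ((x.val + (x⁻¹).val).map σ) * B.val = c • 1 := by
    rw [Matrix.map_add _ (map_add σ), mul_add, add_mul, ← gm_val, ← gm_val, ← Units.val_mul, ← Units.val_mul, hd,
      ← Units.val_mul, ← Units.val_mul, map_inv, show B⁻¹ * (GeneralLinearGroup.map σ x)⁻¹ * B = (B⁻¹ * GeneralLinearGroup.map σ x * B)⁻¹
        by group, this, dg_eq, dg_eq, diagonal_add, smul_one_eq_diagonal]
    congr; ext (i | i) <;> simp [wt, ← hc i, add_comm]
  have := congrArg (fun m => (B.val * m * (B⁻¹).val) (.inl 0) (.inl 0)) this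
  simpa [← mul_assoc, -coe_units_inv] using this

theorem r2' {F K : Type*} [Field F] [Fintype F] [Field K] [IsAlgClosed K] (σ : F →+* K) (h2 : (2 : F) ≠ 0) {x : G6 F}
    (hx : x ∈ S6 F) : (x ^ 4 = -1 → IsSquare (2 : F)) ∧ (Fintype.card F = 9 → x ^ 8 ≠ -1) := by
  have h2' : (2 : K) ≠ 0 := by rw [← map_ofNat σ]; exact (map_ne_zero _).2 h2
  refine ⟨fun e => ?_, fun h9 e => ?_⟩
  · obtain ⟨l, l1, l2, l3⟩ := three σ h2' hx (m := 2) e
    have a : ∀ i, (l i + (l i)⁻¹) * (l i + (l i)⁻¹) = 2 := fun i => by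
      have := l1 i
      have : l i ≠ 0 := by rintro e; simp [e] at this
      field_simp
      linear_combination l1 i
    suffices ∃ c, c * c = 2 ∧ c ∈ σ.range by
      obtain ⟨_, h, c, rfl⟩ := this
      exact ⟨c, σ.injective (by rw [map_mul, h, map_ofNat])⟩
    rw [Fin.sum_univ_three] at l2
    rcases mul_self_eq_mul_self_iff.1 ((a 1).trans (a 0).symm) with b | b
    · rcases mul_self_eq_mul_self_iff.1 ((a 2).trans (a 0).symm) with c | c
      · exact ⟨_, a 0, l3 _ fun i => by fin_cases i; exacts [rfl, b, c]⟩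
      · exact ⟨_, a 1, T x, by rw [l2, c]; ring⟩
    · exact ⟨_, a 2, T x, by rw [l2, b]; ring⟩
  obtain ⟨l, l1, l2, l3⟩ := three σ h2' hx (m := 3) e
  have h3 : (3 : K) = 0 := by
    have := congrArg σ (FiniteField.cast_card_eq_zero F)
    rw [h9, map_natCast, map_zero] at this
    exact mul_self_eq_zero.1 (by rw [← this]; norm_num)
  have := Fact.mk Nat.prime_three
  have := (CharP.charP_iff_prime_eq_zero Nat.prime_three).2 h3
  have f : ∀ c ∈ σ.range, c ^ 3 ^ 2 = c := by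
    rintro _ ⟨c, rfl⟩
    rw [← map_pow, show 3 ^ 2 = Fintype.card F from h9.symm, FiniteField.pow_card]
  have a : ∀ i, (l i + (l i)⁻¹) ^ 3 ^ 2 = -(l i + (l i)⁻¹) ∧ (l i + (l i)⁻¹) ^ 4 - (l i + (l i)⁻¹) ^ 2 - 1 = 0 := fun i => by
    have := l1 i
    have : l i ≠ 0 := by rintro e; simp [e] at this
    have b : l i ^ 3 ^ 2 = -l i := by linear_combination l i * l1 i
    refine ⟨by rw [add_pow_char_pow, inv_pow, b, inv_neg, neg_add], ?_⟩
    field_simp
    linear_combination l1 i + (l i ^ 6 + l i ^ 4 + l i ^ 2) * h3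
  have b := f _ ⟨T x, rfl⟩
  rw [l2, Fin.sum_univ_three, add_pow_char_pow, add_pow_char_pow, (a 0).1, (a 1).1, (a 2).1] at b
  have := f _ (l3 (l 0 + (l 0)⁻¹) ?_)
  · have c := a 0
    rw [c.1, neg_eq_iff_add_eq_zero, ← two_mul, mul_eq_zero, or_iff_right h2'] at this
    simpa [this] using c.2
  have a0 := (a 0).2
  have a1 := (a 1).2
  have a2 := (a 2).2
  rw [Fin.forall_fin_succ, Fin.forall_fin_two]
  generalize l 0 + (l 0)⁻¹ = s at *
  change s = s ∧ l 1 + (l 1)⁻¹ = s ∧ l 2 + (l 2)⁻¹ = s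
  generalize l 1 + (l 1)⁻¹ = t at *
  generalize l 2 + (l 2)⁻¹ = r at *
  grind

theorem r2 : R2.{u} := fun F _ _ h2 _ => r2' (algebraMap F (AlgebraicClosure F)) h2

end H11.SP
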