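/-
S5806, tools LF GS.
-/
import Cfsg.Agent.H6.SP0
import Cfsg.Agent.H11.SL2Schur
import Cfsg.Agent.H11.PLift
import Cfsg.Agent.H12.TvBridge

set_option autoImplicit false

open Matrix Cfsg H6.SP
open scoped commutatorElement MatrixGroups
namespace H11.SP
universe u v

theorem top_of_map {Γ G : Type*} [Group Γ] [Group G] {π : Γ →* G} (hp : commutator Γ = ⊤) (hc : π.ker ≤ Subgroup.center Γ)
    {H : Subgroup Γ} (h : ∀ g, π g ∈ H.map π) : H = ⊤ := by
  have a : ∀ g : Γ, ∃ x ∈ H, ∃ z ∈ Subgroup.center Γ, g = x * z := fun g =>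
    let ⟨x, hx, e⟩ := h g
    ⟨x, hx, x⁻¹ * g, hc (by simp [e]), by simp⟩
  refine eq_top_iff.2 (hp.ge.trans (Subgroup.commutator_le.2 fun g _ g' _ => ?_))
  obtain ⟨x, hx, z, hz, rfl⟩ := a g
  obtain ⟨x', hx', z', hz', rfl⟩ := a g'
  have c : ∀ z ∈ Subgroup.center Γ, ∀ x y : Γ, x * z * y * (x * z)⁻¹ = x * y * x⁻¹ := fun z hz x y => by
    rw [mul_assoc x z, ← Subgroup.mem_center_iff.1 hz]; group
  rw [show ⁅x * z, x' * z'⁆ = ⁅x, x'⁆ by rw [commutatorElement_def, c z hz, mul_assoc x, mul_assoc x, c z' hz']; group]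
  exact mul_mem (mul_mem (mul_mem hx hx') (inv_mem hx)) (inv_mem hx')

theorem lf : LF.{u} := by
  intro E _ _ Γ _ _ π ho h5 hs hp hc hk
  obtain ⟨Δ, _, ξ, β, h1, h2, h3⟩ := exists_stem_pullback ⟨sl2_perfect (F := E) (by omega)⟩ π hs hc (QuotientGroup.mk' _)
  obtain ⟨p, _⟩ := CharP.exists E
  have := Fact.mk (CharP.char_is_prime E p)
  have := H23.finite_of_stem h1
  have a := sl2_not_dvd_of_ne h1 p Nat.prime_two (by
    rintro rfl
    exact Nat.not_odd_iff.2 (FiniteField.even_card_iff_char_two.1 (ringChar.eq E 2)) ho)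
  have b := (Nat.card_le_card_of_injective (fun z : ξ.ker => (⟨β z, (DFunLike.congr_fun h2 z.1).trans
    ((congrArg (QuotientGroup.mk' _) z.2).trans (map_one _))⟩ : π.ker)) fun z w e => Subtype.ext (mul_inv_eq_one.1
      (h3 _ (mul_mem z.2 (inv_mem w.2)) (by rw [map_mul, map_inv, Subtype.mk.inj e, mul_inv_cancel])))).trans hk
  have := Nat.card_pos (α := ξ.ker)
  let e := MulEquiv.ofBijective ξ ⟨(MonoidHom.ker_eq_bot_iff _).1 (Subgroup.card_eq_one.1 (by omega)), h1.1⟩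
  have c : ∀ g, π (β (e.symm g)) = QuotientGroup.mk g := fun g =>
    (DFunLike.congr_fun h2 _).trans (congrArg _ (e.apply_symm_apply g))
  refine ⟨β.comp e.symm.toMonoidHom, MonoidHom.range_eq_top.1 (top_of_map hp hc fun g => ?_), c⟩
  obtain ⟨x, hx⟩ := QuotientGroup.mk_surjective (π g)
  exact ⟨_, ⟨x, rfl⟩, (c x).trans hx⟩

theorem mv3 {E : Type*} [Field E] (a b c d e f g h i : E) (v : Fin 3 → E) : !![a, b, c; d, e, f; g, h, i] *ᵥ v =
    ![a * v 0 + b * v 1 + c * v 2, d * v 0 + e * v 1 + f * v 2, g * v 0 + h * v 1 + i * v 2] := by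
  ext j; fin_cases j <;> simp [mulVec, dotProduct, Fin.sum_univ_three]

theorem gs_aux {E : Type*} [Field E] [Finite E] {σ : E →+* E} (σσ : ∀ a, σ (σ a) = a) (σ1 : σ ≠ RingHom.id E) {l : E} (l1 : σ l = l)
    (l2 : l ≠ 0) (l3 : l ≠ 1) (P : E → E → E → Prop) (p0 : P 1 0 0)
    (r : ∀ a b x y z, a * σ a + b * σ b = 1 → (P (a * x + b * y) (-σ b * x + σ a * y) z → P x y z) ∧
      (P (a * x + b * z) y (-σ b * x + σ a * z) → P x y z) ∧ (P x (a * y + b * z) (-σ b * y + σ a * z) → P x y z))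
    (x y z : E) (h : x * σ x + y * σ y + z * σ z = 1) : P x y z := by
  have p1 : ∀ x y, x * σ x + y * σ y = 1 → P x y 0 ∧ P x 0 y := fun x y h =>
    ⟨(r (σ x) (σ y) x y 0 (by grind)).1 (by convert p0 using 1 <;> grind),
      (r (σ x) (σ y) x 0 y (by grind)).2.1 (by convert p0 using 1 <;> grind)⟩
  have n : ∀ x y, x * σ x + y * σ y ≠ 0 → ∃ a b, a * σ a + b * σ b = 1 ∧ -σ b * x + σ a * y = 0 ∧
      (a * x + b * y) * σ (a * x + b * y) = x * σ x + y * σ y := fun x y h => by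
    obtain ⟨t, ht⟩ := H12.exists_norm_of_finite σσ σ1 (x * σ x + y * σ y) (by simp [σσ, mul_comm])
    have t0 : t ≠ 0 := by rintro rfl; exact h (by simpa using ht.symm)
    have t1 : σ t ≠ 0 := by simpa using t0
    refine ⟨σ x / σ t, σ y / σ t, ?_, ?_, ?_⟩ <;> simp only [map_div₀, σ.map_add, σ.map_mul, σσ] <;> field_simp
    exacts [by linear_combination -ht, by ring, by linear_combination -(x * σ x + y * σ y) * ht]
  have p2 : ∀ x y z, x * σ x + y * σ y + z * σ z = 1 → y * σ y ≠ 1 → P x y z := fun x y z h q => by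
    obtain ⟨a, b, c, d, e⟩ := n x z fun e => q (by linear_combination h - e)
    exact (r a b x y z c).2.1 (by rw [d]; exact (p1 _ _ (by linear_combination e + h)).1)
  by_cases hy : y * σ y = 1
  swap
  · exact p2 x y z h hy
  by_cases hx : x * σ x = 1
  swap
  · obtain ⟨a, b, c, d, e⟩ := n y z fun e => hx (by linear_combination h - e)
    exact (r a b x y z c).2.2 (by rw [d]; exact (p1 _ _ (by linear_combination e + h)).1)
  by_cases hz : z * σ z = 1
  swap
  · obtain ⟨a, b, c, d, e⟩ := n x y fun e => hz (by linear_combination h - e)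
    exact (r a b x y z c).1 (by rw [d]; exact (p1 _ _ (by linear_combination e + h)).2)
  obtain ⟨w, hw⟩ := H12.exists_trace_eq σ1 σσ (b := (1 + l ^ 2) / l) (by simp [l1])
  rw [eq_div_iff l2] at hw
  clear n p1 p0
  replace r := (r (w * σ y) ((w + l) * σ z) x y z (by simp only [σ.map_mul, σ.map_add, σσ, l1]; clear r p2; grind)).2.2
  refine r (p2 _ _ _ ?_ ?_) <;> simp only [σ.map_mul, σ.map_add, σ.map_neg, σσ, l1] <;> clear r p2 <;> grind

set_option maxHeartbeats 1000000 in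
theorem gs : GS := by
  intro E _ _ r hE h3
  set M := Subgroup.closure {g : SU 3 E r | ∃ i, g.1.1 *ᵥ Pi.single i 1 = Pi.single i 1}
  obtain ⟨σ, hσ, σσ, σ1, l, l1, l2, l3⟩ : ∃ σ : E →+* E, (∀ a, a ^ r = σ a) ∧ (∀ a, σ (σ a) = a) ∧ σ ≠ RingHom.id E ∧
      ∃ a, σ a = a ∧ a ≠ 0 ∧ a ≠ 1 :=
    ⟨frob hE, fun _ => rfl, frob_frob hE, frob_ne_id hE, H12.exists_fixed_ne hE (by omega)⟩
  let P : (Fin 3 → E) → Prop := fun v => ∃ m ∈ M, m.1.1 *ᵥ v = Pi.single 0 1
  have k : ∀ (A : Matrix (Fin 3) (Fin 3) E) (i : Fin 3), A.det = 1 → (∀ u v, hermForm 3 E r (A *ᵥ u) (A *ᵥ v) = hermForm 3 E r u v) →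
      A *ᵥ Pi.single i 1 = Pi.single i 1 → ∀ v, P (A *ᵥ v) → P v := fun A i d h e v ⟨m, hm, f⟩ =>
    ⟨m * ⟨⟨A, d⟩, h⟩, mul_mem hm (Subgroup.subset_closure ⟨i, e⟩), (mulVec_mulVec _ _ _).symm.trans f⟩
  have hf : ∀ u v, hermForm 3 E r u v = u 0 * σ (v 0) + u 1 * σ (v 1) + u 2 * σ (v 2) := fun u v => by
    rw [hermForm, Fin.sum_univ_three, hσ, hσ, hσ]
  refine eq_top_iff.2 fun g _ => ?_
  obtain ⟨m, hm, e⟩ := gs_aux σσ σ1 l1 l2 l3 (fun x y z => P ![x, y, z]) ⟨1, one_mem _, by ext i; fin_cases i <;> simp⟩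
    (fun a b x y z h => by
      refine ⟨fun p => k !![a, b, 0; -σ b, σ a, 0; 0, 0, 1] 2 ?_ (fun u v => ?_) ?_ _ ?_,
        fun p => k !![a, 0, b; 0, 1, 0; -σ b, 0, σ a] 1 ?_ (fun u v => ?_) ?_ _ ?_,
        fun p => k !![1, 0, 0; 0, a, b; 0, -σ b, σ a] 0 ?_ (fun u v => ?_) ?_ _ ?_⟩
      iterate 3
        · simp [det_fin_three, h]
        · rw [mv3, mv3, hf, hf]
          simp only [cons_val_zero, cons_val_one, cons_val_two, tail_cons, head_cons, σ.map_add, σ.map_mul, σ.map_neg,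
            σ.map_zero, σ.map_one, σσ]
          first
          | linear_combination (u 0 * σ (v 0) + u 1 * σ (v 1)) * h
          | linear_combination (u 0 * σ (v 0) + u 2 * σ (v 2)) * h
          | linear_combination (u 1 * σ (v 1) + u 2 * σ (v 2)) * h
        · rw [mv3]; ext i; fin_cases i <;> simp
        · rw [mv3]
          simpa only [cons_val_zero, cons_val_one, cons_val_two, tail_cons, head_cons, zero_mul, one_mul, add_zero, zero_add] using p)
    (g.1.1 0 0) (g.1.1 1 0) (g.1.1 2 0) (by simpa [hf] using g.2 (Pi.single 0 1) (Pi.single 0 1))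
  refine (M.mul_mem_cancel_left hm).1 (Subgroup.subset_closure ⟨0, (mulVec_mulVec _ _ _).symm.trans (Eq.trans ?_ e)⟩)
  congr; ext i; fin_cases i <;> simp

end H11.SP
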