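/-
S5806, tool W7: the affine space of quadratic forms.
-/
import Cfsg.Agent.H11.SP3

set_option autoImplicit false

open Matrix Cfsg Cfsg.Geo H27.Asch Module H6.SP
namespace H11.SP
universe u v

section
variable {k : Type*} [Field k]

theorem ex_dual (l : V6 k →ₗ[k] k) : ∃ δ, ∀ v, fm δ v = l v :=
  ⟨Sum.elim (fun i => -l (Pi.single (.inr i) 1)) fun i => l (Pi.single (.inl i) 1), fun v => by
    conv_rhs => rw [pi_eq_sum_univ' v]
    simp [fm_ap, Finset.sum_add_distrib, mul_comm]⟩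

/-- the standard quadratic form -/
def Q0 (v : V6 k) : k := ∑ i, v (.inl i) * v (.inr i)
theorem Q0_smul (c : k) (v : V6 k) : Q0 (c • v) = c ^ 2 * Q0 v := by simp [Q0, Fin.sum_univ_three]; ring
/-- the cocycle -/
def Dl (g : G6 k) (δ : V6 k) : Prop := ∀ v, Q0 ((g⁻¹).val *ᵥ v) = Q0 v + fm δ v ^ 2
/-- the action on quadratic forms -/
def Xq (g : G6 k) (δ : V6 k) : End k (V6 k × k) :=
  (g.val.mulVecLin.coprod (LinearMap.toSpanSingleton k _ δ)).prod (LinearMap.snd k _ _)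
theorem Xq_ap (g : G6 k) (δ : V6 k) (a : V6 k × k) : Xq g δ a = (g.val *ᵥ a.1 + a.2 • δ, a.2) := rfl
theorem fm_inv {g : G6 k} (hg : g ∈ S6 k) (a v : V6 k) : fm a ((g⁻¹).val *ᵥ v) = fm (g.val *ᵥ a) v := by rw [fm_ad, mem_ad.1 hg]

variable [CharP k 2]
theorem Q0_add (u v : V6 k) : Q0 (u + v) = Q0 u + Q0 v + fm u v := by
  simp only [Q0, fm_ap, Fin.sum_univ_three, Pi.add_apply, CharTwo.sub_eq_add]; ring

theorem Dl.mul {g h : G6 k} (hg : g ∈ S6 k) {a b : V6 k} (p : Dl g a) (q : Dl h b) : Dl (g * h) (a + g.val *ᵥ b) := fun v => by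
  rw [_root_.mul_inv_rev, Units.val_mul, ← mulVec_mulVec, q, p, fm_inv hg, fm_add_l, CharTwo.add_sq, add_assoc]

theorem ex_Dl [PerfectRing k 2] {g : G6 k} (hg : g ∈ S6 k) : ∃ δ, Dl g δ := by
  let s := (frobeniusEquiv k 2).symm
  have e : ∀ a, s a ^ 2 = a := (frobeniusEquiv k 2).apply_symm_apply
  obtain ⟨δ, h⟩ := ex_dual (k := k) ⟨⟨fun v => s (Q0 v + Q0 ((g⁻¹).val *ᵥ v)), fun u v => by
    rw [← map_add, mulVec_add, Q0_add, Q0_add, mem_S6.1 (inv_mem hg)]; congr 1; grind⟩, fun c v => by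
    dsimp only
    rw [mulVec_smul, Q0_smul, Q0_smul, ← mul_add, map_mul, show s (c ^ 2) = c from (frobeniusEquiv k 2).symm_apply_apply c]; rfl⟩
  exact ⟨δ, fun v => by rw [h]; exact (CharTwo.add_cancel_left _ _).symm.trans (congrArg _ (e _).symm)⟩

theorem Dl.ker {g : G6 k} (hg : g ∈ S6 k) {δ : V6 k} (p : Dl g δ) (o : Odd (orderOf g)) :
    7 ≤ finrank k (LinearMap.ker (Xq g δ - 1)) + rk g := by
  have a : ∀ n : ℕ, ∃ d, Dl (g ^ n) d ∧ d - (n : k) • δ ∈ LinearMap.range (g.val - 1).mulVecLin := fun n => by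
    induction n with
    | zero => exact ⟨0, fun v => by simp, by simp⟩
    | succ n ih =>
      obtain ⟨d, h1, h2⟩ := ih
      refine ⟨_, pow_succ' g n ▸ p.mul hg h1, ?_⟩
      convert add_mem h2 ⟨d, rfl⟩ using 1
      simp [sub_mulVec, add_smul]; abel
  obtain ⟨d, h1, h2⟩ := a (orderOf g)
  rw [show d = 0 from fm_nd fun v => by simpa [pow_orderOf_eq_one] using h1 v, CharTwo.natCast_eq_ite, if_neg (Nat.not_even_iff_odd.2 o),
    one_smul, zero_sub, neg_mem_iff] at h2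
  have := (Xq g δ - 1).finrank_range_add_finrank_ker
  have b := (Submodule.finrank_mono (show LinearMap.range (Xq g δ - 1) ≤
      (LinearMap.range (g.val - 1).mulVecLin).map (LinearMap.inl k _ k) by
    rintro _ ⟨a, rfl⟩
    refine ⟨_, add_mem ⟨a.1, rfl⟩ (Submodule.smul_mem _ a.2 h2), ?_⟩
    simp [Xq_ap, sub_mulVec, Prod.ext_iff]; abel)).trans (Submodule.finrank_map_le _ _)
  rw [show finrank k (V6 k × k) = 7 by simp] at this
  exact this.ge.trans (add_comm (rk g) _ ▸ add_le_add_left b _)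

theorem Dl.fix {g : G6 k} (hg : g ∈ S6 k) {δ v : V6 k} (p : Dl g δ) {c : k} (c0 : c ≠ 0) (q : g.val *ᵥ v + c • δ = v) (w : V6 k) :
    Q0 (g.val *ᵥ w) + fm (c⁻¹ • v) (g.val *ᵥ w) ^ 2 = Q0 w + fm (c⁻¹ • v) w ^ 2 := by
  conv_rhs => rw [← inv_mulVec_mulVec g w]
  rw [p, fm_inv hg, add_assoc, ← CharTwo.add_sq, ← fm_add_l, mulVec_smul, add_comm δ, ← inv_smul_smul₀ c0 δ, ← smul_add, q]

omit [CharP k 2] in
theorem inv_gen {P : Subgroup (G6 k)} {S : Set P} (hS : Subgroup.closure S = ⊤) {α : Type*} (Q : V6 k → α)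
    (h : ∀ z ∈ S, ∀ w, Q (z.1.val *ᵥ w) = Q w) (z : P) : ∀ w, Q (z.1.val *ᵥ w) = Q w :=
  Subgroup.closure_induction (p := fun (z : P) _ => ∀ w, Q (z.1.val *ᵥ w) = Q w) h (by simp) (fun a b _ _ p q w => by
    rw [Subgroup.coe_mul, Units.val_mul, ← mulVec_mulVec, p, q]) (fun a _ p w => by
    rw [← p, Subgroup.coe_inv, mulVec_inv_mulVec]) (hS.ge (Subgroup.mem_top z))
end

theorem w7 : W7.{u} := by
  intro K G _ _ _ _ P π h x y g ox oy oz
  have a := gn_adj h.toRq g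
  obtain ⟨d, hd⟩ := ex_Dl (h.sp x.2)
  obtain ⟨e, he⟩ := ex_Dl (h.sp y.2)
  have := hd.ker (h.sp x.2) (by rwa [Subgroup.orderOf_coe])
  have := he.ker (h.sp y.2) (by rwa [Subgroup.orderOf_coe])
  have := (hd.mul (h.sp x.2) he).ker (h.sp (x * y).2) (by rwa [← Subgroup.orderOf_coe] at oz)
  have s := scott (Xq x d) (Xq y e)
  have b := (Submodule.finrank_mono (show (LinearMap.range (Xq x d - 1) ⊔ LinearMap.range (Xq y e - 1)).dualAnnihilator ≤
      K ∙ LinearMap.snd K _ _ from fun φ hφ => by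
    have c : ∀ (g : G6 K) δ, (∀ v, φ (Xq g δ v) = φ v) → ∀ w ∈ LinearMap.ker (φ ∘ₗ LinearMap.inl K _ _),
        g.val *ᵥ w ∈ LinearMap.ker (φ ∘ₗ LinearMap.inl K _ _) := fun g δ q w hw => by
      simpa [Xq_ap] using (q (w, 0)).trans hw
    have := (irr2 a _ (c _ _ (mem_ann.1 hφ).1) (c _ _ (mem_ann.1 hφ).2)).resolve_left fun e => by
      simpa using LinearMap.finrank_le_finrank_of_injective (LinearMap.ker_eq_bot.1 e)
    refine Submodule.mem_span_singleton.2 ⟨φ (0, 1), LinearMap.prod_ext ?_ (LinearMap.ext_ring (by simp))⟩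
    rw [LinearMap.ker_eq_top.1 this]; ext; simp)).trans (finrank_span_le_card _)
  rw [show Xq x d * Xq y e = Xq (x * y) (d + x.1.val *ᵥ e) from LinearMap.ext fun v => by
      simp [Xq_ap, mulVec_add, mulVec_smul]; abel, (Submodule.eq_bot_iff (_ ⊓ _)).2 ?_, show finrank K (V6 K × K) = 7 by simp] at s
  · simp only [Set.toFinset_singleton, Finset.card_singleton, finrank_bot, Subgroup.coe_mul] at *
    omega
  rintro ⟨v, c⟩ ⟨p, q⟩
  replace p : x.1.val *ᵥ v + c • d = v := congrArg Prod.fst (sub_eq_zero.1 p)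
  replace q : y.1.val *ᵥ v + c • e = v := congrArg Prod.fst (sub_eq_zero.1 q)
  by_cases c0 : c = 0
  · subst c0
    rw [zero_smul, add_zero] at p q
    rcases irr2 a (K ∙ v) (fun w hw => by obtain ⟨c, rfl⟩ := Submodule.mem_span_singleton.1 hw; rwa [mulVec_smul, p])
      (fun w hw => by obtain ⟨c, rfl⟩ := Submodule.mem_span_singleton.1 hw; rwa [mulVec_smul, q]) with r | r
    · rw [Submodule.span_singleton_eq_bot.1 r]; rfl
    · have := finrank_span_le_card (R := K) {v}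
      rw [r, finrank_top] at this
      simp at this
  refine (h.nq ⟨fun w => Q0 w + fm (c⁻¹ • v) w ^ 2, fun c w => by simp only [Q0_smul, fm_smul_r]; ring, fun u w => by
    simp only [Q0_add, fm_add_r, CharTwo.add_sq]; ring, fun z hz => ?_⟩).elim
  refine inv_gen (gn_top h.toRq g) (fun w => Q0 w + fm (c⁻¹ • v) w ^ 2) ?_ ⟨z, hz⟩
  rintro _ (rfl | rfl)
  exacts [hd.fix (h.sp (Subtype.prop _)) c0 p, he.fix (h.sp (Subtype.prop _)) c0 q]

end H11.SP
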